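import Cfsg.Agent.Mdx.Dual

/-!
Orbit counting for an additive subgroup `E` of `V` acting on a finite set, through the duals of the
point stabilisers.
-/

set_option autoImplicit false

namespace Cfsg.Agent.Mdx

open Finset

section Count

variable {F V : Type*} [Field F] [AddCommGroup V] [Module F V]
variable {E : AddSubgroup V} {Y : Type*} [AddAction E Y]

/-- Stabiliser of a point, as a subgroup of `V`. -/
def stA (E : AddSubgroup V) {Y : Type*} [AddAction E Y] (y : Y) : AddSubgroup V :=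
  (AddAction.stabilizer E y).map E.subtype

theorem mem_stA {y : Y} {b : V} : b ∈ stA E y ↔ ∃ hb : b ∈ E, (⟨b, hb⟩ : E) +ᵥ y = y := by
  constructor
  · rintro ⟨⟨c, hc⟩, h, rfl⟩
    exact ⟨hc, h⟩
  · rintro ⟨hb, h⟩
    exact ⟨⟨b, hb⟩, h, rfl⟩

theorem stA_le (y : Y) : stA E y ≤ E := by
  intro b hb
  exact (mem_stA.1 hb).1

theorem stA_vadd (b : E) (y : Y) : stA E (b +ᵥ y) = stA E y := by
  ext c
  rw [mem_stA, mem_stA]
  refine exists_congr fun hc => ?_
  rw [vadd_vadd, add_comm, ← vadd_vadd]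
  constructor
  · intro h
    have := congrArg (fun z => (-b) +ᵥ z) h
    simpa [vadd_vadd] using this
  · intro h; rw [h]

variable (ψ : AddChar F ℂ) (B : LinearMap.BilinForm F V)

/-- Dual of the stabiliser. -/
def TT (E : AddSubgroup V) {Y : Type*} [AddAction E Y] (y : Y) : AddSubgroup V := dp ψ B (stA E y)

theorem TT_vadd (b : E) (y : Y) : TT ψ B E (b +ᵥ y) = TT ψ B E y := by
  rw [TT, stA_vadd, TT]

/-- Dual of the stabiliser of a point of the orbit. -/
noncomputable def TO (E : AddSubgroup V) {Y : Type*} [AddAction E Y]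
    (O : AddAction.orbitRel.Quotient E Y) : AddSubgroup V := TT ψ B E (Quotient.out O)

theorem TO_mk (y : Y) :
    TO ψ B E (Quotient.mk'' y : AddAction.orbitRel.Quotient E Y) = TT ψ B E y := by
  rw [TO]
  have h : (AddAction.orbitRel E Y).r (Quotient.out (Quotient.mk'' y : AddAction.orbitRel.Quotient E Y)) y :=
    Quotient.exact (Quotient.out_eq _)
  obtain ⟨b, hb⟩ := (AddAction.orbitRel_apply.1 h)
  have hb' : b +ᵥ y = Quotient.out (Quotient.mk'' y : AddAction.orbitRel.Quotient E Y) := hb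
  rw [← hb', TT_vadd]

/-- Multiplicity of `x`. -/
noncomputable def mu (E : AddSubgroup V) (Y : Type*) [AddAction E Y] (x : V) : ℕ :=
  Nat.card {O : AddAction.orbitRel.Quotient E Y // x ∈ TO ψ B E O}

variable {ψ B}
variable [Finite F] [Finite V] [Finite Y]

theorem card_orbit_mul (y : Y) : Nat.card (AddAction.orbit E y) * Nat.card (stA E y) = Nat.card E := by
  have h1 : Nat.card (stA E y) = Nat.card (AddAction.stabilizer E y) :=
    Nat.card_congr (Equiv.Set.image (E.subtype : E → V) _ Subtype.val_injective).symm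
  rw [h1]
  rw [← Nat.card_prod]
  exact Nat.card_congr (AddAction.orbitProdStabilizerEquivAddGroup E y)

theorem card_TT_mul (hψ : ψ ≠ 1) (hnd : ∀ b : V, b ≠ 0 → ∃ y, B y b ≠ 0) (y : Y) :
    Nat.card E * Nat.card (TT ψ B E y) = Nat.card V * Nat.card (AddAction.orbit E y) := by
  have h1 := card_mul_card_dp hψ hnd (stA E y)
  have h2 := card_orbit_mul (E := E) y
  rw [TT, ← h1, ← h2]; ring

theorem sum_mu [Fintype V] (hψ : ψ ≠ 1) (hnd : ∀ b : V, b ≠ 0 → ∃ y, B y b ≠ 0) :
    Nat.card E * ∑ x : V, mu ψ B E Y x = Nat.card V * Nat.card Y := by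
  classical
  have := Fintype.ofFinite (AddAction.orbitRel.Quotient E Y)
  have h1 : ∑ x : V, mu ψ B E Y x = ∑ O : AddAction.orbitRel.Quotient E Y, Nat.card (TO ψ B E O) := by
    have e1 : ∀ x, mu ψ B E Y x = ∑ O : AddAction.orbitRel.Quotient E Y, if x ∈ TO ψ B E O then 1 else 0 := by
      intro x
      rw [mu, Nat.card_eq_fintype_card, Fintype.card_subtype, Finset.card_filter]
    have e2 : ∀ O : AddAction.orbitRel.Quotient E Y, Nat.card (TO ψ B E O) =
        ∑ x : V, if x ∈ TO ψ B E O then 1 else 0 := by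
      intro O
      rw [Nat.card_eq_fintype_card, Fintype.card_subtype, Finset.card_filter]
    rw [Finset.sum_congr rfl (fun x _ => e1 x), Finset.sum_congr rfl (fun O _ => e2 O), Finset.sum_comm]
  rw [h1, Finset.mul_sum]
  have h2 : ∀ O : AddAction.orbitRel.Quotient E Y, Nat.card E * Nat.card (TO ψ B E O) =
      Nat.card V * Nat.card (AddAction.orbit E (Quotient.out O)) := fun O => by
    rw [TO]; exact card_TT_mul hψ hnd _
  rw [Finset.sum_congr rfl (fun O _ => h2 O), ← Finset.mul_sum]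
  congr 1
  have h3 := AddAction.selfEquivSigmaOrbits E Y
  rw [Nat.card_congr h3, Nat.card_sigma]

/-- Equivariance of the multiplicities. -/
theorem mu_congr (σ : Y ≃ Y) (β : V ≃ V)
    (hσ : ∀ y y' : Y, (∃ b : E, b +ᵥ y = y') ↔ (∃ b : E, b +ᵥ σ y = σ y'))
    (hT : ∀ (y : Y) (x : V), x ∈ TT ψ B E y ↔ β x ∈ TT ψ B E (σ y)) (x : V) :
    mu ψ B E Y (β x) = mu ψ B E Y x := by
  have hσ' : ∀ y y' : Y, (AddAction.orbitRel E Y).r y y' ↔ (AddAction.orbitRel E Y).r (σ y) (σ y') := by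
    intro y y'
    have := hσ y' y
    exact this
  let e : AddAction.orbitRel.Quotient E Y ≃ AddAction.orbitRel.Quotient E Y :=
    Quotient.congr σ hσ'
  have he : ∀ y : Y, e (Quotient.mk'' y) = Quotient.mk'' (σ y) := fun y => rfl
  refine (Nat.card_congr (e.subtypeEquiv fun O => ?_)).symm
  obtain ⟨y, rfl⟩ := Quotient.exists_rep O
  change x ∈ TO ψ B E (Quotient.mk'' y : AddAction.orbitRel.Quotient E Y) ↔
    β x ∈ TO ψ B E (e (Quotient.mk'' y))
  rw [he, TO_mk, TO_mk]
  exact hT y x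

theorem mu_pos_of_mem {y : Y} {x : V} (h : x ∈ TT ψ B E y) : 1 ≤ mu ψ B E Y x := by
  rw [← TO_mk] at h
  have : Nonempty {O : AddAction.orbitRel.Quotient E Y // x ∈ TO ψ B E O} := ⟨⟨_, h⟩⟩
  exact Nat.card_pos

/-- Turn a function into an action of `E`. -/
@[reducible] def mkAct (E : AddSubgroup V) {Y : Type*} (act : V → Y → Y) (h0 : ∀ y, act 0 y = y)
    (hadd : ∀ b ∈ E, ∀ b' ∈ E, ∀ y, act (b + b') y = act b (act b' y)) : AddAction E Y where
  vadd b y := act b y
  zero_vadd y := h0 y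
  add_vadd b b' y := hadd b b.2 b' b'.2 y

/-- If the symmetries of the action are transitive on the non-trivial characters and the action is
non-trivial then there are many points. -/
theorem card_ge_of_trans {Y : Type*} [Finite Y] (E K : AddSubgroup V) (act : V → Y → Y)
    (hψ : ψ ≠ 1) (hnd : ∀ b : V, b ≠ 0 → ∃ y, B y b ≠ 0)
    (hs : ∀ x y, ψ (B x y) = 1 ↔ ψ (B y x) = 1)
    (h0 : ∀ y, act 0 y = y)
    (hadd : ∀ b ∈ E, ∀ b' ∈ E, ∀ y, act (b + b') y = act b (act b' y))
    (hK : dp ψ B E = K) (hKE : K ≤ E) (hK0 : ∀ b ∈ K, ∀ y, act b y = y)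
    (htr : ∀ x x', x ∈ E → x ∉ K → x' ∈ E → x' ∉ K → ∃ (σ : Y ≃ Y) (β : V ≃+ V),
      (∀ b, b ∈ E ↔ β b ∈ E) ∧ (∀ b ∈ E, ∀ y, σ (act b y) = act (β b) (σ y)) ∧
      (∀ z w, B (β z) (β w) = B z w) ∧ β x = x')
    (hne : ∃ b ∈ E, ∃ y, act b y ≠ y) :
    Nat.card E * Nat.card E ≤ Nat.card V * Nat.card Y := by
  classical
  let _ := mkAct E act h0 hadd
  have := Fintype.ofFinite V
  have hE : dp ψ B K = E := by rw [← hK, dp_dp hψ hnd hs]
  have hvadd : ∀ (b : E) (y : Y), b +ᵥ y = act b y := fun _ _ => rfl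
  -- every dual stabiliser lies between `K` and `E`
  have hKT : ∀ y : Y, K ≤ TT ψ B E y := by
    intro y; rw [← hK]; exact dp_anti (stA_le y)
  have hTE : ∀ y : Y, TT ψ B E y ≤ E := by
    intro y
    refine le_trans (dp_anti fun b hb => ?_) hE.le
    rw [mem_stA]
    exact ⟨hKE hb, hK0 b hb y⟩
  obtain ⟨b, hb, y, hby⟩ := hne
  have hTK : TT ψ B E y ≠ K := by
    intro h
    have h1 : stA E y = E := by
      rw [← dp_dp (ψ := ψ) (B := B) hψ hnd hs (stA E y)]
      change dp ψ B (TT ψ B E y) = E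
      rw [h, hE]
    have h2 : b ∈ stA E y := by rw [h1]; exact hb
    obtain ⟨_, h3⟩ := mem_stA.1 h2
    exact hby h3
  obtain ⟨x, hx, hxK⟩ : ∃ x ∈ TT ψ B E y, x ∉ K := by
    by_contra hcon
    push Not at hcon
    exact hTK (le_antisymm hcon (hKT y))
  have hmu : ∀ x' ∈ E, 1 ≤ mu ψ B E Y x' := by
    intro x' hx'
    by_cases hx'K : x' ∈ K
    · exact mu_pos_of_mem (hKT y hx'K)
    obtain ⟨σ, β, h1, h2, h3, h4⟩ := htr x x' (hTE y hx) hxK hx' hx'K
    refine mu_pos_of_mem (y := σ y) ?_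
    rw [← h4]
    intro c hc
    obtain ⟨hcE, hc⟩ := mem_stA.1 hc
    obtain ⟨d, rfl⟩ := β.surjective c
    have hd : d ∈ E := (h1 d).2 hcE
    rw [h3]
    refine hx d (mem_stA.2 ⟨hd, ?_⟩)
    rw [hvadd] at hc ⊢
    exact σ.injective (by rw [h2 d hd]; exact hc)
  have h5 := sum_mu (E := E) (Y := Y) hψ hnd
  rw [← h5]
  refine Nat.mul_le_mul_left _ ?_
  calc Nat.card E = ∑ x : V, if x ∈ E then 1 else 0 := by
        rw [Nat.card_eq_fintype_card, Fintype.card_subtype, Finset.card_filter]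
    _ ≤ ∑ x : V, mu ψ B E Y x := by
        refine Finset.sum_le_sum fun x _ => ?_
        split_ifs with h
        · exact hmu x h
        · exact Nat.zero_le _

end Count

end Cfsg.Agent.Mdx
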