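import Mathlib

/-!
Duality of additive subgroups of a finite vector space with a non-degenerate form, and the
orbit counting formula attached to it.
-/

set_option autoImplicit false

namespace Cfsg.Agent.Mdx

open Finset

section Dual

variable {F V : Type*} [Field F] [AddCommGroup V] [Module F V]

/-- Dual of an additive subgroup with respect to `ψ (B x y) = 1`. -/
def dp (ψ : AddChar F ℂ) (B : LinearMap.BilinForm F V) (A : AddSubgroup V) : AddSubgroup V where
  carrier := {y | ∀ b ∈ A, ψ (B y b) = 1}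
  zero_mem' := by
    intro b _
    rw [map_zero, LinearMap.zero_apply, AddChar.map_zero_eq_one]
  add_mem' := by
    intro x y hx hy b hb
    rw [map_add, LinearMap.add_apply, AddChar.map_add_eq_mul, hx b hb, hy b hb, one_mul]
  neg_mem' := by
    intro x hx b hb
    rw [map_neg, LinearMap.neg_apply, AddChar.map_neg_eq_inv, hx b hb, inv_one]

variable {ψ : AddChar F ℂ} {B : LinearMap.BilinForm F V}

theorem mem_dp {A : AddSubgroup V} {y : V} : y ∈ dp ψ B A ↔ ∀ b ∈ A, ψ (B y b) = 1 := Iff.rfl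

theorem dp_anti {A A' : AddSubgroup V} (h : A ≤ A') : dp ψ B A' ≤ dp ψ B A :=
  fun _ hy b hb => hy b (h hb)

theorem dp_sup (A A' : AddSubgroup V) : dp ψ B (A ⊔ A') = dp ψ B A ⊓ dp ψ B A' := by
  apply le_antisymm
  · exact le_inf (dp_anti le_sup_left) (dp_anti le_sup_right)
  · rintro y ⟨h1, h2⟩ b hb
    obtain ⟨a, ha, a', ha', rfl⟩ := AddSubgroup.mem_sup.1 hb
    rw [map_add, AddChar.map_add_eq_mul, h1 a ha, h2 a' ha', one_mul]

variable [Finite F] [Finite V]

theorem card_mul_card_dp (hψ : ψ ≠ 1) (hnd : ∀ b : V, b ≠ 0 → ∃ y, B y b ≠ 0) (A : AddSubgroup V) :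
    Nat.card A * Nat.card (dp ψ B A) = Nat.card V := by
  classical
  have := Fintype.ofFinite V
  have := Fintype.ofFinite A
  have h1 : ∀ b : V, ∑ y : V, ψ (B y b) = if b = 0 then (Nat.card V : ℂ) else 0 := by
    intro b
    let χ : AddChar V ℂ := ψ.compAddMonoidHom (B.flip b).toAddMonoidHom
    have hχ : ∀ y, χ y = ψ (B y b) := fun y => rfl
    split_ifs with hb
    · subst hb
      simp [AddChar.map_zero_eq_one]
    · have hne : χ ≠ 0 := by
        intro h
        apply hψ
        ext t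
        obtain ⟨y, hy⟩ := hnd b hb
        have := DFunLike.congr_fun h ((t * (B y b)⁻¹) • y)
        rw [hχ, map_smul, LinearMap.smul_apply, smul_eq_mul, mul_assoc, inv_mul_cancel₀ hy, mul_one] at this
        simpa using this
      have := AddChar.sum_eq_zero_iff_ne_zero.2 hne
      simpa [hχ] using this
  have h2 : ∀ y : V, ∑ b : A, ψ (B y b) = if y ∈ dp ψ B A then (Nat.card A : ℂ) else 0 := by
    intro y
    let χ : AddChar A ℂ := ψ.compAddMonoidHom ((B y).toAddMonoidHom.comp A.subtype)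
    have hχ : ∀ b : A, χ b = ψ (B y b) := fun b => rfl
    split_ifs with hy
    · rw [Finset.sum_congr rfl (fun (b : A) _ => hy b.1 b.2)]
      simp
    · have hne : χ ≠ 0 := by
        intro h
        apply hy
        intro b hb
        have := DFunLike.congr_fun h ⟨b, hb⟩
        rw [hχ] at this
        simpa using this
      have := AddChar.sum_eq_zero_iff_ne_zero.2 hne
      simpa [hχ] using this
  have h3 : ∑ b : A, ∑ y : V, ψ (B y b) = (Nat.card V : ℂ) := by
    rw [Finset.sum_congr rfl (fun (b : A) _ => h1 b.1)]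
    rw [Finset.sum_eq_single (0 : A)]
    · simp
    · intro b _ hb
      rw [if_neg]
      intro h; exact hb (Subtype.ext h)
    · intro h; exact absurd (Finset.mem_univ _) h
  have h4 : ∑ b : A, ∑ y : V, ψ (B y b) = (Nat.card A : ℂ) * Nat.card (dp ψ B A) := by
    rw [Finset.sum_comm, Finset.sum_congr rfl (fun y _ => h2 y), ← Finset.sum_filter,
      Finset.sum_const, nsmul_eq_mul, mul_comm]
    congr 2
    rw [Nat.card_eq_fintype_card, Fintype.card_subtype]
  have h5 : ((Nat.card A * Nat.card (dp ψ B A) : ℕ) : ℂ) = (Nat.card V : ℕ) := by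
    rw [Nat.cast_mul, ← h4, h3]
  exact_mod_cast h5

theorem dp_dp (hψ : ψ ≠ 1) (hnd : ∀ b : V, b ≠ 0 → ∃ y, B y b ≠ 0)
    (hs : ∀ x y, ψ (B x y) = 1 ↔ ψ (B y x) = 1) (A : AddSubgroup V) : dp ψ B (dp ψ B A) = A := by
  have h1 : A ≤ dp ψ B (dp ψ B A) := by
    intro b hb y hy
    rw [hs]; exact hy b hb
  have h2 := card_mul_card_dp hψ hnd A
  have h3 := card_mul_card_dp hψ hnd (dp ψ B A)
  have h4 : Nat.card (dp ψ B A) ≠ 0 := Nat.card_pos.ne'
  have h5 : Nat.card (dp ψ B (dp ψ B A)) = Nat.card A := by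
    have : Nat.card (dp ψ B A) * Nat.card (dp ψ B (dp ψ B A)) = Nat.card (dp ψ B A) * Nat.card A := by
      rw [h3, ← h2, mul_comm]
    exact Nat.eq_of_mul_eq_mul_left (Nat.pos_of_ne_zero h4) this
  exact (AddSubgroup.eq_of_le_of_card_ge h1 h5.le).symm

theorem dp_inf (hψ : ψ ≠ 1) (hnd : ∀ b : V, b ≠ 0 → ∃ y, B y b ≠ 0)
    (hs : ∀ x y, ψ (B x y) = 1 ↔ ψ (B y x) = 1) (A A' : AddSubgroup V) :
    dp ψ B (A ⊓ A') = dp ψ B A ⊔ dp ψ B A' := by
  have h : A ⊓ A' = dp ψ B (dp ψ B A ⊔ dp ψ B A') := by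
    rw [dp_sup, dp_dp hψ hnd hs, dp_dp hψ hnd hs]
  rw [h, dp_dp hψ hnd hs]

theorem exists_addChar : ∃ ψ : AddChar F ℂ, ψ ≠ 1 := by
  classical
  have := Fintype.ofFinite F
  have h : Nat.card (AddChar F ℂ) = Nat.card F := by
    rw [Nat.card_eq_fintype_card, Nat.card_eq_fintype_card]
    exact AddChar.card_eq
  have h2 : 1 < Nat.card F := Finite.one_lt_card
  rw [← h] at h2
  have : Finite (AddChar F ℂ) := Nat.finite_of_card_ne_zero (by omega)
  have := Finite.one_lt_card_iff_nontrivial.1 h2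
  exact exists_ne _

end Dual

end Cfsg.Agent.Mdx
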