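import Cfsg.Agent.H74.FSForm
import Cfsg.Agent.Char.ExtThm

set_option autoImplicit false

/-! # Frobenius–Schur: indicator one iff afforded by a real representation -/

namespace Cfsg.Agent.Mdx.FSR

open Cfsg Cfsg.Agent.CharBase Cfsg.Agent.S0158 Cfsg.Agent.H74
open scoped ComplexConjugate Matrix ComplexOrder

variable {n : ℕ}

/-- entrywise complex conjugation -/
noncomputable def cj (X : Matrix (Fin n) (Fin n) ℂ) : Matrix (Fin n) (Fin n) ℂ := X.map (starRingEnd ℂ)

theorem cj_mul (X Y : Matrix (Fin n) (Fin n) ℂ) : cj (X * Y) = cj X * cj Y := Matrix.map_mul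

theorem cj_cj (X : Matrix (Fin n) (Fin n) ℂ) : cj (cj X) = X := by
  ext i j
  simp [cj]

theorem cj_one : cj (1 : Matrix (Fin n) (Fin n) ℂ) = 1 := by
  ext i j
  by_cases h : i = j
  · subst h; simp [cj]
  · simp [cj, h]

theorem cj_add (X Y : Matrix (Fin n) (Fin n) ℂ) : cj (X + Y) = cj X + cj Y := by
  ext i j; simp [cj]

theorem cj_sub (X Y : Matrix (Fin n) (Fin n) ℂ) : cj (X - Y) = cj X - cj Y := by
  ext i j; simp [cj]

theorem cj_smul (c : ℂ) (X : Matrix (Fin n) (Fin n) ℂ) : cj (c • X) = conj c • cj X := by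
  ext i j; simp [cj]

theorem conjTranspose_transpose' (X : Matrix (Fin n) (Fin n) ℂ) : Xᴴᵀ = cj X := by
  ext i j; simp [cj]

theorem transpose_conjTranspose' (X : Matrix (Fin n) (Fin n) ℂ) : Xᵀᴴ = cj X := by
  ext i j; simp [cj]

theorem pos_of_mul_pos_of_pos_right' {a b : ℝ} (h : 0 < a * b) (hb : 0 < b) : 0 < a := by
  by_contra hc
  push Not at hc
  have := mul_nonpos_of_nonpos_of_nonneg hc hb.le
  linarith

theorem exists_t (A : Matrix (Fin n) (Fin n) ℂ) :
    ∃ t : ℝ, ((1 + A) + ((t : ℂ) * Complex.I) • (1 - A)).det ≠ 0 := by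
  let q : Polynomial ℂ := ((1 + A).map Polynomial.C +
    (Polynomial.X * Polynomial.C Complex.I) • (1 - A).map Polynomial.C).det
  have hq : ∀ z : ℂ, q.eval z = ((1 + A) + (z * Complex.I) • (1 - A)).det := by
    intro z
    change Polynomial.evalRingHom z _ = _
    rw [RingHom.map_det]
    congr 1
    ext i j
    simp
    left; ring
  by_contra hcon
  push Not at hcon
  have h0 : q = 0 := by
    apply Polynomial.eq_zero_of_infinite_isRoot
    apply (Set.infinite_range_of_injective Complex.ofReal_injective).mono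
    rintro _ ⟨t, rfl⟩
    change q.eval _ = 0
    rw [hq]; exact hcon t
  have h1 := hq (-Complex.I)
  rw [h0, Polynomial.eval_zero] at h1
  have h2 : (-Complex.I * Complex.I) = 1 := by
    rw [neg_mul, Complex.I_mul_I, neg_neg]
  rw [h2, one_smul] at h1
  have h3 : (1 + A + (1 - A)) = (2 : ℂ) • (1 : Matrix (Fin n) (Fin n) ℂ) := by
    rw [two_smul]; abel
  rw [h3, Matrix.det_smul, Matrix.det_one, mul_one] at h1
  exact absurd h1.symm (pow_ne_zero _ two_ne_zero)

section
variable {G : Type*} [Group G] [Fintype G]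

theorem exists_real (R : G →* Matrix (Fin n) (Fin n) ℂ)
    (hirr : ∀ M : Matrix (Fin n) (Fin n) ℂ, (∀ h, M * R h = R h * M) → ∃ c : ℂ, M = c • 1)
    (hker : ∀ M : Matrix (Fin n) (Fin n) ℂ, (∀ h, (R h)ᵀ * M * R h = M) → M ≠ 0 → IsUnit M)
    (hn : 0 < n)
    (B : Matrix (Fin n) (Fin n) ℂ) (hB : ∀ h, (R h)ᵀ * B * R h = B) (hB0 : B ≠ 0) (hBs : Bᵀ = B) :
    ∃ S : G →* Matrix (Fin n) (Fin n) ℝ, ∀ g, (((S g).trace : ℝ) : ℂ) = (R g).trace := by
  have hBu : IsUnit B := hker B hB hB0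
  have hRu : ∀ g, IsUnit (R g) := fun g => (Group.isUnit g).map R
  -- the invariant hermitian form
  obtain ⟨H, hH, hHinv⟩ : ∃ H : Matrix (Fin n) (Fin n) ℂ, H.PosDef ∧ ∀ h, (R h)ᴴ * H * R h = H := by
    refine ⟨∑ g : G, (R g)ᴴ * R g, ?_, ?_⟩
    · apply Matrix.posDef_sum Finset.univ_nonempty
      intro g _
      apply Matrix.PosDef.conjTranspose_mul_self
      exact Matrix.mulVec_injective_iff_isUnit.2 (hRu g)
    · intro h
      rw [Finset.mul_sum, Finset.sum_mul]
      refine Fintype.sum_equiv (Equiv.mulRight h) _ _ (fun g => ?_)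
      simp only [Equiv.coe_mulRight, map_mul, Matrix.conjTranspose_mul]
      simp only [Matrix.mul_assoc]
  have hHu : IsUnit H := hH.isUnit
  have hHh : Hᴴ = H := hH.isHermitian
  obtain ⟨A, hA⟩ : ∃ A : Matrix (Fin n) (Fin n) ℂ, H * A = Bᴴ := by
    obtain ⟨u, hu⟩ := hHu
    refine ⟨(↑u⁻¹ : Matrix (Fin n) (Fin n) ℂ) * Bᴴ, ?_⟩
    rw [← hu, ← mul_assoc, Units.mul_inv, one_mul]
  have hAu : IsUnit A := by
    have h1 : IsUnit Bᴴ := by
      rw [Matrix.isUnit_iff_isUnit_det, Matrix.det_conjTranspose]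
      exact ((Matrix.isUnit_iff_isUnit_det _).1 hBu).star
    rw [← hA] at h1
    rw [Matrix.isUnit_iff_isUnit_det] at h1 ⊢
    rw [Matrix.det_mul] at h1
    exact isUnit_of_mul_isUnit_right h1
  have hRA : ∀ g, A * cj (R g) = R g * A := by
    intro g
    have h1 : IsUnit ((R g)ᴴ * H) := by
      have h2 := hRu g
      rw [Matrix.isUnit_iff_isUnit_det] at h2 hHu ⊢
      rw [Matrix.det_mul, Matrix.det_conjTranspose]
      exact h2.star.mul hHu
    apply h1.mul_left_cancel
    calc (R g)ᴴ * H * (A * cj (R g)) = (R g)ᴴ * (H * A) * cj (R g) := by simp only [mul_assoc]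
      _ = (R g)ᴴ * Bᴴ * (R g)ᵀᴴ := by rw [hA, transpose_conjTranspose']
      _ = ((R g)ᵀ * B * R g)ᴴ := by
          rw [Matrix.conjTranspose_mul, Matrix.conjTranspose_mul]; simp only [mul_assoc]
      _ = H * A := by rw [hB, hA]
      _ = (R g)ᴴ * H * R g * A := by rw [hHinv]
      _ = (R g)ᴴ * H * (R g * A) := by simp only [mul_assoc]
  have hAA : ∀ g, A * cj A * R g = R g * (A * cj A) := by
    intro g
    have h1 := congrArg cj (hRA g)
    rw [cj_mul, cj_mul, cj_cj] at h1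
    rw [mul_assoc, h1, ← mul_assoc, hRA, mul_assoc]
  obtain ⟨c, hc⟩ := hirr _ hAA
  have hcH : (Aᴴ * H * A)ᵀ = c • H := by
    have h1 : (H * A)ᵀ = Bᴴ := by
      rw [hA, conjTranspose_transpose', ← transpose_conjTranspose', hBs]
    calc (Aᴴ * H * A)ᵀ = (H * A)ᵀ * Aᴴᵀ := by rw [mul_assoc, Matrix.transpose_mul]
      _ = H * A * cj A := by rw [h1, ← hA, conjTranspose_transpose']
      _ = c • H := by rw [mul_assoc, hc, mul_smul_comm, mul_one]
  have hcpos : 0 < c := by
    have h1 : (Aᴴ * H * A).PosDef :=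
      hH.conjTranspose_mul_mul_same (Matrix.mulVec_injective_iff_isUnit.2 hAu)
    have h2 := h1.transpose
    rw [hcH] at h2
    have h3 := h2.diag_pos (i := ⟨0, hn⟩)
    have h4 := hH.diag_pos (i := ⟨0, hn⟩)
    rw [Matrix.smul_apply, smul_eq_mul] at h3
    rw [Complex.pos_iff] at h3 h4 ⊢
    obtain ⟨h5, h6⟩ := h4
    obtain ⟨h7, h8⟩ := h3
    rw [Complex.mul_re, ← h6, mul_zero, sub_zero] at h7
    rw [Complex.mul_im, ← h6, mul_zero, zero_add] at h8
    refine ⟨pos_of_mul_pos_of_pos_right' h7 h5, ?_⟩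
    rcases mul_eq_zero.1 h8.symm with h9 | h9
    · exact h9.symm
    · exact absurd h9 h5.ne'
  obtain ⟨r, hr, rfl⟩ : ∃ r : ℝ, 0 < r ∧ (r : ℂ) = c := by
    refine ⟨c.re, (Complex.pos_iff.1 hcpos).1, ?_⟩
    apply Complex.ext
    · simp
    · simp [(Complex.pos_iff.1 hcpos).2]
  -- normalise
  obtain ⟨s, hs, hsr⟩ : ∃ s : ℝ, 0 < s ∧ s * s * r = 1 := by
    refine ⟨(Real.sqrt r)⁻¹, inv_pos.2 (Real.sqrt_pos.2 hr), ?_⟩
    have := Real.mul_self_sqrt hr.le
    have h2 : Real.sqrt r ≠ 0 := (Real.sqrt_pos.2 hr).ne'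
    field_simp
    rw [sq, this]
  obtain ⟨J, hJ⟩ : ∃ J : Matrix (Fin n) (Fin n) ℂ, J = (s : ℂ) • A := ⟨_, rfl⟩
  have hJJ : J * cj J = 1 := by
    rw [hJ, cj_smul, Complex.conj_ofReal, smul_mul_smul_comm, hc, smul_smul]
    have : (s : ℂ) * s * r = 1 := by exact_mod_cast hsr
    rw [this, one_smul]
  have hRJ : ∀ g, J * cj (R g) = R g * J := by
    intro g
    rw [hJ, smul_mul_assoc, hRA, mul_smul_comm]
  obtain ⟨t, ht⟩ := exists_t J
  obtain ⟨P, hP⟩ : ∃ P : Matrix (Fin n) (Fin n) ℂ,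
    P = (1 + J) + ((t : ℂ) * Complex.I) • (1 - J) := ⟨_, rfl⟩
  rw [← hP] at ht
  have hPJ : J * cj P = P := by
    rw [hP, cj_add, cj_add, cj_smul, cj_sub, cj_one, mul_add, mul_add, mul_smul_comm, mul_sub,
      hJJ, mul_one]
    rw [map_mul, Complex.conj_ofReal, Complex.conj_I, mul_neg, neg_smul, ← smul_neg, neg_sub]
    abel
  have hPu : IsUnit P.det := isUnit_iff_ne_zero.2 ht
  have hP1 : P⁻¹ * P = 1 := Matrix.nonsing_inv_mul _ hPu
  have hP2 : P * P⁻¹ = 1 := Matrix.mul_nonsing_inv _ hPu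
  have hcjPi : cj P⁻¹ = P⁻¹ * J := by
    have h1 : cj P * cj P⁻¹ = 1 := by rw [← cj_mul, hP2, cj_one]
    calc cj P⁻¹ = P⁻¹ * P * cj P⁻¹ := by rw [hP1, one_mul]
      _ = P⁻¹ * (J * cj P) * cj P⁻¹ := by rw [hPJ]
      _ = P⁻¹ * J * (cj P * cj P⁻¹) := by simp only [mul_assoc]
      _ = P⁻¹ * J := by rw [h1, mul_one]
  have hreal : ∀ g, cj (P⁻¹ * R g * P) = P⁻¹ * R g * P := by
    intro g
    rw [cj_mul, cj_mul, hcjPi]
    calc P⁻¹ * J * cj (R g) * cj P = P⁻¹ * (J * cj (R g)) * cj P := by simp only [mul_assoc]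
      _ = P⁻¹ * R g * (J * cj P) := by rw [hRJ]; simp only [mul_assoc]
      _ = P⁻¹ * R g * P := by rw [hPJ]
  have hre : ∀ g, ((P⁻¹ * R g * P).map Complex.re).map Complex.ofReal = P⁻¹ * R g * P := by
    intro g
    ext i j
    have h1 := congrFun (congrFun (hreal g) i) j
    simp only [cj, Matrix.map_apply] at h1 ⊢
    exact Complex.conj_eq_iff_re.1 h1
  have hinj : Function.Injective (fun M : Matrix (Fin n) (Fin n) ℝ => M.map Complex.ofReal) := by
    intro M N h
    ext i j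
    have := congrFun (congrFun h i) j
    simpa using this
  have hmapmul : ∀ M N : Matrix (Fin n) (Fin n) ℝ,
      (M * N).map Complex.ofReal = M.map Complex.ofReal * N.map Complex.ofReal := by
    intro M N
    exact Matrix.map_mul (f := Complex.ofRealHom)
  refine ⟨⟨⟨fun g => (P⁻¹ * R g * P).map Complex.re, ?_⟩, ?_⟩, ?_⟩
  · rw [map_one, mul_one, hP1]
    ext i j
    by_cases h : i = j
    · subst h; simp
    · simp [h]
  · intro g h
    apply hinj
    change ((P⁻¹ * R (g * h) * P).map Complex.re).map Complex.ofReal =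
      ((P⁻¹ * R g * P).map Complex.re * (P⁻¹ * R h * P).map Complex.re).map Complex.ofReal
    rw [hmapmul, hre, hre, hre, map_mul]
    calc P⁻¹ * (R g * R h) * P = P⁻¹ * R g * 1 * R h * P := by rw [mul_one]; simp only [mul_assoc]
      _ = P⁻¹ * R g * (P * P⁻¹) * R h * P := by rw [hP2]
      _ = _ := by simp only [mul_assoc]
  · intro g
    change ((((P⁻¹ * R g * P).map Complex.re).trace : ℝ) : ℂ) = _
    have h1 : ((((P⁻¹ * R g * P).map Complex.re).trace : ℝ) : ℂ) =
        (((P⁻¹ * R g * P).map Complex.re).map Complex.ofReal).trace := by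
      simp [Matrix.trace]
    rw [h1, hre, Matrix.trace_mul_comm, ← mul_assoc, hP2, one_mul]


theorem symm_of_real (S : G →* Matrix (Fin n) (Fin n) ℝ) (hn : 0 < n)
    (hirr : ∀ M : Matrix (Fin n) (Fin n) ℂ,
      (∀ h, M * (S h).map Complex.ofReal = (S h).map Complex.ofReal * M) → ∃ c : ℂ, M = c • 1)
    (hker : ∀ M : Matrix (Fin n) (Fin n) ℂ,
      (∀ h, ((S h).map Complex.ofReal)ᵀ * M * (S h).map Complex.ofReal = M) → M ≠ 0 → IsUnit M) :
    ((Nat.card G : ℂ)⁻¹ * ∑ s : G, (((S (s * s)).trace : ℝ) : ℂ)) = 1 := by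
  let R : G →* Matrix (Fin n) (Fin n) ℂ := (Complex.ofRealHom.mapMatrix : _ →+* _).toMonoidHom.comp S
  have hR : ∀ g, R g = (S g).map Complex.ofReal := fun g => rfl
  let B : Matrix (Fin n) (Fin n) ℂ := ∑ g : G, (R g)ᵀ * R g
  have hBinv : ∀ h, (R h)ᵀ * B * R h = B := by
    intro h
    change (R h)ᵀ * (∑ g : G, (R g)ᵀ * R g) * R h = ∑ g : G, (R g)ᵀ * R g
    rw [Finset.mul_sum, Finset.sum_mul]
    refine Fintype.sum_equiv (Equiv.mulRight h) _ _ (fun g => ?_)
    simp only [Equiv.coe_mulRight, map_mul, Matrix.transpose_mul]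
    simp only [Matrix.mul_assoc]
  have hBs : Bᵀ = B := by
    change (∑ g : G, (R g)ᵀ * R g)ᵀ = _
    rw [Matrix.transpose_sum]
    refine Finset.sum_congr rfl (fun g _ => ?_)
    rw [Matrix.transpose_mul, Matrix.transpose_transpose]
  have hB0 : B ≠ 0 := by
    intro h
    have h1 : B = (∑ g : G, (S g)ᵀ * S g).map Complex.ofReal := by
      change (∑ g : G, (R g)ᵀ * R g) = Complex.ofRealHom.mapMatrix (∑ g : G, (S g)ᵀ * S g)
      rw [map_sum]
      refine Finset.sum_congr rfl (fun g _ => ?_)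
      rw [map_mul]
      rfl
    have h2 : (∑ g : G, (S g)ᵀ * S g).PosDef := by
      apply Matrix.posDef_sum Finset.univ_nonempty
      intro g _
      have h3 : (S g)ᵀ = (S g)ᴴ := by
        ext i j; simp
      rw [h3]
      apply Matrix.PosDef.conjTranspose_mul_self
      exact Matrix.mulVec_injective_iff_isUnit.2 ((Group.isUnit g).map S)
    have h3 := h2.diag_pos (i := ⟨0, hn⟩)
    have h4 := congrFun (congrFun (h1.symm.trans h) ⟨0, hn⟩) ⟨0, hn⟩
    simp only [Matrix.map_apply, Matrix.zero_apply, Complex.ofReal_eq_zero] at h4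
    exact absurd h4 h3.ne'
  have h5 := transpose_eq_fs R hirr hker B hBinv
  rw [hBs] at h5
  have h6 : (((Nat.card G : ℂ)⁻¹ * ∑ s : G, (R (s * s)).trace) - 1) • B = 0 := by
    rw [sub_smul, one_smul, ← h5, sub_self]
  have h7 := (smul_eq_zero.1 h6).resolve_right hB0
  rw [sub_eq_zero] at h7
  rw [← h7]
  congr 1
  refine Finset.sum_congr rfl (fun g _ => ?_)
  rw [hR]
  simp [Matrix.trace]

theorem main (χ : Cfsg.IrrCharacter G) :
    ((Nat.card G : ℂ)⁻¹ * ∑ s : G, (χ : G → ℂ) (s * s)) = 1 ↔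
      ∃ (n : ℕ) (ρ : Representation ℝ G (Fin n → ℝ)),
        ∀ g : G, ((LinearMap.trace ℝ (Fin n → ℝ) (ρ g) : ℝ) : ℂ) = (χ : G → ℂ) g := by
  obtain ⟨χ, hχ⟩ := χ
  constructor
  · intro h
    obtain ⟨m, ρ, hρ, rfl⟩ := hχ
    haveI := hρ
    simp only at h ⊢
    obtain ⟨htr, hirr, hker⟩ := matrix_facts ρ (Pi.basisFun ℂ (Fin m))
    set R : G →* Matrix (Fin m) (Fin m) ℂ :=
      (LinearMap.toMatrixAlgEquiv (Pi.basisFun ℂ (Fin m))).toAlgHom.toMonoidHom.comp ρ with hRdef
    have hreal : ∀ g, (ρ.character g).im = 0 := by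
      by_contra hcon
      push Not at hcon
      have := (S0158.result ρ).2.2 hcon
      rw [h] at this
      exact one_ne_zero this
    have hχ' : IsIrrCharacter G ρ.character := ⟨m, ρ, hρ, rfl⟩
    have h1 : (Nat.card G : ℂ)⁻¹ * ∑ s : G, (R s).trace * (R s).trace ≠ 0 := by
      have h2 : (Nat.card G : ℂ)⁻¹ * ∑ s : G, (R s).trace * (R s).trace =
          classInner ρ.character ρ.character := by
        unfold classInner
        congr 1
        refine Finset.sum_congr rfl fun s _ => ?_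
        rw [htr, Complex.conj_eq_iff_im.2 (hreal s)]
      classical
      have h3 := classInner_irr (G := G) ⟨ρ.character, hχ'⟩ ⟨ρ.character, hχ'⟩
      rw [if_pos rfl] at h3
      rw [h2, h3]
      exact one_ne_zero
    obtain ⟨B, hB0, hB⟩ := exists_invForm R h1
    have h3 := transpose_eq_fs R hirr hker B hB
    have h4 : ∑ s : G, (R (s * s)).trace = ∑ s : G, ρ.character (s * s) :=
      Finset.sum_congr rfl fun s _ => htr _
    rw [h4, h, one_smul] at h3
    have hm : 0 < m := by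
      rcases Nat.eq_zero_or_pos m with h5 | h5
      · exfalso
        subst h5
        apply hB0
        ext i
        exact i.elim0
      · exact h5
    obtain ⟨S, hS⟩ := exists_real R hirr hker hm B hB hB0 h3
    refine ⟨m, (Matrix.toLinAlgEquiv' : _ ≃ₐ[ℝ] _).toAlgHom.toMonoidHom.comp S, ?_⟩
    intro g
    rw [← htr, ← hS]
    congr 1
    change LinearMap.trace ℝ _ (Matrix.toLin' (S g)) = _
    rw [Matrix.trace_toLin'_eq]
  · rintro ⟨n, ρ, hρ⟩
    replace hρ : ∀ g : G, ((LinearMap.trace ℝ (Fin n → ℝ) (ρ g) : ℝ) : ℂ) = χ g := hρ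
    let S : G →* Matrix (Fin n) (Fin n) ℝ :=
      (LinearMap.toMatrixAlgEquiv' : _ ≃ₐ[ℝ] _).toAlgHom.toMonoidHom.comp ρ
    have hS : ∀ g, (S g).trace = LinearMap.trace ℝ _ (ρ g) := by
      intro g
      have h1 : ρ g = Matrix.toLin' (S g) := by
        change ρ g = Matrix.toLin' (LinearMap.toMatrix' (ρ g))
        rw [Matrix.toLin'_toMatrix']
      rw [h1, Matrix.trace_toLin'_eq]
    let R0 : G →* Matrix (Fin n) (Fin n) ℂ := (Complex.ofRealHom.mapMatrix : _ →+* _).toMonoidHom.comp S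
    let σ : Representation ℂ G (Fin n → ℂ) := (Matrix.toLinAlgEquiv' : _ ≃ₐ[ℂ] _).toAlgHom.toMonoidHom.comp R0
    have hσ : σ.character = χ := by
      funext g
      have h1 : σ g = Matrix.toLin' (R0 g) := rfl
      change LinearMap.trace ℂ _ (σ g) = _
      rw [h1, Matrix.trace_toLin'_eq, ← hρ g]
      rw [← hS]
      change ((S g).map Complex.ofReal).trace = _
      simp [Matrix.trace]
    haveI hirrσ : σ.IsIrreducible := Char.isIrreducible_of_character σ (by rw [hσ]; exact hχ)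
    obtain ⟨htr, hirr, hker⟩ := matrix_facts σ (Pi.basisFun ℂ (Fin n))
    have hRR : ∀ g, ((LinearMap.toMatrixAlgEquiv (Pi.basisFun ℂ (Fin n))).toAlgHom.toMonoidHom.comp σ) g
        = (S g).map Complex.ofReal := by
      intro g
      change LinearMap.toMatrix' (Matrix.toLin' (R0 g)) = _
      rw [LinearMap.toMatrix'_toLin']
      rfl
    have hn : 0 < n := by
      rcases Nat.eq_zero_or_pos n with h5 | h5
      · exfalso
        subst h5
        have h6 := irr_one_ne_zero hχ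
        rw [← hρ 1] at h6
        apply h6
        rw [← hS]
        simp [Matrix.trace]
      · exact h5
    have h7 := symm_of_real S hn (fun M hM => hirr M (fun h => by rw [hRR]; exact hM h))
      (fun M hM => hker M (fun h => by rw [hRR]; exact hM h))
    rw [← h7]
    congr 1
    refine Finset.sum_congr rfl (fun g _ => ?_)
    simp only
    rw [hS, hρ]

end

end Cfsg.Agent.Mdx.FSR
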