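import Cfsg.Agent.Mdx.FcQ

/-!
# S4146, piece C2: the final contradiction
-/

set_option autoImplicit false

namespace Cfsg.Agent.Mdx.FcC2

open Cfsg.Agent.H35.CR Cfsg.Agent.BT.Fc Cfsg

universe u

variable {G : Type u} [Group G] [Finite G] {p q a b : ℕ}

theorem UD.solvable (D : UD G p q a b) : Group.IsSolvable G := by
  set n := (Subgroup.center G).index with hn
  have hn0 : n ≠ 0 := Subgroup.index_ne_zero_of_finite
  have hd : ∀ r : ℕ, r.Prime → r ∣ n → r = p ∨ r = q := by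
    intro r hr hd
    by_contra hne
    push Not at hne
    exact D.not_dvd_index hr hne.1 hne.2 hd
  have h1 : ∃ k, n / p ^ n.factorization p = q ^ k := by
    refine ⟨_, Nat.eq_prime_pow_of_unique_prime_dvd (Nat.ordCompl_pos p hn0).ne' ?_⟩
    intro r hr hr2
    rcases hd r hr (hr2.trans (Nat.ordCompl_dvd n p)) with h3 | h3
    · subst h3
      exact absurd hr2 (Nat.not_dvd_ordCompl hr hn0)
    · exact h3
  obtain ⟨k, hk⟩ := h1
  have h2 : Nat.card (G ⧸ Subgroup.center G) = p ^ n.factorization p * q ^ k := by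
    rw [← hk, Nat.ordProj_mul_ordCompl_eq_self]
    rfl
  have h3 : Group.IsSolvable (G ⧸ Subgroup.center G) := Cfsg.Agent.S0144.result p q _ _ D.hp D.hq h2
  have h4 : Group.IsSolvable (Subgroup.center G) :=
    Group.isSolvable_of_comm (fun a b => Subtype.ext (Subgroup.mem_center_iff.1 b.2 a))
  exact (Group.isSolvable_iff_subgroup_quotient (Subgroup.center G)).mpr ⟨h4, h3⟩

/-- if `y ∈ Y` centralizes `O_q(G)`, then `y ∈ O_p(G)` -/
theorem UD.mem_K (D : UD G p q a b) {y : G} (hy : PE p y) (hyc : cs y = q ^ b) (hL : pCore q G ≤ cz y) :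
    y ∈ pCore p G := by
  have hpf : Fact p.Prime := ⟨D.hp⟩
  have hsol := D.solvable
  have h1 : fittingSubgroup G ≤ cz y := by
    refine le_trans Cfsg.Agent.Solv.fitting_le_iSup_pCore (iSup_le ?_)
    intro r
    by_cases hrp : (r : ℕ) = p
    · rw [hrp]; exact D.K_le hyc
    by_cases hrq : (r : ℕ) = q
    · rw [hrq]; exact hL
    intro s hs
    have h2 : PE (r : ℕ) s := pe_of_pg (Cfsg.Agent.Solv.pCore_isPGroup (r : ℕ)) hs
    exact center_le_cz y (D.center_of_coprime (not_dvd_of_pe r.2 D.hp hrp h2) (not_dvd_of_pe r.2 D.hq hrq h2))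
  have h2 : y ∈ fittingSubgroup G := by
    apply Cfsg.Agent.Solv.centralizer_fitting_le
    rw [Subgroup.mem_centralizer_iff]
    intro s hs
    exact mem_cz.1 (h1 hs)
  have hnil : Group.IsNilpotent (fittingSubgroup G) := Cfsg.Agent.Solv.fitting_isNilpotent
  have h4 : IsPGroup p ((Subgroup.zpowers y).subgroupOf (fittingSubgroup G)) := (pg_zpowers hy).comap_subtype
  obtain ⟨P, hP⟩ := h4.exists_le_sylow
  have hc : (P : Subgroup (fittingSubgroup G)).Characteristic := P.characteristic_of_normal inferInstance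
  have hn : ((P : Subgroup (fittingSubgroup G)).map (fittingSubgroup G).subtype).Normal := inferInstance
  refine Cfsg.Agent.Solv.le_pCore hn (P.isPGroup'.map _) ?_
  exact ⟨⟨y, h2⟩, hP (Subgroup.mem_subgroupOf.2 (Subgroup.mem_zpowers y)), rfl⟩

/-- the case where `Y` centralizes `O_q(G)` -/
theorem UD.final (D : UD G p q a b) (hPY : ∀ y : G, PE p y → cs y = q ^ b → pCore q G ≤ cz y) : False := by
  have hpf : Fact p.Prime := ⟨D.hp⟩
  -- `X` centralizes `O_p(G)`
  have hPX : ∀ x : G, PE q x → cs x = p ^ a → pCore p G ≤ cz x := by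
    intro x hx hxc
    by_contra hne
    obtain ⟨k, hk, hkx⟩ := Set.not_subset.1 hne
    have h1 := D.zp_lt
    have h2 := (D.v_pa hxc).1
    obtain ⟨u, hu, hup, huc⟩ := exists_nc (p := p) (H := cz x) (by omega)
    rcases D.pe_cases hup huc with h3 | h3
    · exact huc (D.v1 hx hxc hk hkx (D.mem_K hup h3 (hPY u hup h3)) hu)
    · obtain ⟨z, hz, hzc, hzu, hle⟩ := D.exists_z hup h3
      have h4 : x ∈ cz z := hle (mem_cz.2 (mem_cz.1 hu).symm)
      have h5 : z ∈ Subgroup.center G :=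
        D.v1 hx hxc hk hkx (D.mem_K hz hzc (hPY z hz hzc)) (mem_cz.2 (mem_cz.1 h4).symm)
      rw [cs_eq_one.2 h5] at hzc
      have := D.h.hm
      omega
  obtain ⟨x, hx, hxc⟩ := D.exists_X
  have hxL : x ∈ pCore q G := D.symm.mem_K hx hxc (hPX x hx hxc)
  refine D.q_contra hx (D.not_central_of_cs hxc) ?_
  intro g hg
  by_cases hgc : g ∈ Subgroup.center G
  · exact center_le_cz x hgc
  · rcases D.pe_cases hg hgc with h3 | h3
    · exact mem_cz.2 (mem_cz.1 (hPY g hg h3 hxL)).symm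
    · obtain ⟨z, hz, hzc, hzu, hle⟩ := D.exists_z hg h3
      have h4 := D.L_le_of_W h3 hzc hle (hPY z hz hzc)
      exact mem_cz.2 (mem_cz.1 (h4 hxL)).symm

theorem UD.false (D : UD G p q a b) : False := by
  by_cases hY : ∀ y : G, PE p y → cs y = q ^ b → pCore q G ≤ cz y
  · exact D.final hY
  by_cases hX : ∀ x : G, PE q x → cs x = p ^ a → pCore p G ≤ cz x
  · exact D.symm.final hX
  push Not at hY hX
  obtain ⟨y, hy, hyc, hy2⟩ := hY
  obtain ⟨x, hx, hxc, hx2⟩ := hX
  obtain ⟨k, hk, hkx⟩ := Set.not_subset.1 hx2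
  obtain ⟨l, hl, hly⟩ := Set.not_subset.1 hy2
  have h1 := D.v2 hx hxc hk hkx
  have h2 := D.symm.v2 hy hyc hl hly
  omega

/-- **S4146, piece C2** -/
theorem unnat {G : Type u} [Group G] [Finite G] {p q a b : ℕ} (h : F4 G (p ^ a) (q ^ b)) (hp : p.Prime) (hq : q.Prime)
    (hpq : p ≠ q) (hX : ∀ x : G, PE p x → cs x ≠ p ^ a) (hY : ∀ y : G, PE q y → cs y ≠ q ^ b) : False :=
  UD.false ⟨h, hp, hq, hpq, hX, hY⟩

end Cfsg.Agent.Mdx.FcC2
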