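import Cfsg.Agent.Mdx.FcS
import Cfsg.Agent.H67.PRegular
import Cfsg.Agent.S0144

/-!
# S4146, piece C2: basic facts
-/

set_option autoImplicit false

namespace Cfsg.Agent.Mdx.FcC2

open Cfsg.Agent.H35.CR Cfsg.Agent.BT.Fc Cfsg

universe u

variable {G : Type u} [Group G] [Finite G] {p q a b : ℕ}

structure UD (G : Type u) [Group G] [Finite G] (p q a b : ℕ) : Prop where
  h : F4 G (p ^ a) (q ^ b)
  hp : p.Prime
  hq : q.Prime
  hpq : p ≠ q
  hX : ∀ x : G, PE p x → cs x ≠ p ^ a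
  hY : ∀ y : G, PE q y → cs y ≠ q ^ b

theorem UD.symm (D : UD G p q a b) : UD G q p b a :=
  ⟨D.h.symm, D.hq, D.hp, D.hpq.symm, D.hY, D.hX⟩

theorem UD.a_pos (D : UD G p q a b) : 0 < a := by
  have := D.h.hn
  rcases Nat.eq_zero_or_pos a with h | h
  · rw [h, pow_zero] at this; omega
  · exact h

theorem UD.b_pos (D : UD G p q a b) : 0 < b := D.symm.a_pos

theorem UD.fpp (D : UD G p q a b) : (p ^ a).factorization p = a := by
  rw [D.hp.factorization_pow, Finsupp.single_eq_same]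

theorem UD.fqp (D : UD G p q a b) : (q ^ b).factorization p = 0 := by
  rw [D.hq.factorization_pow, Finsupp.single_eq_of_ne D.hpq]

theorem UD.v_pa (D : UD G p q a b) {g : G} (hg : cs g = p ^ a) :
    a + v p (cz g) = v p (⊤ : Subgroup G) ∧ v q (cz g) = v q (⊤ : Subgroup G) := by
  have h1 := v_add p g
  have h2 := v_add q g
  rw [hg] at h1 h2
  rw [D.fpp] at h1
  rw [D.symm.fqp, zero_add] at h2
  exact ⟨h1, h2⟩

theorem UD.v_qb (D : UD G p q a b) {g : G} (hg : cs g = q ^ b) :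
    v p (cz g) = v p (⊤ : Subgroup G) ∧ b + v q (cz g) = v q (⊤ : Subgroup G) :=
  ⟨(D.symm.v_pa hg).2, (D.symm.v_pa hg).1⟩

theorem UD.v_pq (D : UD G p q a b) {g : G} (hg : cs g = p ^ a * q ^ b) :
    a + v p (cz g) = v p (⊤ : Subgroup G) ∧ b + v q (cz g) = v q (⊤ : Subgroup G) := by
  have h1 := v_add p g
  have h2 := v_add q g
  have hp0 : p ^ a ≠ 0 := pow_ne_zero _ D.hp.ne_zero
  have hq0 : q ^ b ≠ 0 := pow_ne_zero _ D.hq.ne_zero
  rw [hg, Nat.factorization_mul hp0 hq0, Finsupp.add_apply] at h1 h2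
  rw [D.fpp, D.fqp, add_zero] at h1
  rw [D.symm.fqp, D.symm.fpp, zero_add] at h2
  exact ⟨h1, h2⟩

/-- the type of a noncentral `p`-element -/
theorem UD.pe_cases (D : UD G p q a b) {x : G} (hx : PE p x) (hz : x ∉ Subgroup.center G) :
    cs x = q ^ b ∨ cs x = p ^ a * q ^ b := by
  rcases D.h.all x with h | h | h | h
  · exact absurd (cs_eq_one.1 h) hz
  · exact absurd h (D.hX x hx)
  · exact Or.inl h
  · exact Or.inr h

theorem UD.v_other (D : UD G p q a b) {r : ℕ} (hr : r.Prime) (hrp : r ≠ p) (hrq : r ≠ q) (g : G) :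
    v r (cz g) = v r (⊤ : Subgroup G) := by
  have h1 := v_add r g
  have hp0 : p ^ a ≠ 0 := pow_ne_zero _ D.hp.ne_zero
  have hq0 : q ^ b ≠ 0 := pow_ne_zero _ D.hq.ne_zero
  have e1 : (p ^ a).factorization r = 0 := by
    rw [D.hp.factorization_pow, Finsupp.single_eq_of_ne hrp]
  have e2 : (q ^ b).factorization r = 0 := by
    rw [D.hq.factorization_pow, Finsupp.single_eq_of_ne hrq]
  have e3 : (cs g).factorization r = 0 := by
    rcases D.h.all g with h | h | h | h
    · rw [h, Nat.factorization_one]; rfl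
    · rw [h, e1]
    · rw [h, e2]
    · rw [h, Nat.factorization_mul hp0 hq0, Finsupp.add_apply, e1, e2]
  rw [e3, zero_add] at h1
  exact h1

theorem UD.not_dvd_index (D : UD G p q a b) {r : ℕ} (hr : r.Prime) (hrp : r ≠ p) (hrq : r ≠ q) :
    ¬ r ∣ (Subgroup.center G).index := by
  have : Fact r.Prime := ⟨hr⟩
  obtain ⟨R, -, hR⟩ := Sy.exists_ge (p := r) (bot_le : (⊥ : Subgroup G) ≤ ⊤) IsPGroup.of_bot
  have h1 : Subgroup.centralizer (R : Set G) = ⊤ := by
    apply Cfsg.Agent.H67.eq_top_of_conj_cover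
    intro g
    obtain ⟨R', -, hR'⟩ := Sy.exists_ge (p := r) (bot_le : (⊥ : Subgroup G) ≤ cz g) IsPGroup.of_bot
    obtain ⟨c, hc⟩ := hR.conj (hR'.of_v le_top (D.v_other hr hrp hrq g))
    refine ⟨c⁻¹, ?_⟩
    rw [Subgroup.mem_centralizer_iff]
    intro s hs
    have h2 := mem_cz.1 (hR'.le (hc s hs))
    rw [inv_inv]
    have h3 : s * (c⁻¹ * g * c) = c⁻¹ * ((c * s * c⁻¹) * g) * c := by group
    rw [h3, h2]; group
  have h2 : R ≤ Subgroup.center G := by
    intro s hs
    rw [Subgroup.mem_center_iff]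
    intro g
    have hg : g ∈ Subgroup.centralizer (R : Set G) := by rw [h1]; trivial
    exact (Subgroup.mem_centralizer_iff.1 hg s hs).symm
  have h3 := pg_card_le h2 hR.pg
  rw [hR.card, Nat.pow_le_pow_iff_right hr.one_lt] at h3
  have h4 : v r (⊤ : Subgroup G) = v r (Subgroup.center G) + (Subgroup.center G).index.factorization r := by
    rw [v, v, Subgroup.card_top, ← Subgroup.card_mul_index (Subgroup.center G),
      Nat.factorization_mul Nat.card_pos.ne' Subgroup.index_ne_zero_of_finite]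
    rfl
  have h5 : (Subgroup.center G).index.factorization r = 0 := by omega
  intro hd
  have := (hr.dvd_iff_one_le_factorization Subgroup.index_ne_zero_of_finite).1 hd
  omega

theorem UD.center_of_coprime (D : UD G p q a b) {w : G} (hp' : ¬ p ∣ orderOf w) (hq' : ¬ q ∣ orderOf w) :
    w ∈ Subgroup.center G := by
  have hco : Nat.Coprime (Subgroup.center G).index (orderOf w) := by
    rw [Nat.coprime_iff_gcd_eq_one]
    by_contra hne
    obtain ⟨r, hr, hrd⟩ := Nat.exists_prime_and_dvd hne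
    by_cases h1 : r = p
    · exact hp' (h1 ▸ hrd.trans (Nat.gcd_dvd_right _ _))
    by_cases h2 : r = q
    · exact hq' (h2 ▸ hrd.trans (Nat.gcd_dvd_right _ _))
    exact D.not_dvd_index hr h1 h2 (hrd.trans (Nat.gcd_dvd_left _ _))
  have h1 : w ^ (Subgroup.center G).index ∈ Subgroup.center G := Subgroup.pow_index_mem _ w
  have h2 : w ∈ Subgroup.zpowers (w ^ (Subgroup.center G).index) := by
    rw [Subgroup.mem_zpowers_iff]
    obtain ⟨m, hm⟩ := exists_pow_eq_self_of_coprime hco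
    exact ⟨m, by rw [zpow_natCast]; exact hm⟩
  exact (Subgroup.zpowers_le.2 h1) h2

/-- decomposition of an element -/
theorem UD.decomp (D : UD G p q a b) (g : G) : ∃ x y : G, PE p x ∧ PE q y ∧ x * y = y * x ∧ cz g = cz x ⊓ cz y := by
  obtain ⟨x, w, hx, hw, hg, hxp, hwp⟩ := split g D.hp
  obtain ⟨y, z, hy, hz, hw2, hyq, hzq⟩ := split w D.hq
  have hyg : y ∈ Subgroup.zpowers g := (Subgroup.zpowers_le.2 hw) hy
  have hzg : z ∈ Subgroup.zpowers g := (Subgroup.zpowers_le.2 hw) hz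
  have hcomm : ∀ s ∈ Subgroup.zpowers g, ∀ t ∈ Subgroup.zpowers g, s * t = t * s := by
    intro s hs t ht
    obtain ⟨i, rfl⟩ := Subgroup.mem_zpowers_iff.1 hs
    obtain ⟨j, rfl⟩ := Subgroup.mem_zpowers_iff.1 ht
    rw [← zpow_add, ← zpow_add, add_comm]
  have hzp : ¬ p ∣ orderOf z := by
    intro hd
    apply hwp
    exact hd.trans (orderOf_dvd_of_mem_zpowers hz)
  have hzc := D.center_of_coprime hzp hzq
  refine ⟨x, y, hxp, hyq, hcomm x hx y hyg, ?_⟩
  rw [← cz_mul (hcomm x hx y hyg) (PE.cop D.hp D.hq D.hpq hxp hyq)]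
  have e : g = (x * y) * z := by rw [hg, hw2, mul_assoc]
  ext t
  rw [mem_cz, mem_cz, e]
  have hz' := Subgroup.mem_center_iff.1 hzc
  constructor
  · intro h1
    have h2 : (t * (x * y)) * z = ((x * y) * t) * z := by
      rw [mul_assoc t, h1, mul_assoc (x * y) z t, ← hz' t, ← mul_assoc]
    exact mul_right_cancel h2
  · intro h1
    rw [← mul_assoc t, h1, mul_assoc (x * y) t z, hz' t, ← mul_assoc]

theorem UD.not_central_of_cs (D : UD G p q a b) {g : G} (hg : cs g = p ^ a) : g ∉ Subgroup.center G := by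
  intro h
  rw [cs_eq_one.2 h] at hg
  have := D.h.hn
  omega

theorem UD.nc_pq (D : UD G p q a b) {g : G} (hg : cs g = p ^ a * q ^ b) : g ∉ Subgroup.center G := by
  intro h
  rw [cs_eq_one.2 h] at hg
  have h1 := D.h.hn
  have h2 := D.h.hm
  nlinarith

/-- `X` is nonempty -/
theorem UD.exists_X (D : UD G p q a b) : ∃ x : G, PE q x ∧ cs x = p ^ a := by
  obtain ⟨g, hg⟩ := D.h.exn
  obtain ⟨x, y, hx, hy, -, hcz⟩ := D.decomp g
  have hxd : cs x ∣ p ^ a := hg ▸ cs_dvd (hcz ▸ inf_le_left)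
  have hyd : cs y ∣ p ^ a := hg ▸ cs_dvd (hcz ▸ inf_le_right)
  have key : ∀ t : G, cs t ∣ p ^ a → t ∉ Subgroup.center G → cs t = p ^ a := by
    intro t ht htc
    have hcop : (q ^ b).Coprime (p ^ a) := D.h.cop.symm
    have hm := D.h.hm
    rcases D.h.all t with h | h | h | h
    · exact absurd (cs_eq_one.1 h) htc
    · exact h
    · rw [h] at ht
      have := Nat.Coprime.eq_one_of_dvd hcop ht
      omega
    · rw [h] at ht
      have := Nat.Coprime.eq_one_of_dvd hcop ((Dvd.intro_left _ rfl).trans ht)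
      omega
  have hxc : x ∈ Subgroup.center G := by
    by_contra hne
    exact D.hX x hx (key x hxd hne)
  refine ⟨y, hy, key y hyd ?_⟩
  intro hyc
  apply D.not_central_of_cs hg
  rw [← cs_eq_one, cs, hcz, Subgroup.index_eq_one, eq_top_iff]
  intro t _
  exact ⟨mem_cz.2 (Subgroup.mem_center_iff.1 hxc t), mem_cz.2 (Subgroup.mem_center_iff.1 hyc t)⟩

end Cfsg.Agent.Mdx.FcC2
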