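import Cfsg.Agent.Mdx.FcM

/-!
# S4146, piece C2: centralizers of elements of the largest class size
-/

set_option autoImplicit false

namespace Cfsg.Agent.Mdx.FcC2

open Cfsg.Agent.H35.CR Cfsg.Agent.BT.Fc Cfsg

universe u

variable {G : Type u} [Group G] [Finite G] {p q a b : ℕ}

/-- (i) -/
theorem UD.zq_lt (D : UD G p q a b) : b + v q (Subgroup.center G) < v q (⊤ : Subgroup G) := by
  have hpf : Fact p.Prime := ⟨D.hp⟩
  have hqf : Fact q.Prime := ⟨D.hq⟩
  by_contra hcon
  push Not at hcon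
  -- every noncentral q-element has class size p^a
  have c1 : ∀ t : G, PE q t → t ∉ Subgroup.center G → cs t = p ^ a := by
    intro t ht htc
    have h1 := lt_of_nc (center_le_cz t) (self_mem t) ht htc
    rcases D.symm.pe_cases ht htc with h | h
    · exact h
    · have h2 := (D.symm.v_pq h).1
      omega
  -- noncentral p- and q-elements do not commute
  have c2 : ∀ s t : G, PE p s → PE q t → s ∉ Subgroup.center G → t ∉ Subgroup.center G → ¬ s * t = t * s := by
    intro s t hs ht hsc htc hst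
    have h1 := lt_of_nc (center_le_cz s) (mem_cz.2 hst.symm) ht htc
    rcases D.pe_cases hs hsc with h | h
    · have h2 := (D.v_qb h).2
      omega
    · have h2 := (D.v_pq h).2
      omega
  obtain ⟨g, hg⟩ := D.h.exnm
  obtain ⟨x, y, hx, hy, hxy, hcz⟩ := D.decomp g
  by_cases hyc : y ∈ Subgroup.center G
  · have h1 : cz g = cz x := by
      rw [hcz, inf_eq_left]
      intro t _
      exact mem_cz.2 (Subgroup.mem_center_iff.1 hyc t)
    have h2 : cs x = p ^ a * q ^ b := by rw [cs, ← h1]; exact hg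
    have hxc := D.nc_pq h2
    have h3 := lt_of_nc (center_le_cz x) (self_mem x) hx hxc
    have h4 := (D.v_pq h2).1
    obtain ⟨x', hx', hx'c⟩ := D.exists_X
    have h5 := (D.v_pa hx'c).1
    obtain ⟨s, hs1, hs2, hs3⟩ := exists_nc (p := p) (H := cz x') (by omega)
    exact c2 s x' hs2 hx' hs3 (D.not_central_of_cs hx'c) (mem_cz.1 hs1)
  · by_cases hxc : x ∈ Subgroup.center G
    · have h1 : cz g = cz y := by
        rw [hcz, inf_eq_right]
        intro t _
        exact mem_cz.2 (Subgroup.mem_center_iff.1 hxc t)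
      have h2 : cs y = p ^ a * q ^ b := by rw [cs, ← h1]; exact hg
      have h3 := c1 y hy hyc
      rw [h3] at h2
      have h4 := D.h.hm
      have h5 := D.h.hn
      nlinarith
    · exact c2 x y hx hy hxc hyc hxy

theorem UD.zp_lt (D : UD G p q a b) : a + v p (Subgroup.center G) < v p (⊤ : Subgroup G) := D.symm.zq_lt

/-- e1 -/
theorem UD.cz_le_of_W (D : UD G p q a b) {g : G} (hg : PE p g) (hc : cs g = p ^ a * q ^ b) {w : G} (hw : w ∈ cz g)
    (hwp : ¬ p ∣ orderOf w) : cz g ≤ cz w := by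
  have hco : (orderOf g).Coprime (orderOf w) := by
    obtain ⟨k, hk⟩ := hg
    exact orderOf_two_pow_coprime D.hp hk hwp
  have h1 := cz_mul (mem_cz.1 hw).symm hco
  have h2 : cs g ∣ cs (g * w) := cs_dvd (h1 ▸ inf_le_left)
  have h3 : cs (g * w) = cs g := by
    have hp1 := D.h.hn
    have hq1 := D.h.hm
    have hle := Nat.le_of_dvd (cs_pos _) h2
    rw [hc] at hle ⊢
    rcases D.h.all (g * w) with h | h | h | h
    · rw [h] at hle; nlinarith
    · rw [h] at hle; nlinarith
    · rw [h] at hle; nlinarith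
    · exact h
  have h4 : cz (g * w) = cz g := cz_eq_of_cs (h1 ▸ inf_le_left) h3
  rw [← h4, h1]
  exact inf_le_right

/-- (ii): the `p`-subgroups of `cz x` are abelian -/
theorem UD.ab_of_X (D : UD G p q a b) {x : G} (hx : PE q x) (hc : cs x = p ^ a) {S : Subgroup G} (hS : S ≤ cz x)
    (hSp : IsPGroup p S) : ∀ s ∈ S, ∀ t ∈ S, s * t = t * s := by
  have hpf : Fact p.Prime := ⟨D.hp⟩
  have hqf : Fact q.Prime := ⟨D.hq⟩
  have hcond : Cfsg.Agent.H67.PRegClassPPower q (cz x) := by
    intro w hw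
    have hwo : orderOf (w : G) = orderOf w := Subgroup.orderOf_coe w
    have hco : (orderOf x).Coprime (orderOf (w : G)) := by
      obtain ⟨k, hk⟩ := hx
      refine orderOf_two_pow_coprime D.hq hk ?_
      rw [hwo]
      exact (Nat.Prime.coprime_iff_not_dvd D.hq).1 hw.symm
    have h1 := cz_mul (mem_cz.1 w.2).symm hco
    have h2 : (cz (x * (w : G))).relIndex (cz x) * cs x = cs (x * (w : G)) :=
      Subgroup.relIndex_mul_index (h1 ▸ inf_le_left)
    have h3 : (Subgroup.centralizer ({w} : Set (cz x))) = (cz (x * (w : G))).subgroupOf (cz x) := by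
      ext t
      rw [Subgroup.mem_centralizer_singleton_iff, Subgroup.mem_subgroupOf, h1]
      constructor
      · intro ht
        exact ⟨t.2, mem_cz.2 (congrArg Subtype.val ht)⟩
      · intro ht
        exact Subtype.ext (mem_cz.1 ht.2)
    rw [h3]
    show ∃ k : ℕ, (cz (x * (w : G))).relIndex (cz x) = q ^ k
    rw [hc] at h2
    have hpa : 0 < p ^ a := pow_pos D.hp.pos a
    have hcop : (p ^ a).Coprime (q ^ b) := D.h.cop
    have hp1 := D.h.hn
    rcases D.h.all (x * (w : G)) with h | h | h | h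
    · rw [h] at h2
      have := Nat.eq_one_of_mul_eq_one_left h2
      omega
    · rw [h] at h2
      refine ⟨0, ?_⟩
      rw [pow_zero]
      exact Nat.eq_of_mul_eq_mul_right hpa (by rw [h2, one_mul])
    · rw [h] at h2
      have : p ^ a ∣ q ^ b := ⟨_, by rw [← h2, mul_comm]⟩
      have := Nat.Coprime.eq_one_of_dvd hcop this
      omega
    · rw [h] at h2
      refine ⟨b, ?_⟩
      exact Nat.eq_of_mul_eq_mul_right hpa (by rw [h2, mul_comm])
  obtain ⟨C, hCab, hCq, k, hk⟩ := Cfsg.Agent.H67.PRegClassPPower.exists_abelian_complement_aux D.hq _ (cz x) rfl hcond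
  -- a Sylow p-subgroup of C is a Sylow p-subgroup of cz x
  set C' : Subgroup G := C.map (cz x).subtype with hC'
  have hC'le : C' ≤ cz x := Subgroup.map_subtype_le _
  have hC'ab : ∀ s ∈ C', ∀ t ∈ C', s * t = t * s := by
    rintro _ ⟨s, hs, rfl⟩ _ ⟨t, ht, rfl⟩
    have := Cfsg.Agent.Solv.comm_of_isMulCommutative hCab hs ht
    exact congrArg Subtype.val this
  have hv : v p (cz x) = v p C' := by
    rw [v, v, Cfsg.Agent.Cop.card_map_subtype, ← Subgroup.card_mul_index C, hk,
      Nat.factorization_mul Nat.card_pos.ne' (pow_ne_zero _ D.hq.ne_zero), Finsupp.add_apply,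
      D.hq.factorization_pow, Finsupp.single_eq_of_ne D.hpq, add_zero]
  obtain ⟨T, -, hT⟩ := Sy.exists_ge (p := p) (bot_le : (⊥ : Subgroup G) ≤ C') IsPGroup.of_bot
  obtain ⟨S', hSS', hS'⟩ := Sy.exists_ge hS hSp
  -- conjugate S' to T inside cz x
  have e1 : Nat.card (S'.subgroupOf (cz x)) = p ^ (Nat.card (cz x)).factorization p := by
    rw [Nat.card_congr (Subgroup.subgroupOfEquivOfLe hS'.le).toEquiv]; exact hS'.card
  have e2 : Nat.card (T.subgroupOf (cz x)) = p ^ (Nat.card (cz x)).factorization p := by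
    rw [Nat.card_congr (Subgroup.subgroupOfEquivOfLe (hT.le.trans hC'le)).toEquiv, hT.card, ← hv]; rfl
  let S1 : Sylow p (cz x) := Sylow.ofCard _ e1
  let T1 : Sylow p (cz x) := Sylow.ofCard _ e2
  obtain ⟨c, hcc⟩ := MulAction.exists_smul_eq (cz x) S1 T1
  have hconj : ∀ s ∈ S', (c : G) * s * (c : G)⁻¹ ∈ T := by
    intro s hs
    have hs1 : (⟨s, hS'.le hs⟩ : cz x) ∈ (S1 : Subgroup (cz x)) := Subgroup.mem_subgroupOf.2 hs
    have h1 : c * ⟨s, hS'.le hs⟩ * c⁻¹ ∈ ((c • S1 : Sylow p (cz x)) : Subgroup (cz x)) := by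
      rw [Sylow.coe_subgroup_smul]
      exact ⟨_, hs1, rfl⟩
    rw [hcc] at h1
    exact Subgroup.mem_subgroupOf.1 h1
  intro s hs t ht
  have h1 := hC'ab _ (hT.le (hconj s (hSS' hs))) _ (hT.le (hconj t (hSS' ht)))
  have h2 : (c : G) * (s * t) * (c : G)⁻¹ = (c : G) * (t * s) * (c : G)⁻¹ := by
    have e3 : (c : G) * (s * t) * (c : G)⁻¹ = ((c : G) * s * (c : G)⁻¹) * ((c : G) * t * (c : G)⁻¹) := by group
    have e4 : (c : G) * (t * s) * (c : G)⁻¹ = ((c : G) * t * (c : G)⁻¹) * ((c : G) * s * (c : G)⁻¹) := by group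
    rw [e3, e4, h1]
  exact mul_left_cancel (mul_right_cancel h2)

end Cfsg.Agent.Mdx.FcC2
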