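import Cfsg.Agent.Mdx.FcN

/-!
# S4146, piece C2: centralizers of elements of the largest class size, II
-/

set_option autoImplicit false

namespace Cfsg.Agent.Mdx.FcC2

open Cfsg.Agent.H35.CR Cfsg.Agent.BT.Fc Cfsg

universe u

variable {G : Type u} [Group G] [Finite G] {p q a b : ℕ}

theorem not_dvd_of_pe {p q : ℕ} (hp : p.Prime) (hq : q.Prime) (hpq : p ≠ q) {x : G} (hx : PE p x) :
    ¬ q ∣ orderOf x := by
  obtain ⟨k, hk⟩ := hx.orderOf hp
  rw [hk]
  intro hd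
  exact hpq ((Nat.prime_dvd_prime_iff_eq hq hp).1 (hq.dvd_of_dvd_pow hd)).symm

theorem mul_mem_cz {g s t : G} (hs : s ∈ cz g) (ht : t ∈ cz g) : s * t ∈ cz g := mul_mem hs ht

/-- (iii): centralizers of `p`-elements of class size `p^a q^b` are abelian -/
theorem UD.W_ab (D : UD G p q a b) {g : G} (hg : PE p g) (hc : cs g = p ^ a * q ^ b) :
    ∀ s ∈ cz g, ∀ t ∈ cz g, s * t = t * s := by
  have hpf : Fact p.Prime := ⟨D.hp⟩
  have hqf : Fact q.Prime := ⟨D.hq⟩
  -- p'-elements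
  have hA : ∀ s ∈ cz g, ∀ t ∈ cz g, ¬ p ∣ orderOf s → s * t = t * s := by
    intro s hs t ht hps
    exact (mem_cz.1 (D.cz_le_of_W hg hc hs hps ht)).symm
  -- p-elements
  have hB : ∀ s ∈ cz g, ∀ t ∈ cz g, PE p s → PE p t → s * t = t * s := by
    intro s hs t ht hps hpt
    have h1 := D.zq_lt
    have h2 := (D.v_pq hc).2
    obtain ⟨u, hu, huq, huc⟩ := exists_nc (p := q) (H := cz g) (by omega)
    have hle : cz g ≤ cz u := D.cz_le_of_W hg hc hu (not_dvd_of_pe D.hq D.hp D.hpq.symm huq)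
    rcases D.symm.pe_cases huq huc with h | h
    · -- cs u = p ^ a
      have hcen : ∀ w : cz g, (¬ p ∣ orderOf (w : G)) → w ∈ Subgroup.center (cz g) := by
        intro w hw
        rw [Subgroup.mem_center_iff]
        intro z
        exact Subtype.ext (hA _ w.2 _ z.2 hw).symm
      have hpq' : IsPGroup p (cz g ⧸ Subgroup.center (cz g)) := by
        intro z
        obtain ⟨w, rfl⟩ := QuotientGroup.mk_surjective z
        obtain ⟨x, y, hx, hy, hxy, ⟨k, hk⟩, hyp⟩ := split (w : G) D.hp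
        have hyg : y ∈ cz g := (Subgroup.zpowers_le.2 w.2) hy
        refine ⟨k, ?_⟩
        rw [← QuotientGroup.mk_pow, QuotientGroup.eq_one_iff]
        have hxc : x * y = y * x := by
          obtain ⟨i, rfl⟩ := Subgroup.mem_zpowers_iff.1 hx
          obtain ⟨j, rfl⟩ := Subgroup.mem_zpowers_iff.1 hy
          rw [← zpow_add, ← zpow_add, add_comm]
        have h3 : w ^ p ^ k = (⟨y, hyg⟩ : cz g) ^ p ^ k := by
          apply Subtype.ext
          show (w : G) ^ p ^ k = y ^ p ^ k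
          rw [hxy, (show Commute x y from hxc).mul_pow, hk, one_mul]
        rw [h3]
        exact Subgroup.pow_mem _ (hcen ⟨y, hyg⟩ hyp) _
      have hnil : Group.IsNilpotent (cz g) := Group.of_quotient_center_nilpotent hpq'.isNilpotent
      have hP : ∀ x ∈ cz g, PE p x → ∃ P : Sylow p (cz g), x ∈ (P : Subgroup (cz g)).map (cz g).subtype := by
        intro x hx hxp
        have h4 : IsPGroup p ((Subgroup.zpowers x).subgroupOf (cz g)) := (pg_zpowers hxp).comap_subtype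
        obtain ⟨P, hP⟩ := h4.exists_le_sylow
        exact ⟨P, ⟨x, hx⟩, hP (Subgroup.mem_subgroupOf.2 (Subgroup.mem_zpowers x)), rfl⟩
      obtain ⟨P, hPs⟩ := hP s hs hps
      obtain ⟨Q, hQt⟩ := hP t ht hpt
      have hPn : (P : Subgroup (cz g)).Normal := inferInstance
      have huniq := Sylow.unique_of_normal P hPn
      have hPQ : Q = P := Subsingleton.elim _ _
      rw [hPQ] at hQt
      exact D.ab_of_X huq h ((Subgroup.map_subtype_le _).trans hle) (P.2.map _) s hPs t hQt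
    · -- cs u = q ^ b * p ^ a
      have hcc : cz g = cz u := cz_eq_of_cs hle (by rw [hc, h, mul_comm])
      have hsu : s ∈ cz u := hle hs
      have h3 := D.symm.cz_le_of_W huq h hsu (not_dvd_of_pe D.hp D.hq D.hpq hps)
      exact (mem_cz.1 (h3 (hle ht))).symm
  intro s hs t ht
  obtain ⟨s1, s2, hs1, hs2, hs12, hs1p, hs2p⟩ := split s D.hp
  obtain ⟨t1, t2, ht1, ht2, ht12, ht1p, ht2p⟩ := split t D.hp
  have ms1 : s1 ∈ cz g := (Subgroup.zpowers_le.2 hs) hs1
  have ms2 : s2 ∈ cz g := (Subgroup.zpowers_le.2 hs) hs2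
  have mt1 : t1 ∈ cz g := (Subgroup.zpowers_le.2 ht) ht1
  have mt2 : t2 ∈ cz g := (Subgroup.zpowers_le.2 ht) ht2
  have c11 : Commute s1 t1 := hB s1 ms1 t1 mt1 hs1p ht1p
  have c12 : Commute s1 t2 := (hA t2 mt2 s1 ms1 ht2p).symm
  have c21 : Commute s2 t1 := hA s2 ms2 t1 mt1 hs2p
  have c22 : Commute s2 t2 := hA s2 ms2 t2 mt2 hs2p
  rw [hs12, ht12]
  exact ((c11.mul_right c12).mul_left (c21.mul_right c22))

/-- every Sylow `p`-subgroup has a central element of class size `q^b` -/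
theorem UD.exists_z_sylow (D : UD G p q a b) {P : Subgroup G} (hP : Sy p P ⊤) :
    ∃ z ∈ P, PE p z ∧ cs z = q ^ b ∧ P ≤ cz z := by
  have hpf : Fact p.Prime := ⟨D.hp⟩
  obtain ⟨y, hy, hyc⟩ := D.symm.exists_X
  obtain ⟨R, hyR, hR⟩ := Sy.exists_mem (self_mem y) hy
  obtain ⟨c, hc⟩ := hP.conj (hR.of_v le_top (D.v_qb hyc).1)
  have h1 : P ≤ cz (c⁻¹ * y * c) := by
    intro s hs
    rw [mem_cz]
    have h2 := mem_cz.1 (hR.le (hc s hs))
    have e1 : s * (c⁻¹ * y * c) = c⁻¹ * ((c * s * c⁻¹) * y) * c := by group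
    rw [e1, h2]; group
  have e2 : c⁻¹ * y * c = c⁻¹ * y * (c⁻¹)⁻¹ := by rw [inv_inv]
  have hz : PE p (c⁻¹ * y * c) := by rw [e2]; exact PE.conj hy _
  refine ⟨c⁻¹ * y * c, ?_, hz, ?_, h1⟩
  · refine (hP.normal_le (N := Subgroup.zpowers (c⁻¹ * y * c)) le_top (pg_zpowers hz) ?_) (Subgroup.mem_zpowers _)
    refine le_trans ?_ (Subgroup.centralizer_le_normalizer _)
    intro s hs
    rw [Subgroup.mem_centralizer_iff]
    intro w hw
    obtain ⟨i, rfl⟩ := Subgroup.mem_zpowers_iff.1 hw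
    have : Commute (c⁻¹ * y * c) s := (mem_cz.1 (h1 hs)).symm
    exact this.zpow_left i
  · rw [e2, cs_conj]; exact hyc

theorem UD.exists_z (D : UD G p q a b) {g : G} (hg : PE p g) (hc : cs g = p ^ a * q ^ b) :
    ∃ z, PE p z ∧ cs z = q ^ b ∧ z ∈ cz g ∧ cz g ≤ cz z := by
  have hpf : Fact p.Prime := ⟨D.hp⟩
  obtain ⟨P, hgP, hP⟩ := Sy.exists_mem (Subgroup.mem_top g) hg
  obtain ⟨z, hzP, hz, hzc, hPz⟩ := D.exists_z_sylow hP
  have h1 : z ∈ cz g := mem_cz.2 (mem_cz.1 (hPz hgP)).symm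
  exact ⟨z, hz, hzc, h1, fun t ht => mem_cz.2 (D.W_ab hg hc t ht z h1)⟩

/-- `y ∈ Y` centralizes `O_p(G)` -/
theorem UD.K_le (D : UD G p q a b) {y : G} (hyc : cs y = q ^ b) : pCore p G ≤ cz y := by
  have hpf : Fact p.Prime := ⟨D.hp⟩
  obtain ⟨R, -, hR⟩ := Sy.exists_ge (p := p) (bot_le : (⊥ : Subgroup G) ≤ cz y) IsPGroup.of_bot
  have h1 : Sy p R ⊤ := hR.of_v le_top (D.v_qb hyc).1
  refine le_trans (h1.normal_le le_top (Cfsg.Agent.Solv.pCore_isPGroup p) ?_) hR.le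
  rw [Subgroup.normalizer_eq_top]; exact le_top

/-- a noncentral `q`-element does not commute with all `p`-elements -/
theorem UD.q_contra (D : UD G p q a b) {l : G} (hl : PE q l) (hlc : l ∉ Subgroup.center G)
    (h : ∀ u : G, PE p u → u ∈ cz l) : False := by
  have hpf : Fact p.Prime := ⟨D.hp⟩
  obtain ⟨P, -, hP⟩ := Sy.exists_ge (p := p) (bot_le : (⊥ : Subgroup G) ≤ ⊤) IsPGroup.of_bot
  have h1 : P ≤ cz l := fun s hs => h s (pe_of_pg hP.pg hs)
  have h2 := pg_card_le h1 hP.pg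
  rw [hP.card, Nat.pow_le_pow_iff_right D.hp.one_lt] at h2
  have ha := D.a_pos
  rcases D.symm.pe_cases hl hlc with h3 | h3
  · have := (D.v_pa h3).1
    omega
  · rw [mul_comm] at h3
    have := (D.v_pq h3).1
    omega

/-- the `q`-core and elements of class size `p^a q^b` -/
theorem UD.L_le_of_W (D : UD G p q a b) {u z : G} (hc : cs u = p ^ a * q ^ b) (hzc : cs z = q ^ b)
    (hle : cz u ≤ cz z) (hL : pCore q G ≤ cz z) : pCore q G ≤ cz u := by
  have hqf : Fact q.Prime := ⟨D.hq⟩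
  obtain ⟨V, -, hV⟩ := Sy.exists_ge (p := q) (bot_le : (⊥ : Subgroup G) ≤ cz u) IsPGroup.of_bot
  have h1 := (D.v_pq hc).2
  have h2 := (D.v_qb hzc).2
  have h3 : Sy q V (cz z) := hV.of_v (hV.le.trans hle) (by omega)
  refine le_trans (h3.normal_le hL (Cfsg.Agent.Solv.pCore_isPGroup q) ?_) hV.le
  rw [Subgroup.normalizer_eq_top]; exact le_top

end Cfsg.Agent.Mdx.FcC2
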