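import Cfsg.Agent.Mdx.FcP

/-!
# S4146, piece C2: the cores
-/

set_option autoImplicit false

namespace Cfsg.Agent.Mdx.FcC2

open Cfsg.Agent.H35.CR Cfsg.Agent.BT.Fc Cfsg

universe u

variable {G : Type u} [Group G] [Finite G] {p q a b : ℕ}

theorem Sy.mem_of_comm {p : ℕ} [hp : Fact p.Prime] {S H : Subgroup G} (hS : Sy p S H) {w : G} (hw : w ∈ H)
    (hwp : PE p w) (hc : ∀ s ∈ S, s * w = w * s) : w ∈ S := by
  refine (hS.normal_le (N := Subgroup.zpowers w) (Subgroup.zpowers_le.2 hw) (pg_zpowers hwp) ?_)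
    (Subgroup.mem_zpowers _)
  refine le_trans ?_ (Subgroup.centralizer_le_normalizer _)
  intro s hs
  rw [Subgroup.mem_centralizer_iff]
  intro t ht
  obtain ⟨i, rfl⟩ := Subgroup.mem_zpowers_iff.1 ht
  have : Commute w s := (hc s hs).symm
  exact this.zpow_left i

theorem normal_le_normalizer {N : Subgroup G} [N.Normal] (H : Subgroup G) : H ≤ Subgroup.normalizer (N : Set G) := by
  rw [Subgroup.normalizer_eq_top]; exact le_top

/-- (iv) -/
theorem UD.K_cs (D : UD G p q a b) {g : G} (hk : g ∈ pCore p G) (hkc : g ∉ Subgroup.center G) : cs g = q ^ b := by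
  have hpf : Fact p.Prime := ⟨D.hp⟩
  have hqf : Fact q.Prime := ⟨D.hq⟩
  have hg : PE p g := pe_of_pg (Cfsg.Agent.Solv.pCore_isPGroup p) hk
  rcases D.pe_cases hg hkc with h | h
  · exact h
  exfalso
  have hab := D.W_ab hg h
  obtain ⟨U, -, hU⟩ := Sy.exists_ge (p := q) (bot_le : (⊥ : Subgroup G) ≤ cz g) IsPGroup.of_bot
  have hqU : ∀ w ∈ cz g, PE q w → w ∈ U := fun w hw hwq =>
    hU.mem_of_comm hw hwq (fun s hs => hab s (hU.le hs) w hw)
  have hUK : U ≤ Subgroup.centralizer (pCore p G : Set G) := by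
    apply Cfsg.Agent.Cop.le_centralizer_of_AxB p (P := Subgroup.zpowers g) (Q := U) (U := pCore p G)
      (pg_zpowers hg)
    · rw [hU.card]
      exact Nat.Coprime.pow_left _ ((Nat.coprime_primes D.hq D.hp).2 D.hpq.symm)
    · exact Cfsg.Agent.Solv.pCore_isPGroup p
    · rw [Subgroup.zpowers_le, Subgroup.mem_centralizer_iff]
      intro s hs
      exact mem_cz.1 (hU.le hs)
    · exact normal_le_normalizer _
    · exact normal_le_normalizer _
    · rintro x ⟨_, hx⟩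
      have hxg : x ∈ cz g := mem_cz.2 ((Subgroup.mem_centralizer_iff.1 hx) g (Subgroup.mem_zpowers g)).symm
      rw [Subgroup.mem_centralizer_iff]
      intro s hs
      exact hab s (hU.le hs) x hxg
  have hCK : Subgroup.centralizer (pCore p G : Set G) ≤ cz g := by
    intro x hx
    exact mem_cz.2 ((Subgroup.mem_centralizer_iff.1 hx) g hk).symm
  have hCn : (Subgroup.centralizer (pCore p G : Set G)).Normal := inferInstance
  have hUn : U.Normal := by
    constructor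
    intro u hu c
    exact hqU _ (hCK (hCn.conj_mem u (hUK hu) c)) (PE.conj (pe_of_pg hU.pg hu) c)
  have hUL : U ≤ pCore q G := Cfsg.Agent.Solv.le_pCore hUn hU.pg
  have hdis : Disjoint (pCore p G) (pCore q G) :=
    IsPGroup.disjoint_of_ne p q D.hpq _ _ (Cfsg.Agent.Solv.pCore_isPGroup p) (Cfsg.Agent.Solv.pCore_isPGroup q)
  have hL : ∀ k ∈ pCore p G, ∀ l ∈ pCore q G, k * l = l * k := fun k hk l hl =>
    Subgroup.commute_of_normal_of_disjoint _ _ inferInstance inferInstance hdis k l hk hl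
  have h1 := D.zq_lt
  have h2 := (D.v_pq h).2
  obtain ⟨l, hl, hlq, hlc⟩ := exists_nc (p := q) (H := cz g) (by omega)
  have hlL : l ∈ pCore q G := hUL (hqU l hl hlq)
  have hY : ∀ u : G, cs u = q ^ b → pCore q G ≤ cz u := by
    intro u hu x hx
    have h3 : u ∈ cz g := mem_cz.2 (mem_cz.1 (D.K_le hu hk)).symm
    have h4 : x ∈ cz g := mem_cz.2 (hL g hk x hx).symm
    exact mem_cz.2 (hab x h4 u h3)
  refine D.q_contra hlq hlc ?_
  intro u hu
  by_cases huc : u ∈ Subgroup.center G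
  · exact mem_cz.2 (Subgroup.mem_center_iff.1 huc l).symm
  · rcases D.pe_cases hu huc with h3 | h3
    · exact mem_cz.2 (mem_cz.1 (hY u h3 hlL)).symm
    · obtain ⟨z, hz, hzc, hzu, hle⟩ := D.exists_z hu h3
      have h4 := D.L_le_of_W h3 hzc hle (hY z hzc)
      exact mem_cz.2 (mem_cz.1 (h4 hlL)).symm

theorem UD.K_ab (D : UD G p q a b) {s t : G} (hs : s ∈ pCore p G) (ht : t ∈ pCore p G) : s * t = t * s := by
  by_cases h : t ∈ Subgroup.center G
  · exact Subgroup.mem_center_iff.1 h s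
  · exact mem_cz.1 (D.K_le (D.K_cs ht h) hs)

theorem card_inf_mul (H Q : Subgroup G) : Nat.card (H ⊓ Q : Subgroup G) * H.relIndex Q = Nat.card Q := by
  have h1 := Subgroup.card_mul_index (H.subgroupOf Q)
  have h2 : Nat.card (H.subgroupOf Q) = Nat.card (H ⊓ Q : Subgroup G) := by
    rw [← Subgroup.inf_subgroupOf_right]
    exact Nat.card_congr (Subgroup.subgroupOfEquivOfLe inf_le_right).toEquiv
  rw [h2] at h1
  exact h1

theorem UD.relIndex_eq (D : UD G p q a b) {Q : Subgroup G} (hQ : Sy q Q ⊤) {k : G} (hk : cs k = q ^ b) :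
    (cz k).relIndex Q = q ^ b ∧ Nat.card (cz k ⊓ Q : Subgroup G) = q ^ v q (cz k) := by
  have hqf : Fact q.Prime := ⟨D.hq⟩
  have h1 := card_inf_mul (cz k) Q
  have h2 : Nat.card (cz k ⊓ Q : Subgroup G) ≤ q ^ v q (cz k) :=
    pg_card_le inf_le_left (hQ.pg.to_le inf_le_right)
  have h3 : (cz k).relIndex Q ≤ q ^ b := by
    rw [← hk, cs, ← Subgroup.relIndex_top_right (cz k)]
    refine Subgroup.relIndex_le_of_le_right le_top ?_
    rw [Subgroup.relIndex_top_right]
    exact Subgroup.index_ne_zero_of_finite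
  have h4 := (D.v_qb hk).2
  rw [hQ.card, ← h4, pow_add] at h1
  have hp1 : 0 < q ^ b := pow_pos D.hq.pos _
  have hp2 : 0 < q ^ v q (cz k) := pow_pos D.hq.pos _
  constructor
  · refine le_antisymm h3 ?_
    by_contra hlt
    push Not at hlt
    have : Nat.card (cz k ⊓ Q : Subgroup G) * (cz k).relIndex Q < q ^ v q (cz k) * q ^ b :=
      Nat.mul_lt_mul_of_le_of_lt h2 hlt hp2
    rw [h1, mul_comm] at this
    exact lt_irrefl _ this
  · refine le_antisymm h2 ?_
    by_contra hlt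
    push Not at hlt
    have : Nat.card (cz k ⊓ Q : Subgroup G) * (cz k).relIndex Q < q ^ v q (cz k) * q ^ b :=
      Nat.mul_lt_mul_of_lt_of_le hlt h3 hp1
    rw [h1, mul_comm] at this
    exact lt_irrefl _ this

/-- the map `k ↦ [k, x]` -/
def f (x k : G) : G := k * x * k⁻¹ * x⁻¹

theorem f_mem {N : Subgroup G} [hN : N.Normal] (x : G) {k : G} (hk : k ∈ N) : f x k ∈ N := by
  have h1 : f x k = k * (x * k⁻¹ * x⁻¹) := by unfold f; group
  rw [h1]
  exact mul_mem hk (hN.conj_mem _ (inv_mem hk) x)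

theorem UD.f_mul (D : UD G p q a b) (x : G) {k k' : G} (hk : k ∈ pCore p G) (hk' : k' ∈ pCore p G) :
    f x (k * k') = f x k * f x k' := by
  have hn : (pCore p G).Normal := inferInstance
  have hs : x * k⁻¹ * x⁻¹ ∈ pCore p G := hn.conj_mem _ (inv_mem hk) x
  have h1 := D.K_ab (f_mem x hk') hs
  have e1 : f x (k * k') = k * (f x k' * (x * k⁻¹ * x⁻¹)) := by unfold f; group
  have e2 : f x k * f x k' = k * ((x * k⁻¹ * x⁻¹) * f x k') := by unfold f; group
  rw [e1, e2, h1]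

theorem UD.f_cz (D : UD G p q a b) {x : G} (hx : PE q x) {k : G} (hk : k ∈ pCore p G) (h : f x k ∈ cz x) :
    f x k = 1 := by
  have hw : Commute (f x k) x := mem_cz.1 h
  have h1 : ∀ n : ℕ, x ^ n * k⁻¹ * (x ^ n)⁻¹ = k⁻¹ * (f x k) ^ n := by
    intro n
    induction n with
    | zero => simp
    | succ n ih =>
      have e1 : x ^ (n + 1) * k⁻¹ * (x ^ (n + 1))⁻¹ = x * (x ^ n * k⁻¹ * (x ^ n)⁻¹) * x⁻¹ := by
        rw [pow_succ']; group
      have e2 : (f x k) ^ n * x⁻¹ = x⁻¹ * (f x k) ^ n := (hw.inv_right.pow_left n)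
      have e3 : x * k⁻¹ * x⁻¹ = k⁻¹ * f x k := by unfold f; group
      rw [e1, ih, pow_succ', mul_assoc x, mul_assoc k⁻¹, e2, ← mul_assoc k⁻¹, ← mul_assoc x, ← mul_assoc x, e3,
        mul_assoc]
  have h2 := h1 (orderOf x)
  rw [pow_orderOf_eq_one, one_mul, inv_one, mul_one] at h2
  have h3 : (f x k) ^ orderOf x = 1 := by
    have : k⁻¹ * (f x k) ^ orderOf x = k⁻¹ * 1 := by rw [← h2, mul_one]
    exact mul_left_cancel this
  have h4 : PE p (f x k) := pe_of_pg (Cfsg.Agent.Solv.pCore_isPGroup p) (f_mem x hk)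
  have h5 := PE.cop D.hp D.hq D.hpq h4 hx
  exact orderOf_eq_one_iff.1 (Nat.Coprime.eq_one_of_dvd h5 (orderOf_dvd_of_pow_eq_one h3))

theorem UD.f_not (D : UD G p q a b) {x : G} (hx : PE q x) {k : G} (hk : k ∈ pCore p G) (h : k ∉ cz x) :
    f x k ∉ cz x := by
  intro h1
  apply h
  have h2 := D.f_cz hx hk h1
  rw [mem_cz]
  unfold f at h2
  rw [mul_inv_eq_one, mul_inv_eq_iff_eq_mul] at h2
  exact h2

/-- (v1) -/
theorem UD.v1 (D : UD G p q a b) {x : G} (hx : PE q x) (hxc : cs x = p ^ a) {k : G} (hk : k ∈ pCore p G)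
    (hkx : k ∉ cz x) {u : G} (hu : u ∈ pCore p G) (hux : u ∈ cz x) : u ∈ Subgroup.center G := by
  have hqf : Fact q.Prime := ⟨D.hq⟩
  have hn : (pCore p G).Normal := inferInstance
  by_contra huc
  obtain ⟨Q, hxQ, hQ0⟩ := Sy.exists_mem (self_mem x) hx
  have hQ : Sy q Q ⊤ := hQ0.of_v le_top (D.v_pa hxc).2
  have hv := D.f_not hx hk hkx
  have hvK : f x k ∈ pCore p G := f_mem x hk
  have key : ∀ t ∈ Q, t ∈ cz (u * f x k) → t ∈ cz u := by
    intro t ht htc
    have h1 := mem_cz.1 htc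
    have htx : t * x = x * t := mem_cz.1 (hQ0.le ht)
    have hux' := mem_cz.1 hux
    have e1 : f x (t * k * t⁻¹) = t * f x k * t⁻¹ := by
      have hh : t⁻¹ * x = x * t⁻¹ := (Commute.inv_left (show Commute t x from htx))
      have hh2 : t⁻¹ * x⁻¹ = x⁻¹ * t⁻¹ := (Commute.inv_left (Commute.inv_right (show Commute t x from htx)))
      unfold f
      calc t * k * t⁻¹ * x * (t * k * t⁻¹)⁻¹ * x⁻¹ = t * k * (t⁻¹ * x) * t * k⁻¹ * (t⁻¹ * x⁻¹) := by group
        _ = t * k * (x * t⁻¹) * t * k⁻¹ * (x⁻¹ * t⁻¹) := by rw [hh, hh2]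
        _ = _ := by group
    have hk1 : t * k * t⁻¹ ∈ pCore p G := hn.conj_mem k hk t
    have e2 : f x (t * k * t⁻¹ * k⁻¹) * f x k = f x (t * k * t⁻¹) := by
      rw [← D.f_mul x (mul_mem hk1 (inv_mem hk)) hk]; congr 1; group
    have e3 : f x (t * k * t⁻¹ * k⁻¹) = (t * u * t⁻¹)⁻¹ * u := by
      have h3 : (t * u * t⁻¹) * (t * f x k * t⁻¹) = u * f x k := by
        have : t * (u * f x k) * t⁻¹ = u * f x k := by rw [h1]; group
        rw [← this]; group
      rw [← e1, ← e2, ← mul_assoc] at h3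
      have h4 := mul_right_cancel h3
      exact eq_inv_mul_of_mul_eq h4
    have hmem : (t * u * t⁻¹)⁻¹ * u ∈ cz x := by
      have ht' : t ∈ cz x := hQ0.le ht
      exact mul_mem (inv_mem (mul_mem (mul_mem ht' hux) (inv_mem ht'))) hux
    have h5 := D.f_cz hx (mul_mem hk1 (inv_mem hk)) (e3 ▸ hmem)
    rw [e3, inv_mul_eq_one, mul_inv_eq_iff_eq_mul] at h5
    exact mem_cz.2 h5
  have huv : u * f x k ∉ Subgroup.center G := by
    intro hc
    apply hv
    have h1 : u * f x k ∈ cz x := center_le_cz x hc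
    have h2 := mul_mem (inv_mem hux) h1
    rwa [inv_mul_cancel_left] at h2
  have c1 := D.K_cs hu huc
  have c2 := D.K_cs (mul_mem hu hvK) huv
  have hle : (cz (u * f x k) ⊓ Q : Subgroup G) ≤ cz u ⊓ Q := fun t ht => ⟨key t ht.2 ht.1, ht.2⟩
  have heq : (cz (u * f x k) ⊓ Q : Subgroup G) = cz u ⊓ Q := by
    refine Subgroup.eq_of_le_of_card_ge hle ?_
    rw [(D.relIndex_eq hQ c1).2, (D.relIndex_eq hQ c2).2]
    have h1 := (D.v_qb c1).2
    have h2 := (D.v_qb c2).2
    have h3 : v q (cz u) = v q (cz (u * f x k)) := by omega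
    rw [h3]
  have hxu : x ∈ cz u := mem_cz.2 (mem_cz.1 hux).symm
  have h1 : x ∈ (cz (u * f x k) ⊓ Q : Subgroup G) := by rw [heq]; exact ⟨hxu, hxQ⟩
  apply hv
  have h2 : u * f x k ∈ cz x := mem_cz.2 (mem_cz.1 h1.1).symm
  have h3 := mul_mem (inv_mem hux) h2
  rwa [inv_mul_cancel_left] at h3

/-- (v2) -/
theorem UD.v2 (D : UD G p q a b) {x : G} (hx : PE q x) (hxc : cs x = p ^ a) {k : G} (hk : k ∈ pCore p G)
    (hkx : k ∉ cz x) : q ^ b < p ^ a := by
  have hqf : Fact q.Prime := ⟨D.hq⟩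
  obtain ⟨Q, hxQ, hQ0⟩ := Sy.exists_mem (self_mem x) hx
  have hQ : Sy q Q ⊤ := hQ0.of_v le_top (D.v_pa hxc).2
  have hv := D.f_not hx hk hkx
  have hvc : f x k ∉ Subgroup.center G := fun h => hv (center_le_cz x h)
  have hcs := D.K_cs (f_mem x hk) hvc
  have h1 := (D.relIndex_eq hQ hcs).1
  have key : ∀ r : G, r ∈ Q → (k⁻¹ * r * k ∈ cz x ↔ r ∈ cz (f x k)) := by
    intro r hr
    have hrx : r * x = x * r := mem_cz.1 (hQ0.le hr)
    have e1 : r * f x k = (r * (k * x * k⁻¹)) * x⁻¹ := by unfold f; group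
    have hrx' : r * x⁻¹ = x⁻¹ * r := (Commute.inv_right (show Commute r x from hrx))
    have e2 : f x k * r = ((k * x * k⁻¹) * r) * x⁻¹ := by
      unfold f
      rw [mul_assoc _ x⁻¹ r, ← hrx']; group
    rw [mem_cz, mem_cz, e1, e2]
    constructor
    · intro h
      have h3 : r * (k * x * k⁻¹) = (k * x * k⁻¹) * r := by
        have e3 : r * (k * x * k⁻¹) = k * (k⁻¹ * r * k * x) * k⁻¹ := by group
        rw [e3, h]; group
      rw [h3]
    · intro h
      have h3 := mul_right_cancel h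
      have e3 : k⁻¹ * r * k * x = k⁻¹ * (r * (k * x * k⁻¹)) * k := by group
      rw [e3, h3]; group
  let F : (Q ⧸ (cz (f x k)).subgroupOf Q) → (G ⧸ cz x) :=
    Quotient.map' (fun t : Q => (t : G) * k) (by
      intro s t hst
      rw [QuotientGroup.leftRel_apply] at hst ⊢
      have h2 : ((s : G) * k)⁻¹ * ((t : G) * k) = k⁻¹ * ((s : G)⁻¹ * (t : G)) * k := by group
      rw [h2]
      exact (key _ (s⁻¹ * t).2).2 (Subgroup.mem_subgroupOf.1 hst))
  have hF : Function.Injective F := by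
    intro s t
    obtain ⟨s, rfl⟩ := QuotientGroup.mk_surjective s
    obtain ⟨t, rfl⟩ := QuotientGroup.mk_surjective t
    intro h
    have h2 : (((s : G) * k : G) : G ⧸ cz x) = (((t : G) * k : G) : G ⧸ cz x) := h
    rw [QuotientGroup.eq] at h2 ⊢
    have h3 : ((s : G) * k)⁻¹ * ((t : G) * k) = k⁻¹ * ((s : G)⁻¹ * (t : G)) * k := by group
    rw [h3] at h2
    exact Subgroup.mem_subgroupOf.2 ((key _ (s⁻¹ * t).2).1 h2)
  have hF1 : ((1 : G) : G ⧸ cz x) ∉ Set.range F := by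
    rintro ⟨s, hs⟩
    obtain ⟨s, rfl⟩ := QuotientGroup.mk_surjective s
    have h2 : (((s : G) * k : G) : G ⧸ cz x) = ((1 : G) : G ⧸ cz x) := hs
    rw [eq_comm, QuotientGroup.eq, inv_one, one_mul] at h2
    apply hkx
    have h3 := mul_mem (inv_mem (hQ0.le s.2)) h2
    rwa [inv_mul_cancel_left] at h3
  have h2 : Nat.card (Q ⧸ (cz (f x k)).subgroupOf Q) < Nat.card (G ⧸ cz x) := by
    have := Fintype.ofFinite (Q ⧸ (cz (f x k)).subgroupOf Q)
    have := Fintype.ofFinite (G ⧸ cz x)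
    rw [Nat.card_eq_fintype_card, Nat.card_eq_fintype_card]
    exact Fintype.card_lt_of_injective_of_notMem F hF hF1
  have h3 : Nat.card (Q ⧸ (cz (f x k)).subgroupOf Q) = q ^ b := h1
  have h4 : Nat.card (G ⧸ cz x) = p ^ a := hxc
  rwa [h3, h4] at h2

end Cfsg.Agent.Mdx.FcC2
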