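import Mathlib

/-!
The square of the Gauss sum of a quadratic function over the field with two elements.
-/

set_option autoImplicit false

namespace Cfsg.Agent.Mdx

open Finset

section Gauss

variable {F : Type*} [Field F] [DecidableEq F]

/-- The sign of an element of the field with two elements. -/
def eps (c : F) : ℤ := if c = 0 then 1 else -1

theorem eps_zero : eps (0 : F) = 1 := if_pos rfl

theorem eps_one : eps (1 : F) = -1 := if_neg one_ne_zero

theorem eps_add (h01 : ∀ c : F, c = 0 ∨ c = 1) (h2 : (2 : F) = 0) (a b : F) :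
    eps (a + b) = eps a * eps b := by
  rcases h01 a with rfl | rfl <;> rcases h01 b with rfl | rfl
  · rw [add_zero, eps_zero]; rfl
  · rw [zero_add, eps_zero, one_mul]
  · rw [add_zero, eps_zero, mul_one]
  · rw [show (1 : F) + 1 = 0 by linear_combination h2, eps_zero, eps_one]; rfl

theorem gauss_sq (h01 : ∀ c : F, c = 0 ∨ c = 1) (h2 : (2 : F) = 0) {A : Type*} [AddCommGroup A]
    [Fintype A] (q : A → F) (β : A → A → F) (hq : ∀ x y, q (x + y) = q x + q y + β x y)
    (hβ : ∀ x y z, β (x + y) z = β x z + β y z) [DecidablePred fun d : A => ∀ w, β w d = 0] :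
    (∑ x : A, eps (q x)) ^ 2 =
      (Fintype.card A : ℤ) * ∑ d ∈ univ.filter (fun d : A => ∀ w, β w d = 0), eps (q d) := by
  have e1 : ∀ x : A, ∑ y : A, eps (q x) * eps (q y) = ∑ d : A, eps (q d) * eps (β x d) := by
    intro x
    rw [← Equiv.sum_comp (Equiv.addLeft x) (fun y => eps (q x) * eps (q y))]
    refine Finset.sum_congr rfl fun d _ => ?_
    simp only [Equiv.coe_addLeft]
    rw [← eps_add h01 h2, ← eps_add h01 h2, hq]
    congr 1
    linear_combination (q x) * h2
  have e2 : ∀ d : A, ∑ x : A, eps (β x d) = if (∀ w, β w d = 0) then (Fintype.card A : ℤ) else 0 := by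
    intro d
    split_ifs with h
    · rw [Finset.sum_congr rfl (fun x _ => by rw [h x, eps_zero])]
      simp
    · push Not at h
      obtain ⟨x0, hx0⟩ := h
      have hx1 := (h01 _).resolve_left hx0
      have : ∑ x : A, eps (β x d) = - ∑ x : A, eps (β x d) := by
        conv_lhs => rw [← Equiv.sum_comp (Equiv.addRight x0) (fun x => eps (β x d))]
        rw [← Finset.sum_neg_distrib]
        refine Finset.sum_congr rfl fun x _ => ?_
        simp only [Equiv.coe_addRight]
        rw [hβ, hx1, eps_add h01 h2, eps_one]; ring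
      linarith
  rw [sq, Finset.sum_mul_sum, Finset.sum_congr rfl (fun x _ => e1 x), Finset.sum_comm]
  rw [Finset.sum_congr rfl (fun d _ => by rw [← Finset.mul_sum, e2 d])]
  rw [Finset.sum_filter, Finset.mul_sum]
  refine Finset.sum_congr rfl fun d _ => ?_
  split_ifs <;> ring

theorem card_zeros {A : Type*} [Fintype A] (q : A → F) :
    2 * ((univ.filter fun x => q x = 0).card : ℤ) = Fintype.card A + ∑ x : A, eps (q x) := by
  have h1 : ∀ x, eps (q x) = 2 * (if q x = 0 then 1 else 0) - 1 := by
    intro x
    rw [eps]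
    split_ifs <;> rfl
  rw [Finset.sum_congr rfl (fun x _ => h1 x), Finset.sum_sub_distrib, ← Finset.mul_sum, Finset.sum_boole]
  simp

end Gauss

end Cfsg.Agent.Mdx
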