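import Cfsg.Agent.Orth.Tools
import Cfsg.Agent.Orth.Comm

/-!
Vanishing of the first cohomology of the natural module of the commutator subgroup of an isometry
group over the field with two elements, in dimension at least 6, when there is a
fixed-point-free isometry of order three.
-/

set_option autoImplicit false

namespace Cfsg.Agent.Mdx.HO

open QuadraticMap Cfsg.Agent.Orth

variable {V : Type*} [AddCommGroup V] [Module (ZMod 2) V]

theorem vadd_self (v : V) : v + v = 0 := by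
  have h : (2 : ZMod 2) • v = v + v := two_smul _ v
  rw [← h, show (2 : ZMod 2) = 0 from rfl, zero_smul]

theorem vneg (v : V) : -v = v := neg_eq_of_add_eq_zero_left (vadd_self v)

theorem vsub (v w : V) : v - w = v + w := by rw [sub_eq_add_neg, vneg]

theorem vadd_cancel_mid (v w : V) : v + (v + w) = w := by rw [← add_assoc, vadd_self, zero_add]

theorem eq_of_vadd_eq_zero {v w : V} (h : v + w = 0) : v = w := by
  rw [← vsub] at h
  exact sub_eq_zero.1 h

theorem z2_ne_zero {a : ZMod 2} (h : a ≠ 0) : a = 1 := by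
  revert a; decide

theorem refl_apply2 {Q : QuadraticForm (ZMod 2) V} {v : V} (hv : Q v ≠ 0) (x : V) :
    (refl Q v hv : V ≃ₗ[ZMod 2] V) x = x + polar Q x v • v := by
  rw [refl_apply, z2_ne_zero hv, vsub]
  simp

/-- `F` is a crossed homomorphism on `C`. -/
def Coc (Q : QuadraticForm (ZMod 2) V) (F : OGrp Q → V) : Prop :=
  ∀ g ∈ commutator (OGrp Q), ∀ h ∈ commutator (OGrp Q),
    F (g * h) = F g + (g : V ≃ₗ[ZMod 2] V) (F h)

variable {Q : QuadraticForm (ZMod 2) V} {F : OGrp Q → V}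

theorem Coc.one (hF : Coc Q F) : F 1 = 0 := by
  have h := hF 1 (one_mem _) 1 (one_mem _)
  rw [mul_one, coe_one_apply] at h
  exact left_eq_add.1 h

theorem Coc.inv_zero (hF : Coc Q F) {g : OGrp Q} (hg : g ∈ commutator (OGrp Q)) (h0 : F g = 0) :
    F g⁻¹ = 0 := by
  have h := hF _ (inv_mem hg) _ hg
  rw [inv_mul_cancel, hF.one, h0, map_zero, add_zero] at h
  exact h.symm

theorem Coc.mul_zero (hF : Coc Q F) {g h : OGrp Q} (hg : g ∈ commutator (OGrp Q))
    (hh : h ∈ commutator (OGrp Q)) (h0 : F g = 0) (h1 : F h = 0) :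
    F (g * h) = 0 := by
  rw [hF _ hg _ hh, h0, h1, map_zero, add_zero]

/-- (A) -/
theorem Coc.zero_of_comm (hF : Coc Q F) {z y : OGrp Q} (hz : z ∈ commutator (OGrp Q))
    (hy : y ∈ commutator (OGrp Q)) (hzy : z * y = y * z) (hz0 : F z = 0)
    (hfp : ∀ v, (z : V ≃ₗ[ZMod 2] V) v = v → v = 0) : F y = 0 := by
  have h1 := hF z hz y hy
  have h2 := hF y hy z hz
  rw [hz0, map_zero, add_zero] at h2
  rw [hz0, zero_add, hzy, h2] at h1
  exact hfp _ h1.symm

theorem refl_mul_refl_mem [FiniteDimensional (ZMod 2) V] (hQ : (polarBilin Q).Nondegenerate)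
    {a b : V} (ha : Q a ≠ 0) (hb : Q b ≠ 0) :
    refl Q a ha * refl Q b hb ∈ commutator (OGrp Q) := by
  have h := reflProd_mem_commutator hQ (l := [⟨a, ha⟩, ⟨b, hb⟩]) (by simp)
    (isSquare_of_two_eq_zero (by rfl) _)
  rwa [reflProd_cons, reflProd_cons, reflProd_nil, mul_one] at h

section x

variable {x : OGrp Q}
  (hx : ∀ v, (x : V ≃ₗ[ZMod 2] V) ((x : V ≃ₗ[ZMod 2] V) v) = v + (x : V ≃ₗ[ZMod 2] V) v)

include hx

theorem x_cube : x * x * x = 1 := by
  refine OGrp_ext fun v => ?_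
  rw [coe_mul_apply, coe_mul_apply, coe_one_apply, hx, hx, add_comm v, vadd_cancel_mid]

theorem x_fpf {v : V} (h : (x : V ≃ₗ[ZMod 2] V) v = v) : v = 0 := by
  have h1 := hx v
  rw [h, h, vadd_self] at h1
  exact h1

theorem x_mem [FiniteDimensional (ZMod 2) V] (hQ : (polarBilin Q).Nondegenerate) :
    x ∈ commutator (OGrp Q) := by
  have h1 : x = (x * x) * (x * x) := by
    rw [← mul_assoc, x_cube hx, one_mul]
  rw [h1]
  exact mul_self_mem_commutator hQ _

theorem polar_x (v : V) : polar Q v ((x : V ≃ₗ[ZMod 2] V) v) = Q v := by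
  have h1 := qadd Q v ((x : V ≃ₗ[ZMod 2] V) v)
  rw [← hx, OGrp_q, OGrp_q] at h1
  have h2 : ∀ a b : ZMod 2, a = a + a + b → b = a := by decide
  exact h2 _ _ h1

theorem polar_x_x (v w : V) : polar Q v ((x : V ≃ₗ[ZMod 2] V) w)
    = polar Q ((x : V ≃ₗ[ZMod 2] V) v) w + polar Q v w := by
  have h1 := OGrp_polar x v w
  have h2 := OGrp_polar x ((x : V ≃ₗ[ZMod 2] V) v) w
  rw [hx, pal] at h2
  have h3 : ∀ a b c d : ZMod 2, a = d → b + a = c → b = c + d := by decide
  exact h3 _ _ _ _ h1 h2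

/-- `r_c = t_c t_{xc}` in formulas. -/
theorem r_apply {c : V} (hc : Q c ≠ 0) (hc' : Q ((x : V ≃ₗ[ZMod 2] V) c) ≠ 0) (v : V) :
    ((refl Q c hc * refl Q ((x : V ≃ₗ[ZMod 2] V) c) hc' : OGrp Q) : V ≃ₗ[ZMod 2] V) v
      = v + polar Q v ((x : V ≃ₗ[ZMod 2] V) c) • (c + (x : V ≃ₗ[ZMod 2] V) c) + polar Q v c • c := by
  rw [coe_mul_apply, refl_apply2, refl_apply2, pal, psl, pc Q _ c, pc Q _ c, polar_x hx,
    z2_ne_zero hc, mul_one, add_smul, smul_add, pc Q c v]
  abel

theorem r_comm {c : V} (hc : Q c ≠ 0) (hc' : Q ((x : V ≃ₗ[ZMod 2] V) c) ≠ 0) :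
    x * (refl Q c hc * refl Q ((x : V ≃ₗ[ZMod 2] V) c) hc')
      = (refl Q c hc * refl Q ((x : V ≃ₗ[ZMod 2] V) c) hc') * x := by
  refine OGrp_ext fun v => ?_
  rw [coe_mul_apply x, coe_mul_apply _ x, r_apply hx, r_apply hx, map_add, map_add, map_smul,
    map_smul, map_add, hx, OGrp_polar]
  have e1 : polar Q ((x : V ≃ₗ[ZMod 2] V) v) c
      = polar Q v c + polar Q v ((x : V ≃ₗ[ZMod 2] V) c) := by
    have := polar_x_x hx v c
    rw [this, add_comm (polar Q v c), add_assoc]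
    have h2 : ∀ a b : ZMod 2, a = a + (b + b) := by decide
    exact h2 _ _
  rw [e1, add_comm ((x : V ≃ₗ[ZMod 2] V) c) (c + _), add_assoc c, vadd_self, add_zero]
  rw [smul_add, add_smul]
  have h3 : ∀ A B C D : V, A + (D + C) + (D + B) = A + B + C + (D + D) := by
    intro A B C D
    abel
  rw [h3, vadd_self, add_zero]

variable (hF : Coc Q F) (hFx : F x = 0)

omit hx in
theorem x_q {c : V} (hc : Q c ≠ 0) : Q ((x : V ≃ₗ[ZMod 2] V) c) ≠ 0 := by
  rwa [OGrp_q]

include hF hFx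

/-- (B) -/
theorem F_r [FiniteDimensional (ZMod 2) V] (hQ : (polarBilin Q).Nondegenerate)
    {c : V} (hc : Q c ≠ 0) (hc' : Q ((x : V ≃ₗ[ZMod 2] V) c) ≠ 0) :
    F (refl Q c hc * refl Q ((x : V ≃ₗ[ZMod 2] V) c) hc') = 0 :=
  hF.zero_of_comm (x_mem hx hQ) (refl_mul_refl_mem hQ _ _) (r_comm hx _ _) hFx
    (fun _ h => x_fpf hx h)

/-- (C) -/
theorem F_z [FiniteDimensional (ZMod 2) V] (hQ : (polarBilin Q).Nondegenerate)
    {a : V} (ha : Q a ≠ 0) : F (refl Q a ha * x * refl Q a ha) = 0 := by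
  set w := a + (x : V ≃ₗ[ZMod 2] V) a with hw
  have hxw : (x : V ≃ₗ[ZMod 2] V) w = a := by
    rw [hw, map_add, hx, add_comm, add_assoc, vadd_self, add_zero]
  have hw0 : Q w ≠ 0 := by
    rw [← OGrp_q x, hxw]; exact ha
  have e : refl Q a ha * x * refl Q a ha
      = x * (refl Q w hw0 * refl Q ((x : V ≃ₗ[ZMod 2] V) w) (by rw [hxw]; exact ha)) := by
    have h1 := refl_conj x w hw0
    have h2 : refl Q ((x : V ≃ₗ[ZMod 2] V) w) (by rw [hxw]; exact ha) = refl Q a ha := by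
      congr 1
    rw [h2] at h1 ⊢
    rw [← h1]
    group
  rw [e]
  exact hF.mul_zero (x_mem hx hQ) (refl_mul_refl_mem hQ _ _) hFx (F_r hx hF hFx hQ _ _)

/-- (D), first half -/
theorem F_conj [FiniteDimensional (ZMod 2) V] (hQ : (polarBilin Q).Nondegenerate)
    {a b : V} (ha : Q a ≠ 0) (hb : Q b ≠ 0) {y : OGrp Q} (hy : y ∈ commutator (OGrp Q))
    (hFy : F y = 0) (hxy : x * y = y * x) (hyab : (y : V ≃ₗ[ZMod 2] V) a = b) :
    F (refl Q b hb * refl Q a ha) = 0 := by
  have e : refl Q b hb * refl Q a ha = y * (refl Q a ha * y⁻¹ * refl Q a ha) := by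
    have h1 := refl_conj y a ha
    have h2 : refl Q ((y : V ≃ₗ[ZMod 2] V) a) (by rw [hyab]; exact hb) = refl Q b hb := by
      congr 1
    rw [h2] at h1
    rw [← h1]
    group
  have hn : ∀ g ∈ commutator (OGrp Q), refl Q a ha * g * refl Q a ha ∈ commutator (OGrp Q) := by
    intro g hg
    have h1 := (inferInstance : (commutator (OGrp Q)).Normal).conj_mem g hg (refl Q a ha)
    rwa [refl_inv] at h1
  rw [e]
  refine hF.mul_zero hy (hn _ (inv_mem hy)) hFy ?_
  refine hF.zero_of_comm (hn _ (x_mem hx hQ)) (hn _ (inv_mem hy)) ?_ (F_z hx hF hFx hQ ha) ?_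
  · have h3 : refl Q a ha * refl Q a ha = 1 := refl_mul_self ha
    have h4 : x * y⁻¹ = y⁻¹ * x := by
      rw [eq_inv_mul_iff_mul_eq, ← mul_assoc, ← hxy, mul_assoc, mul_inv_cancel, mul_one]
    calc refl Q a ha * x * refl Q a ha * (refl Q a ha * y⁻¹ * refl Q a ha)
        = refl Q a ha * x * (refl Q a ha * refl Q a ha) * y⁻¹ * refl Q a ha := by group
      _ = refl Q a ha * (x * y⁻¹) * refl Q a ha := by rw [h3]; group
      _ = refl Q a ha * y⁻¹ * (refl Q a ha * refl Q a ha) * x * refl Q a ha := by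
          rw [h4, h3]; group
      _ = _ := by group
  · intro v hv
    rw [coe_mul_apply, coe_mul_apply] at hv
    have h3 : ∀ v, (refl Q a ha : V ≃ₗ[ZMod 2] V) ((refl Q a ha : V ≃ₗ[ZMod 2] V) v) = v := by
      intro v
      rw [← coe_mul_apply, refl_mul_self, coe_one_apply]
    have h4 := congrArg (refl Q a ha : V ≃ₗ[ZMod 2] V) hv
    rw [h3] at h4
    have h5 := x_fpf hx h4
    rw [← h3 v, h5, map_zero]

/-- (D) -/
theorem F_one [FiniteDimensional (ZMod 2) V] (hQ : (polarBilin Q).Nondegenerate)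
    {a b : V} (ha : Q a ≠ 0) (hb : Q b ≠ 0) (hab : polar Q a b = 1) :
    F (refl Q b hb * refl Q a ha) = 0 := by
  set c := a + b with hc
  have ha1 := z2_ne_zero ha
  have hb1 := z2_ne_zero hb
  have hc1 : Q c = 1 := by
    rw [hc, qadd, ha1, hb1, hab]; rfl
  have hc0 : Q c ≠ 0 := by rw [hc1]; exact one_ne_zero
  have hxc0 : Q ((x : V ≃ₗ[ZMod 2] V) c) ≠ 0 := x_q hc0
  have hac : polar Q a c = 1 := by
    rw [hc, par, pself, ha1, hab]; rfl
  have haxc : polar Q a ((x : V ≃ₗ[ZMod 2] V) c) = 1 + polar Q a ((x : V ≃ₗ[ZMod 2] V) b) := by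
    rw [hc, map_add, par, polar_x hx, ha1]
  have hcomm := r_comm hx hc0 hxc0
  have hFr := F_r hx hF hFx hQ hc0 hxc0
  have hmem := refl_mul_refl_mem hQ hc0 hxc0
  rcases (show ∀ t : ZMod 2, t = 1 ∨ t = 0 by decide) (polar Q a ((x : V ≃ₗ[ZMod 2] V) b))
    with h | h
  · refine F_conj hx hF hFx hQ ha hb hmem hFr hcomm ?_
    rw [r_apply hx, haxc, h, hac, show (1 + 1 : ZMod 2) = 0 from rfl, zero_smul, add_zero, one_smul,
      hc, vadd_cancel_mid]
  · refine F_conj hx hF hFx hQ ha hb (inv_mem hmem) (hF.inv_zero hmem hFr) ?_ ?_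
    · exact (Commute.inv_right hcomm).eq
    · rw [h, add_zero] at haxc
      rw [mul_inv_rev, refl_inv, refl_inv, coe_mul_apply, refl_apply2, refl_apply2, hac, pal,
        haxc, one_smul, polar_x hx, hc1, show (1 + 1 : ZMod 2) = 0 from rfl, zero_smul, add_zero,
        hc, vadd_cancel_mid]

/-- (E) -/
theorem F_pair [FiniteDimensional (ZMod 2) V] (hQ : (polarBilin Q).Nondegenerate)
    (hcon : ∀ a b : V, Q a ≠ 0 → Q b ≠ 0 → a ≠ b → polar Q a b = 0 →
      ∃ c, Q c ≠ 0 ∧ polar Q a c = 1 ∧ polar Q b c = 1)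
    {a b : V} (ha : Q a ≠ 0) (hb : Q b ≠ 0) :
    F (refl Q a ha * refl Q b hb) = 0 := by
  by_cases hne : a = b
  · subst hne
    rw [refl_mul_self, hF.one]
  rcases (show ∀ t : ZMod 2, t = 1 ∨ t = 0 by decide) (polar Q a b) with h | h
  · exact F_one hx hF hFx hQ hb ha (by rw [pc]; exact h)
  · obtain ⟨c, hc, h1, h2⟩ := hcon a b ha hb hne h
    have e : refl Q a ha * refl Q b hb
        = (refl Q a ha * refl Q c hc) * (refl Q c hc * refl Q b hb) := by
      rw [mul_assoc, ← mul_assoc (refl Q c hc), refl_mul_self, one_mul]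
    rw [e]
    exact hF.mul_zero (refl_mul_refl_mem hQ _ _) (refl_mul_refl_mem hQ _ _)
      (F_one hx hF hFx hQ hc ha (by rw [pc]; exact h1)) (F_one hx hF hFx hQ hb hc h2)

/-- (F) -/
theorem F_all [FiniteDimensional (ZMod 2) V] (hQ : (polarBilin Q).Nondegenerate)
    (hR : RGrp Q = ⊤)
    (hcon : ∀ a b : V, Q a ≠ 0 → Q b ≠ 0 → a ≠ b → polar Q a b = 0 →
      ∃ c, Q c ≠ 0 ∧ polar Q a c = 1 ∧ polar Q b c = 1)
    {g : OGrp Q} (hg : g ∈ commutator (OGrp Q)) : F g = 0 := by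
  obtain ⟨l, rfl, hl, -⟩ := exists_of_mem_commutator hR hg
  clear hg
  have key : ∀ n : ℕ, ∀ l : List {v : V // Q v ≠ 0}, l.length = 2 * n →
      reflProd Q l ∈ commutator (OGrp Q) ∧ F (reflProd Q l) = 0 := by
    intro n
    induction n with
    | zero =>
      intro l hl
      have : l = [] := List.length_eq_zero_iff.1 (by omega)
      subst this
      rw [reflProd_nil]
      exact ⟨one_mem _, hF.one⟩
    | succ n ih =>
      intro l hl
      match l, hl with
      | a :: b :: l, hl =>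
        have h1 := ih l (by simp only [List.length_cons] at hl; omega)
        rw [reflProd_cons, reflProd_cons, ← mul_assoc]
        exact ⟨mul_mem (refl_mul_refl_mem hQ _ _) h1.1,
          hF.mul_zero (refl_mul_refl_mem hQ _ _) h1.1 (F_pair hx hF hFx hQ hcon _ _) h1.2⟩
      | [a], hl => simp at hl; omega
      | [], hl => simp at hl
  obtain ⟨n, hn⟩ := hl
  exact (key n l (by omega)).2

end x

theorem connect [FiniteDimensional (ZMod 2) V] (hQ : (polarBilin Q).Nondegenerate)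
    (hdim : 6 ≤ Module.finrank (ZMod 2) V) (a b : V) (ha : Q a ≠ 0) (hb : Q b ≠ 0) :
    ∃ c, Q c ≠ 0 ∧ polar Q a c = 1 ∧ polar Q b c = 1 := by
  by_contra hcon
  push Not at hcon
  have ex : ∀ a : V, Q a ≠ 0 → ∃ u, polar Q a u = 1 := by
    intro a ha
    by_contra h
    push Not at h
    refine ha ?_
    have h1 : a = 0 := hQ.1 a fun y => by
      rw [pbil]
      rcases (show ∀ t : ZMod 2, t = 1 ∨ t = 0 by decide) (polar Q a y) with h2 | h2
      · exact absurd h2 (h y)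
      · exact h2
    rw [h1, QuadraticMap.map_zero]
  obtain ⟨c, hac, hbc⟩ : ∃ c, polar Q a c = 1 ∧ polar Q b c = 1 := by
    obtain ⟨u, hu⟩ := ex a ha
    obtain ⟨w, hw⟩ := ex b hb
    rcases (show ∀ t : ZMod 2, t = 1 ∨ t = 0 by decide) (polar Q b u) with h2 | h2
    · exact ⟨u, hu, h2⟩
    rcases (show ∀ t : ZMod 2, t = 1 ∨ t = 0 by decide) (polar Q a w) with h3 | h3
    · exact ⟨w, h3, hw⟩
    · exact ⟨u + w, by rw [par, hu, h3, add_zero], by rw [par, hw, h2, zero_add]⟩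
  have hz : ∀ c, polar Q a c = 1 → polar Q b c = 1 → Q c = 0 := by
    intro c h1 h2
    by_contra h
    exact hcon c h h1 h2
  set P := Submodule.span (ZMod 2) ({a, b} : Set V) with hP
  have hP2 : Module.finrank (ZMod 2) P ≤ 2 := by
    classical
    have h1 := finrank_span_finset_le_card (R := ZMod 2) ({a, b} : Finset V)
    rw [Finset.coe_pair] at h1
    exact h1.trans Finset.card_le_two
  have h1 := finrank_perp hQ P
  have hW : ∀ w ∈ perp Q P, Q w = polar Q c w := by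
    intro w hw
    rw [mem_perp] at hw
    have ha' : polar Q a w = 0 := hw a (Submodule.subset_span (by simp))
    have hb' : polar Q b w = 0 := hw b (Submodule.subset_span (by simp))
    have h2 := hz (c + w) (by rw [par, hac, ha', add_zero]) (by rw [par, hbc, hb', add_zero])
    rw [qadd, hz c hac hbc, zero_add] at h2
    have h3 : ∀ s t : ZMod 2, s + t = 0 → s = t := by decide
    exact h3 _ _ h2
  have hWW : perp Q P ≤ perp Q (perp Q P) := by
    intro w hw
    rw [mem_perp]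
    intro v hv
    have h2 := hW _ (add_mem hv hw)
    rw [qadd, hW v hv, hW w hw, par] at h2
    exact add_eq_left.1 h2
  have h2 := finrank_perp hQ (perp Q P)
  have h3 := Submodule.finrank_mono hWW
  omega

theorem main [FiniteDimensional (ZMod 2) V] (hQ : (polarBilin Q).Nondegenerate)
    (hdim : 6 ≤ Module.finrank (ZMod 2) V) {x : OGrp Q}
    (hx : ∀ v, (x : V ≃ₗ[ZMod 2] V) ((x : V ≃ₗ[ZMod 2] V) v) = v + (x : V ≃ₗ[ZMod 2] V) v)
    (hF : Coc Q F) :
    ∃ v, ∀ g ∈ commutator (OGrp Q), F g = (g : V ≃ₗ[ZMod 2] V) v - v := by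
  have hR : RGrp Q = ⊤ := RGrp_eq_top hQ (Or.inr (by omega))
  refine ⟨(x : V ≃ₗ[ZMod 2] V) (F x), fun g hg => ?_⟩
  set v0 := (x : V ≃ₗ[ZMod 2] V) (F x) with hv0
  have hF' : Coc Q (fun g => F g + ((g : V ≃ₗ[ZMod 2] V) v0 + v0)) := by
    intro g hg h hh
    change F (g * h) + (((g * h : OGrp Q) : V ≃ₗ[ZMod 2] V) v0 + v0) = F g + _ + _
    rw [hF g hg h hh, coe_mul_apply, map_add, map_add]
    have h3 : ∀ A B C D E : V, A + (D + E) + (B + (C + D)) = A + B + (C + E) + (D + D) := by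
      intro A B C D E
      abel
    rw [h3, vadd_self, add_zero]
  have h1 := F_all hx hF' (by
    change F x + ((x : V ≃ₗ[ZMod 2] V) v0 + v0) = 0
    rw [hv0, hx, add_assoc, vadd_self, add_zero, vadd_self]) hQ hR
    (fun a b ha hb _ _ => connect hQ hdim a b ha hb) hg
  rw [vsub]
  exact eq_of_vadd_eq_zero h1

end Cfsg.Agent.Mdx.HO
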