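import Cfsg.Agent.Mdx.HO1
import Cfsg.Agent.Orth.Bridge

set_option autoImplicit false

namespace Cfsg.Agent.Mdx.HO

open QuadraticMap Cfsg.Agent.Orth

section

variable {V : Type*} [AddCommGroup V] [Module (ZMod 2) V]

theorem exists_x {Q : QuadraticForm (ZMod 2) V} (f : V →ₗ[ZMod 2] V) (hf : ∀ v, f (f v) = v + f v)
    (hfQ : ∀ v, Q (f v) = Q v) :
    ∃ x : OGrp Q, ∀ v, (x : V ≃ₗ[ZMod 2] V) ((x : V ≃ₗ[ZMod 2] V) v)
      = v + (x : V ≃ₗ[ZMod 2] V) v := by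
  have h3 : ∀ v, f (f (f v)) = v := by
    intro v
    rw [hf, hf, add_comm v, vadd_cancel_mid]
  exact ⟨mkIsom Q f (f ∘ₗ f) h3 h3 hfQ, hf⟩

end

section bridge

variable {ι : Type} [Fintype ι] [DecidableEq ι]

/-- The conclusion for the concrete matrix groups from the abstract one. -/
theorem transfer (Q : QuadraticForm (ZMod 2) (ι → ZMod 2))
    (H : ∀ F : OGrp Q → (ι → ZMod 2), Coc Q F →
      ∃ v, ∀ g ∈ commutator (OGrp Q), F g = (g : (ι → ZMod 2) ≃ₗ[ZMod 2] (ι → ZMod 2)) v - v)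
    (f : ↥(Cfsg.Omega (ZMod 2) ⇑Q) → (ι → ZMod 2))
    (hf : ∀ g h : ↥(Cfsg.Omega (ZMod 2) ⇑Q), f (g * h) = f g +
      Matrix.mulVec (((g : ↥(Cfsg.isometryGroup (ZMod 2) ⇑Q)) : GL ι (ZMod 2)) :
        Matrix ι ι (ZMod 2)) (f h)) :
    ∃ v : ι → ZMod 2, ∀ g : ↥(Cfsg.Omega (ZMod 2) ⇑Q), f g =
      Matrix.mulVec (((g : ↥(Cfsg.isometryGroup (ZMod 2) ⇑Q)) : GL ι (ZMod 2)) :
        Matrix ι ι (ZMod 2)) v - v := by
  classical
  have hmem : ∀ g : OGrp Q, g ∈ commutator (OGrp Q) →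
      (bridge Q).symm g ∈ Cfsg.Omega (ZMod 2) ⇑Q := by
    intro g hg
    rw [mem_Omega_iff, MulEquiv.apply_symm_apply]
    exact hg
  have hF : Coc Q (fun g => if hg : g ∈ commutator (OGrp Q) then
      f ⟨(bridge Q).symm g, hmem g hg⟩ else 0) := by
    intro g hg h hh
    simp only [dif_pos hg, dif_pos hh, dif_pos (mul_mem hg hh)]
    have h1 := hf ⟨(bridge Q).symm g, hmem g hg⟩ ⟨(bridge Q).symm h, hmem h hh⟩
    rw [← bridge_symm_mulVec Q g]
    rw [← h1]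
    congr 1
    exact Subtype.ext (map_mul (bridge Q).symm g h)
  obtain ⟨v, hv⟩ := H _ hF
  refine ⟨v, fun g => ?_⟩
  have hg : bridge Q g.1 ∈ commutator (OGrp Q) := (mem_Omega_iff Q g.1).1 g.2
  have h1 := hv _ hg
  simp only [dif_pos hg] at h1
  rw [bridge_apply] at h1
  rw [← h1]
  congr 1
  exact Subtype.ext ((bridge Q).symm_apply_apply g.1).symm

end bridge

/-- The isometry of order three in dimension six. -/
def f6 : ((Fin 2 ⊕ Fin 2) ⊕ Fin 2 → ZMod 2) →ₗ[ZMod 2] ((Fin 2 ⊕ Fin 2) ⊕ Fin 2 → ZMod 2) where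
  toFun v := Sum.elim (Sum.elim ![v (.inl (.inl 1)), v (.inl (.inl 0)) + v (.inl (.inl 1))]
    ![v (.inl (.inr 0)) + v (.inl (.inr 1)), v (.inl (.inr 0))])
    ![v (.inr 1), v (.inr 0) + v (.inr 1)]
  map_add' v w := by
    funext i
    rcases i with (i | i) | i <;> fin_cases i <;> simp <;> ring
  map_smul' c v := by
    funext i
    rcases i with (i | i) | i <;> fin_cases i <;> simp <;> ring

/-- The isometry of order three in dimension eight. -/
def f8 : (Fin 4 ⊕ Fin 4 → ZMod 2) →ₗ[ZMod 2] (Fin 4 ⊕ Fin 4 → ZMod 2) where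
  toFun v := Sum.elim ![v (.inl 1), v (.inl 0) + v (.inl 1), v (.inl 3), v (.inl 2) + v (.inl 3)]
    ![v (.inr 0) + v (.inr 1), v (.inr 0), v (.inr 2) + v (.inr 3), v (.inr 2)]
  map_add' v w := by
    funext i
    rcases i with i | i <;> fin_cases i <;> simp <;> ring
  map_smul' c v := by
    funext i
    rcases i with i | i <;> fin_cases i <;> simp <;> ring

theorem two0 : (2 : ZMod 2) = 0 := rfl

theorem case6 (F : OGrp (qfMinus 2 (ZMod 2) 1 1) → ((Fin 2 ⊕ Fin 2) ⊕ Fin 2 → ZMod 2))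
    (hF : Coc _ F) : ∃ v, ∀ g ∈ commutator (OGrp (qfMinus 2 (ZMod 2) 1 1)),
      F g = (g : ((Fin 2 ⊕ Fin 2) ⊕ Fin 2 → ZMod 2) ≃ₗ[ZMod 2] _) v - v := by
  obtain ⟨x, hx⟩ := exists_x (Q := qfMinus 2 (ZMod 2) 1 1) f6 (by
    intro v
    funext i
    rcases i with (i | i) | i <;> fin_cases i <;> simp [f6] <;> ring_nf) (by
    intro v
    rw [qfMinus_apply, qfMinus_apply]
    simp only [f6, LinearMap.coe_mk, AddHom.coe_mk, Fin.sum_univ_two, Sum.elim_inl, Sum.elim_inr,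
      Matrix.cons_val_zero, Matrix.cons_val_one]
    ring_nf
    reduce_mod_char)
  exact main (qfMinus_nondegenerate _ _ (by decide)) (by simp) hx hF

theorem case8 (F : OGrp (qfPlus 4 (ZMod 2)) → (Fin 4 ⊕ Fin 4 → ZMod 2))
    (hF : Coc _ F) : ∃ v, ∀ g ∈ commutator (OGrp (qfPlus 4 (ZMod 2))),
      F g = (g : (Fin 4 ⊕ Fin 4 → ZMod 2) ≃ₗ[ZMod 2] _) v - v := by
  obtain ⟨x, hx⟩ := exists_x (Q := qfPlus 4 (ZMod 2)) f8 (by
    intro v
    funext i
    rcases i with i | i <;> fin_cases i <;> simp [f8] <;> ring_nf) (by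
    intro v
    rw [qfPlus_apply, qfPlus_apply]
    simp only [f8, LinearMap.coe_mk, AddHom.coe_mk, Fin.sum_univ_four, Sum.elim_inl, Sum.elim_inr,
      Matrix.cons_val_zero, Matrix.cons_val_one, Matrix.cons_val]
    ring_nf
    reduce_mod_char)
  exact main (qfPlus_nondegenerate _ _) (by simp) hx hF

end Cfsg.Agent.Mdx.HO
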