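import Cfsg.Agent.Mdx.HO2

set_option autoImplicit false

namespace Cfsg.Agent.Mdx.HO

open QuadraticMap Cfsg.Agent.Orth

theorem perm5 : ∀ σ : Equiv.Perm (Fin 5), Equiv.Perm.sign σ = 1 → ∀ i, σ i = i →
    (σ * σ * σ = 1) ∨ (σ * σ = 1 ∧ ∀ j, j ≠ i → σ j ≠ j) := by
  decide +kernel

section

variable {V : Type*} [AddCommGroup V] [Module (ZMod 2) V]

/-- Five singular vectors, with pairwise polar value `1`, and sum zero. -/
structure Five (Q : QuadraticForm (ZMod 2) V) (s : Fin 5 → V) : Prop where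
  q : ∀ i, Q (s i) = 0
  p : ∀ i j, i ≠ j → polar Q (s i) (s j) = 1
  all : ∀ v, v ≠ 0 → Q v = 0 → ∃ i, s i = v
  sum : ∑ i, s i = 0
  sep : ∀ v, (∀ i, polar Q v (s i) = 0) → v = 0

variable {Q : QuadraticForm (ZMod 2) V} {s : Fin 5 → V} (S : Five Q s)

include S

theorem Five.pii (i : Fin 5) : polar Q (s i) (s i) = 0 := by
  rw [pself, S.q, mul_zero]

theorem Five.inj : Function.Injective s := by
  intro i j h
  by_contra hne
  have h1 := S.p i j hne
  rw [h, S.pii] at h1
  exact zero_ne_one h1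

theorem Five.ne (i : Fin 5) : s i ≠ 0 := by
  intro h
  have h1 : ∀ i : Fin 5, ∃ j, i ≠ j := by decide
  obtain ⟨j, hj⟩ := h1 i
  have h2 := S.p i j hj
  rw [h, polar_zero_left] at h2
  exact zero_ne_one h2

theorem Five.ex (g : OGrp Q) (i : Fin 5) : ∃ j, s j = (g : V ≃ₗ[ZMod 2] V) (s i) := by
  refine S.all _ ?_ ?_
  · intro h
    exact S.ne i ((map_eq_zero_iff _ (g : V ≃ₗ[ZMod 2] V).injective).1 h)
  · rw [OGrp_q, S.q]

/-- The action on the five vectors. -/
noncomputable def act (g : OGrp Q) (i : Fin 5) : Fin 5 := (S.ex g i).choose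

theorem act_spec (g : OGrp Q) (i : Fin 5) : s (act S g i) = (g : V ≃ₗ[ZMod 2] V) (s i) :=
  (S.ex g i).choose_spec

theorem act_one (i : Fin 5) : act S (1 : OGrp Q) i = i := by
  apply S.inj
  rw [act_spec S, coe_one_apply]

theorem act_mul (g h : OGrp Q) (i : Fin 5) : act S (g * h) i = act S g (act S h i) := by
  apply S.inj
  rw [act_spec S, act_spec S, act_spec S, coe_mul_apply]

/-- The permutation representation. -/
noncomputable def perm : OGrp Q →* Equiv.Perm (Fin 5) where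
  toFun g := ⟨act S g, act S g⁻¹, fun i => by rw [← act_mul, inv_mul_cancel, act_one],
    fun i => by rw [← act_mul, mul_inv_cancel, act_one]⟩
  map_one' := Equiv.ext fun i => act_one S i
  map_mul' g h := Equiv.ext fun i => act_mul S g h i

theorem perm_spec (g : OGrp Q) (i : Fin 5) : s (perm S g i) = (g : V ≃ₗ[ZMod 2] V) (s i) :=
  act_spec S g i

theorem ext_of (v w : V) (h : ∀ i, polar Q v (s i) = polar Q w (s i)) : v = w := by
  rw [← sub_eq_zero]
  refine S.sep _ fun i => ?_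
  rw [pdl, h, sub_self]

theorem perm_inj {g h : OGrp Q} (e : perm S g = perm S h) : g = h := by
  refine OGrp_ext fun v => ?_
  refine ext_of S _ _ fun i => ?_
  obtain ⟨j, rfl⟩ : ∃ j, perm S g j = i := (perm S g).surjective i
  rw [perm_spec S, OGrp_polar, ← perm_spec S, e, perm_spec S, OGrp_polar]

theorem sign_perm {g : OGrp Q} (hg : g ∈ commutator (OGrp Q)) :
    Equiv.Perm.sign (perm S g) = 1 := by
  have h := Abelianization.commutator_subset_ker ((Equiv.Perm.sign).comp (perm S)) hg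
  exact h

theorem stab_zero {F : OGrp Q → V} (hF : Coc Q F) {g : OGrp Q} (hg : g ∈ commutator (OGrp Q))
    {i : Fin 5} (hi : (g : V ≃ₗ[ZMod 2] V) (s i) = s i) : polar Q (F g) (s i) = 0 := by
  have hi' : perm S g i = i := S.inj (by rw [perm_spec S, hi])
  rcases perm5 _ (sign_perm S hg) i hi' with h | ⟨h, hj⟩
  · have h1 : g * g * g = 1 := perm_inj S (by rw [map_mul, map_mul, h, map_one])
    have h2 := hF _ (mul_mem hg hg) _ hg
    rw [h1, hF.one, hF g hg g hg] at h2
    have h3 := congrArg (fun v => polar Q v (s i)) h2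
    simp only [pal, polar_zero_left, coe_mul_apply] at h3
    have h4 : ∀ v, polar Q ((g : V ≃ₗ[ZMod 2] V) v) (s i) = polar Q v (s i) := by
      intro v
      conv_lhs => rw [← hi]
      rw [OGrp_polar]
    rw [h4, h4, h4] at h3
    have h5 : ∀ t : ZMod 2, 0 = t + t + t → t = 0 := by decide
    exact h5 _ h3
  · have h1 : g * g = 1 := perm_inj S (by rw [map_mul, h, map_one])
    have h2 := hF g hg g hg
    rw [h1, hF.one] at h2
    have h3 : F g = (g : V ≃ₗ[ZMod 2] V) (F g) := eq_of_vadd_eq_zero h2.symm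
    have h4 : ∀ j, polar Q (F g) (s (perm S g j)) = polar Q (F g) (s j) := by
      intro j
      rw [perm_spec S]
      conv_lhs => rw [h3]
      rw [OGrp_polar]
    have h5 : ∑ j ∈ Finset.univ.erase i, polar Q (F g) (s j) = 0 := by
      refine Finset.sum_involution (fun j _ => perm S g j) ?_ ?_ ?_ ?_
      · intro j hj'
        rw [h4]
        have : ∀ t : ZMod 2, t + t = 0 := by decide
        exact this _
      · intro j hj' _
        exact hj j (Finset.ne_of_mem_erase hj')
      · intro j hj'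
        rw [Finset.mem_erase] at hj' ⊢
        refine ⟨fun e => hj'.1 ?_, Finset.mem_univ _⟩
        rw [← hi'] at e
        exact (perm S g).injective e
      · intro j hj'
        have := congrArg (fun σ : Equiv.Perm (Fin 5) => σ j) h
        exact this
    have h6 : ∑ j, polar Q (F g) (s j) = 0 := by
      have : polar Q (F g) (∑ j, s j) = ∑ j, polar Q (F g) (s j) := by
        have := map_sum (polarBilin Q (F g)) s Finset.univ
        exact this
      rw [← this, S.sum, polar_zero_right]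
    rw [← Finset.add_sum_erase _ _ (Finset.mem_univ i), h5, add_zero] at h6
    exact h6

theorem trans_i [FiniteDimensional (ZMod 2) V] (hQ : (polarBilin Q).Nondegenerate) (i : Fin 5) :
    ∃ g ∈ commutator (OGrp Q), (g : V ≃ₗ[ZMod 2] V) (s i) = s 0 := by
  by_cases hi : i = 0
  · subst hi
    exact ⟨1, one_mem _, rfl⟩
  obtain ⟨k, hk0, hki⟩ : ∃ k : Fin 5, 0 ≠ k ∧ i ≠ k := by
    revert i; decide
  have hqa : Q (s 0 + s i) = 1 := by
    rw [qadd, S.q, S.q, S.p _ _ (Ne.symm hi)]; rfl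
  have hqb : Q (s 0 + s k) = 1 := by
    rw [qadd, S.q, S.q, S.p _ _ hk0]; rfl
  have ha : Q (s 0 + s i) ≠ 0 := by rw [hqa]; exact one_ne_zero
  have hb : Q (s 0 + s k) ≠ 0 := by rw [hqb]; exact one_ne_zero
  refine ⟨_, refl_mul_refl_mem hQ ha hb, ?_⟩
  rw [coe_mul_apply, refl_apply2, refl_apply2, par, S.p _ _ hi, S.p _ _ hki,
    show (1 + 1 : ZMod 2) = 0 from rfl, zero_smul, add_zero, par, S.p _ _ hi, S.pii, add_zero,
    one_smul, add_comm (s 0), vadd_cancel_mid]

theorem main4 [FiniteDimensional (ZMod 2) V] (hQ : (polarBilin Q).Nondegenerate)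
    {F : OGrp Q → V} (hF : Coc Q F) :
    ∃ v, ∀ g ∈ commutator (OGrp Q), F g = (g : V ≃ₗ[ZMod 2] V) v - v := by
  choose t ht hts using trans_i S hQ
  set u : Fin 5 → ZMod 2 := fun i => polar Q (F (t i)) (s 0) with hu
  have key : ∀ (i : Fin 5) (h : OGrp Q), h ∈ commutator (OGrp Q) →
      (h : V ≃ₗ[ZMod 2] V) (s i) = s 0 → polar Q (F h) (s 0) = u i := by
    intro i h hh hi
    have hk : h * (t i)⁻¹ ∈ commutator (OGrp Q) := mul_mem hh (inv_mem (ht i))
    have h0 : (((t i)⁻¹ : OGrp Q) : V ≃ₗ[ZMod 2] V) (s 0) = s i := by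
      rw [← hts i, coe_inv_apply_self]
    have hk0 : ((h * (t i)⁻¹ : OGrp Q) : V ≃ₗ[ZMod 2] V) (s 0) = s 0 := by
      rw [coe_mul_apply, h0, hi]
    have h1 := stab_zero S hF hk hk0
    have h2 := hF _ hk _ (ht i)
    rw [inv_mul_cancel_right] at h2
    rw [h2, pal, h1, zero_add]
    conv_lhs => rw [← hk0]
    rw [OGrp_polar]
  have key2 : ∀ g ∈ commutator (OGrp Q), ∀ i j, (g : V ≃ₗ[ZMod 2] V) (s j) = s i →
      polar Q (F g) (s i) = u j + u i := by
    intro g hg i j hij
    have h1 := key j (t i * g) (mul_mem (ht i) hg) (by rw [coe_mul_apply, hij, hts])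
    rw [hF _ (ht i) _ hg, pal] at h1
    have h2 : polar Q ((t i : V ≃ₗ[ZMod 2] V) (F g)) (s 0) = polar Q (F g) (s i) := by
      rw [← hts i, OGrp_polar]
    rw [h2] at h1
    have h3 : ∀ a b c : ZMod 2, a + b = c → b = c + a := by decide
    exact h3 _ _ _ h1
  set v : V := ∑ k, u k • s k with hv
  have hvi : ∀ i, polar Q v (s i) = (∑ k, u k) + u i := by
    intro i
    have h1 : polar Q v (s i) = ∑ k, u k * polar Q (s k) (s i) := by
      have := LinearMap.congr_fun (map_sum (polarBilin Q) (fun k => u k • s k) Finset.univ) (s i)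
      rw [LinearMap.sum_apply] at this
      refine this.trans (Finset.sum_congr rfl fun k _ => ?_)
      rw [pbil, psl]
    rw [h1, ← Finset.add_sum_erase _ _ (Finset.mem_univ i), S.pii, mul_zero, zero_add]
    rw [Finset.sum_congr rfl (g := u) (fun k hk => by
      rw [S.p k i (Finset.ne_of_mem_erase hk), mul_one])]
    rw [← Finset.add_sum_erase (Finset.univ) u (Finset.mem_univ i)]
    have : ∀ a b : ZMod 2, a = b + a + b := by decide
    exact this _ _
  refine ⟨v, fun g hg => ?_⟩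
  refine ext_of S _ _ fun i => ?_
  obtain ⟨j, rfl⟩ : ∃ j, perm S g j = i := (perm S g).surjective i
  rw [key2 g hg _ j (perm_spec S g j).symm, vsub, pal, hvi, perm_spec S, OGrp_polar, hvi]
  have : ∀ a b c : ZMod 2, a + b = c + a + (c + b) := by decide
  exact this _ _ _

end

/-- The five singular vectors. -/
def sv : Fin 5 → ((Fin 1 ⊕ Fin 1) ⊕ Fin 2 → ZMod 2) := ![
  Sum.elim (Sum.elim ![1] ![0]) ![0, 0], Sum.elim (Sum.elim ![0] ![1]) ![0, 0],
  Sum.elim (Sum.elim ![1] ![1]) ![1, 0], Sum.elim (Sum.elim ![1] ![1]) ![0, 1],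
  Sum.elim (Sum.elim ![1] ![1]) ![1, 1]]

theorem mk4 (v : (Fin 1 ⊕ Fin 1) ⊕ Fin 2 → ZMod 2) :
    v = Sum.elim (Sum.elim ![v (.inl (.inl 0))] ![v (.inl (.inr 0))]) ![v (.inr 0), v (.inr 1)] := by
  funext i
  rcases i with (i | i) | i <;> fin_cases i <;> rfl

theorem polar4 (u v : (Fin 1 ⊕ Fin 1) ⊕ Fin 2 → ZMod 2) :
    polar (qfMinus 1 (ZMod 2) 1 1) u v = u (.inl (.inl 0)) * v (.inl (.inr 0)) +
      v (.inl (.inl 0)) * u (.inl (.inr 0)) + (u (.inr 0) * v (.inr 1) + u (.inr 1) * v (.inr 0)) := by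
  rw [polar_qfMinus, Fin.sum_univ_one, two0]
  ring

theorem five : Five (qfMinus 1 (ZMod 2) 1 1) sv where
  q i := by
    rw [qfMinus_apply, Fin.sum_univ_one]
    revert i; decide
  p i j := by
    rw [polar4]
    revert i j; decide
  all v hv hq := by
    rw [qfMinus_apply, Fin.sum_univ_one] at hq
    rw [mk4 v] at hv ⊢
    generalize v (.inl (.inl 0)) = a at *
    generalize v (.inl (.inr 0)) = b at *
    generalize v (.inr 0) = c at *
    generalize v (.inr 1) = d at *
    revert a b c d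
    decide
  sum := by decide
  sep v h := by
    have h' : ∀ i, _ = (0 : ZMod 2) := fun i => (polar4 v (sv i)).symm.trans (h i)
    rw [mk4 v]
    generalize v (.inl (.inl 0)) = a at *
    generalize v (.inl (.inr 0)) = b at *
    generalize v (.inr 0) = c at *
    generalize v (.inr 1) = d at *
    clear h
    revert a b c d
    decide

theorem case4 (F : OGrp (qfMinus 1 (ZMod 2) 1 1) → ((Fin 1 ⊕ Fin 1) ⊕ Fin 2 → ZMod 2))
    (hF : Coc _ F) : ∃ v, ∀ g ∈ commutator (OGrp (qfMinus 1 (ZMod 2) 1 1)),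
      F g = (g : ((Fin 1 ⊕ Fin 1) ⊕ Fin 2 → ZMod 2) ≃ₗ[ZMod 2] _) v - v :=
  main4 five (qfMinus_nondegenerate _ _ (by decide)) hF

end Cfsg.Agent.Mdx.HO
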