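import Cfsg.Agent.Mdx.Count
import Cfsg.Agent.OMax.Sub

/-!
Siegel transformations as elements of the group generated by them; fixators in Siegel groups of
points of a permutation representation and their duals.
-/

set_option autoImplicit false

namespace Cfsg.Agent.Mdx.Ort

open QuadraticMap Cfsg.Agent.Orth Cfsg.Agent.OMax

variable {F V : Type*} [Field F] [AddCommGroup V] [Module F V] {Q : QuadraticForm F V}

/-- Action of an element of `SGrp Q` on `V`. -/
def ap (g : SGrp Q) (x : V) : V := ((g : OGrp Q) : V ≃ₗ[F] V) x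

theorem ap_def (g : SGrp Q) (x : V) : ap g x = ((g : OGrp Q) : V ≃ₗ[F] V) x := rfl

theorem ap_add (g : SGrp Q) (x y : V) : ap g (x + y) = ap g x + ap g y := map_add _ x y

theorem ap_sub (g : SGrp Q) (x y : V) : ap g (x - y) = ap g x - ap g y := map_sub _ x y

theorem ap_neg (g : SGrp Q) (x : V) : ap g (-x) = -ap g x := map_neg _ x

theorem ap_zero (g : SGrp Q) : ap g (0 : V) = 0 := map_zero _

theorem ap_smul (g : SGrp Q) (c : F) (x : V) : ap g (c • x) = c • ap g x := map_smul _ c x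

theorem ap_q (g : SGrp Q) (x : V) : Q (ap g x) = Q x := OGrp_q _ _

theorem ap_polar (g : SGrp Q) (x y : V) : polar Q (ap g x) (ap g y) = polar Q x y := OGrp_polar _ _ _

theorem ap_mul (g h : SGrp Q) (x : V) : ap (g * h) x = ap g (ap h x) := rfl

theorem ap_one (x : V) : ap (1 : SGrp Q) x = x := rfl

theorem ap_inv_ap (g : SGrp Q) (x : V) : ap g⁻¹ (ap g x) = x := by
  rw [← ap_mul, inv_mul_cancel, ap_one]

theorem ap_ap_inv (g : SGrp Q) (x : V) : ap g (ap g⁻¹ x) = x := by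
  rw [← ap_mul, mul_inv_cancel, ap_one]

theorem ap_inj (g : SGrp Q) {x y : V} (h : ap g x = ap g y) : x = y := by
  rw [← ap_inv_ap g x, h, ap_inv_ap]

theorem ap_ext {g h : SGrp Q} (H : ∀ x : V, ap g x = ap h x) : g = h :=
  Subtype.ext (OGrp_ext H)

/-- The additive equivalence given by an element. -/
def apE (g : SGrp Q) : V ≃+ V where
  toFun := ap g
  invFun := ap g⁻¹
  left_inv := ap_inv_ap g
  right_inv := ap_ap_inv g
  map_add' := ap_add g

open Classical in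
/-- Siegel elements (identity when the data are not admissible). -/
noncomputable def ee (Q : QuadraticForm F V) (v b : V) : SGrp Q :=
  if h : Q v = 0 ∧ polar Q v b = 0 then ⟨eich Q v b h.1 h.2, eich_mem_SGrp h.1 h.2⟩ else 1

theorem ee_coe {v b : V} (hv : Q v = 0) (hb : polar Q v b = 0) :
    (ee Q v b : OGrp Q) = eich Q v b hv hb := by
  rw [ee, dif_pos ⟨hv, hb⟩]

theorem ee_ap {v b : V} (hv : Q v = 0) (hb : polar Q v b = 0) (x : V) :
    ap (ee Q v b) x = x + polar Q x b • v - polar Q x v • b - (Q b * polar Q x v) • v := by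
  rw [ap_def, ee_coe hv hb, eich_apply]

theorem ee_of_not {v b : V} (h : ¬ (Q v = 0 ∧ polar Q v b = 0)) : ee Q v b = 1 := by
  rw [ee, dif_neg h]

theorem ee_zero (v : V) : ee Q v 0 = 1 := by
  by_cases h : Q v = 0 ∧ polar Q v (0 : V) = 0
  · apply ap_ext; intro x
    rw [ee_ap h.1 h.2, ap_one]; simp
  · exact ee_of_not h

theorem ee_add {v b b' : V} (hb : polar Q v b = 0) (hb' : polar Q v b' = 0) :
    ee Q v (b + b') = ee Q v b * ee Q v b' := by
  have hbb : polar Q v (b + b') = 0 := by rw [par, hb, hb', add_zero]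
  by_cases hv : Q v = 0
  · apply Subtype.ext
    rw [Subgroup.coe_mul, ee_coe hv hb, ee_coe hv hb', ee_coe hv hbb, eich_mul]
  · rw [ee_of_not (fun h => hv h.1), ee_of_not (fun h => hv h.1), ee_of_not (fun h => hv h.1), one_mul]

theorem ee_comm {v b b' : V} (hb : polar Q v b = 0) (hb' : polar Q v b' = 0) :
    ee Q v b * ee Q v b' = ee Q v b' * ee Q v b := by
  rw [← ee_add hb hb', ← ee_add hb' hb, add_comm]

theorem ee_neg {v b : V} (hb : polar Q v b = 0) : ee Q v (-b) = (ee Q v b)⁻¹ := by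
  rw [eq_inv_iff_mul_eq_one, ← ee_add (by rw [polar_neg_right, hb, neg_zero]) hb, neg_add_cancel, ee_zero]

theorem ee_conj (g : SGrp Q) (v b : V) : g * ee Q v b * g⁻¹ = ee Q (ap g v) (ap g b) := by
  by_cases h : Q v = 0 ∧ polar Q v b = 0
  · have h' : Q (ap g v) = 0 ∧ polar Q (ap g v) (ap g b) = 0 := by
      rw [ap_q, ap_polar]; exact h
    apply Subtype.ext
    rw [ee_coe h'.1 h'.2, Subgroup.coe_mul, Subgroup.coe_mul, ee_coe h.1 h.2]
    exact eich_conj (g : OGrp Q) h.1 h.2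
  · have h' : ¬ (Q (ap g v) = 0 ∧ polar Q (ap g v) (ap g b) = 0) := by
      rw [ap_q, ap_polar]; exact h
    rw [ee_of_not h, ee_of_not h', mul_one, mul_inv_cancel]

theorem ee_smul_self (v : V) (t : F) : ee Q v (t • v) = 1 := by
  by_cases hv : Q v = 0
  · have h : polar Q v (t • v) = 0 := by rw [psr, pself, hv, mul_zero, mul_zero]
    apply ap_ext; intro x
    rw [ee_ap hv h, ap_one, psr, qsmul, hv]
    module
  · exact ee_of_not (fun h => hv h.1)

theorem ee_smul_left {t : F} (ht : t ≠ 0) (v b : V) : ee Q (t • v) b = ee Q v (t • b) := by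
  have h1 : (Q (t • v) = 0 ∧ polar Q (t • v) b = 0) ↔ (Q v = 0 ∧ polar Q v (t • b) = 0) := by
    rw [qsmul, psl, psr, mul_eq_zero, mul_self_eq_zero]
    simp [ht]
  by_cases h : Q (t • v) = 0 ∧ polar Q (t • v) b = 0
  · have h' := h1.1 h
    apply ap_ext; intro x
    rw [ee_ap h.1 h.2, ee_ap h'.1 h'.2, psr, psr, qsmul]
    module
  · rw [ee_of_not h, ee_of_not (fun h' => h (h1.2 h'))]

theorem ee_swap {v w : V} (hv : Q v = 0) (hw : Q w = 0) (hvw : polar Q v w = 0) :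
    ee Q v w = ee Q w (-v) := by
  have h2 : polar Q w (-v) = 0 := by rw [polar_neg_right, pc, hvw, neg_zero]
  apply ap_ext; intro x
  rw [ee_ap hv hvw, ee_ap hw h2, polar_neg_right, QuadraticMap.map_neg, hv, hw]
  module

/-- The commutator of two Siegel elements attached to orthogonal singular vectors. -/
theorem ee_commutator {v v' a b : V} (hv : Q v = 0) (hv' : Q v' = 0) (hvv : polar Q v v' = 0)
    (ha : polar Q v a = 0) (ha' : polar Q v' a = 0) (hb : polar Q v b = 0) (hb' : polar Q v' b = 0) :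
    ee Q v a * ee Q v' b * (ee Q v a)⁻¹ * (ee Q v' b)⁻¹ = ee Q v' (polar Q a b • v) := by
  have e1 : ap (ee Q v a) v' = v' := by
    rw [ee_ap hv ha, ha', pc Q v' v, hvv]; simp
  have e2 : ap (ee Q v a) b = b + polar Q a b • v := by
    rw [ee_ap hv ha, pc Q b v, hb, pc Q b a]; simp
  have h3 : polar Q v' (polar Q a b • v) = 0 := by rw [psr, pc Q v' v, hvv, mul_zero]
  rw [ee_conj, e1, e2, add_comm, ee_add h3 hb', mul_assoc, mul_inv_cancel, mul_one]

/-! ### Fixators -/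

section Fix

variable {Z : Type*} [MulAction (SGrp Q) Z]

/-- The vectors `b ⊥ v` such that the Siegel element of `v, b` fixes a point. -/
noncomputable def AA (v : V) (ω : Z) : AddSubgroup V where
  carrier := {b | polar Q v b = 0 ∧ ee Q v b • ω = ω}
  zero_mem' := ⟨polar_zero_right Q v, by rw [ee_zero, one_smul]⟩
  add_mem' := by
    rintro b b' ⟨h1, h2⟩ ⟨h1', h2'⟩
    exact ⟨by rw [par, h1, h1', add_zero], by rw [ee_add h1 h1', mul_smul, h2', h2]⟩
  neg_mem' := by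
    rintro b ⟨h1, h2⟩
    exact ⟨by rw [polar_neg_right, h1, neg_zero], by rw [ee_neg h1, inv_smul_eq_iff, h2]⟩

theorem mem_AA {v b : V} {ω : Z} : b ∈ AA (Q := Q) v ω ↔ polar Q v b = 0 ∧ ee Q v b • ω = ω := Iff.rfl

theorem smul_self_mem_AA {v : V} (hv : Q v = 0) (t : F) (ω : Z) : t • v ∈ AA (Q := Q) v ω :=
  ⟨by rw [psr, pself, hv, mul_zero, mul_zero], by rw [ee_smul_self, one_smul]⟩

theorem AA_conj (g : SGrp Q) (v b : V) (ω : Z) :
    ap g b ∈ AA (Q := Q) (ap g v) (g • ω) ↔ b ∈ AA (Q := Q) v ω := by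
  rw [mem_AA, mem_AA, ap_polar, ← ee_conj, smul_smul, inv_mul_cancel_right, mul_smul]
  constructor
  · rintro ⟨h1, h2⟩; exact ⟨h1, smul_left_cancel g h2⟩
  · rintro ⟨h1, h2⟩; exact ⟨h1, by rw [h2]⟩

theorem AA_smul {t : F} (ht : t ≠ 0) (v b : V) (ω : Z) :
    b ∈ AA (Q := Q) (t • v) ω ↔ t • b ∈ AA (Q := Q) v ω := by
  rw [mem_AA, mem_AA, ee_smul_left ht, psl, psr]

/-- Commutator relation. -/
theorem AA_rel {v v' a b : V} (hv : Q v = 0) (hv' : Q v' = 0) (hvv : polar Q v v' = 0) {ω : Z}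
    (ha : a ∈ AA (Q := Q) v ω) (ha' : polar Q v' a = 0) (hb : b ∈ AA (Q := Q) v' ω)
    (hb' : polar Q v b = 0) : polar Q a b • v' ∈ AA (Q := Q) v ω := by
  have h1 : ee Q v' (polar Q a b • v) • ω = ω := by
    rw [← ee_commutator hv hv' hvv ha.1 ha' hb' hb.1, mul_smul, mul_smul, mul_smul]
    have e1 : (ee Q v' b)⁻¹ • ω = ω := by rw [inv_smul_eq_iff, hb.2]
    have e2 : (ee Q v a)⁻¹ • ω = ω := by rw [inv_smul_eq_iff, ha.2]
    rw [e1, e2, hb.2, ha.2]
  have h2 : polar Q v (polar Q a b • v') = 0 := by rw [psr, hvv, mul_zero]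
  refine ⟨h2, ?_⟩
  by_cases hc : polar Q a b = 0
  · rw [hc, zero_smul, ee_zero, one_smul]
  · have e3 : ee Q v (polar Q a b • v') = ee Q v' (-(polar Q a b • v)) := by
      rw [← ee_smul_left hc, ee_swap (by rw [qsmul, hv, mul_zero]) hv' (by rw [psl, hvv, mul_zero])]
    have h4 : polar Q v' (polar Q a b • v) = 0 := by rw [psr, pc Q v' v, hvv, mul_zero]
    rw [e3, ee_neg h4, inv_smul_eq_iff, h1]

/-- If `v ⊥ w` are singular and `ee v w` fixes `ω` then `v ∈ AA w ω`. -/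
theorem AA_swap {v w : V} (hv : Q v = 0) (hw : Q w = 0) (hvw : polar Q v w = 0) {ω : Z}
    (h : w ∈ AA (Q := Q) v ω) : v ∈ AA (Q := Q) w ω := by
  have h2 : polar Q w v = 0 := by rw [pc, hvw]
  refine ⟨h2, ?_⟩
  have h3 := h.2
  rw [ee_swap hv hw hvw, ee_neg h2, inv_smul_eq_iff] at h3
  exact h3.symm

variable (ψ : AddChar F ℂ)

/-- The dual of the fixator. -/
noncomputable def TD (v : V) (ω : Z) : AddSubgroup V := dp ψ (polarBilin Q) (AA (Q := Q) v ω)

theorem mem_TD {v x : V} {ω : Z} :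
    x ∈ TD (Q := Q) ψ v ω ↔ ∀ b ∈ AA (Q := Q) v ω, ψ (polar Q x b) = 1 := Iff.rfl

theorem TD_conj (g : SGrp Q) (v x : V) (ω : Z) :
    ap g x ∈ TD (Q := Q) ψ (ap g v) (g • ω) ↔ x ∈ TD (Q := Q) ψ v ω := by
  rw [mem_TD, mem_TD]
  constructor
  · intro h b hb
    have := h (ap g b) ((AA_conj g v b ω).2 hb)
    rwa [ap_polar] at this
  · intro h b hb
    have h1 : b = ap g (ap g⁻¹ b) := (ap_ap_inv g b).symm
    rw [h1, AA_conj] at hb
    rw [h1, ap_polar]
    exact h _ hb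

theorem TD_smul {t : F} (ht : t ≠ 0) (v x : V) (ω : Z) :
    x ∈ TD (Q := Q) ψ (t • v) ω ↔ t⁻¹ • x ∈ TD (Q := Q) ψ v ω := by
  rw [mem_TD, mem_TD]
  constructor
  · intro h b hb
    have := h (t⁻¹ • b) (by rw [AA_smul ht, smul_smul, mul_inv_cancel₀ ht, one_smul]; exact hb)
    rwa [psr, ← psl] at this
  · intro h b hb
    have := h (t • b) ((AA_smul ht v b ω).1 hb)
    rwa [psl, psr, inv_mul_cancel_left₀ ht] at this

end Fix

/-! ### Duality -/

section Dual

variable {ψ : AddChar F ℂ}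

theorem eq_zero_of_psi (hψ : ψ ≠ 1) {t : F} (h : ∀ c : F, ψ (c * t) = 1) : t = 0 := by
  by_contra ht
  apply hψ
  ext s
  have := h (s * t⁻¹)
  rw [mul_assoc, inv_mul_cancel₀ ht, mul_one] at this
  rw [this]; rfl

theorem dp_sub (hψ : ψ ≠ 1) (X : Submodule F V) :
    dp ψ (polarBilin Q) X.toAddSubgroup = (perp Q X).toAddSubgroup := by
  ext y
  rw [mem_dp]
  constructor
  · intro h
    intro x hx
    change polar Q x y = 0
    refine eq_zero_of_psi hψ fun c => ?_
    have := h (c • x) (X.smul_mem c hx)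
    rw [pbil, psr, pc] at this
    exact this
  · intro h b hb
    have : polar Q b y = 0 := h b hb
    rw [pbil, pc, this]; exact ψ.map_zero_eq_one

theorem nd_of (hQ : (polarBilin Q).Nondegenerate) (b : V) (hb : b ≠ 0) :
    ∃ y, polarBilin Q y b ≠ 0 := by
  by_contra hcon
  push Not at hcon
  exact hb (hQ.2 b hcon)

theorem psi_symm (x y : V) : ψ (polarBilin Q x y) = 1 ↔ ψ (polarBilin Q y x) = 1 := by
  rw [pbil, pbil, pc]

variable [Finite F] [Finite V]

theorem dpdp (hQ : (polarBilin Q).Nondegenerate) (hψ : ψ ≠ 1) (A : AddSubgroup V) :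
    dp ψ (polarBilin Q) (dp ψ (polarBilin Q) A) = A :=
  dp_dp hψ (nd_of hQ) psi_symm A

theorem le_dp_iff (hQ : (polarBilin Q).Nondegenerate) (hψ : ψ ≠ 1) {A A' : AddSubgroup V} :
    A ≤ dp ψ (polarBilin Q) A' ↔ A' ≤ dp ψ (polarBilin Q) A := by
  constructor
  · intro h
    have := dp_anti (ψ := ψ) (B := polarBilin Q) h
    rwa [dpdp hQ hψ] at this
  · intro h
    have := dp_anti (ψ := ψ) (B := polarBilin Q) h
    rwa [dpdp hQ hψ] at this

theorem dp_inj (hQ : (polarBilin Q).Nondegenerate) (hψ : ψ ≠ 1) {A A' : AddSubgroup V}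
    (h : dp ψ (polarBilin Q) A = dp ψ (polarBilin Q) A') : A = A' := by
  rw [← dpdp hQ hψ A, h, dpdp hQ hψ]

variable {Z : Type*} [MulAction (SGrp Q) Z]

theorem dp_TD (hQ : (polarBilin Q).Nondegenerate) (hψ : ψ ≠ 1) (v : V) (ω : Z) :
    dp ψ (polarBilin Q) (TD (Q := Q) ψ v ω) = AA (Q := Q) v ω := dpdp hQ hψ _

theorem mem_AA_iff (hQ : (polarBilin Q).Nondegenerate) (hψ : ψ ≠ 1) (v b : V) (ω : Z) :
    b ∈ AA (Q := Q) v ω ↔ ∀ x ∈ TD (Q := Q) ψ v ω, ψ (polar Q x b) = 1 := by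
  rw [← dp_TD hQ hψ, mem_dp]
  refine forall₂_congr fun x _ => ?_
  rw [pbil, pc]

omit [Finite F] [Finite V] in
theorem TD_le (hψ : ψ ≠ 1) {v : V} (hv : Q v = 0) (ω : Z) {x : V}
    (hx : x ∈ TD (Q := Q) ψ v ω) : polar Q v x = 0 := by
  refine eq_zero_of_psi hψ fun c => ?_
  have := hx (c • v) (smul_self_mem_AA hv c ω)
  rw [pbil, psr, pc] at this
  exact this

omit [Finite F] [Finite V] in
theorem smul_self_mem_TD (v : V) (t : F) (ω : Z) :
    t • v ∈ TD (Q := Q) ψ v ω := by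
  intro b hb
  rw [pbil, psl, hb.1, mul_zero]; exact ψ.map_zero_eq_one

end Dual

end Cfsg.Agent.Mdx.Ort
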