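import Cfsg.Agent.Mdx.O9

/-!
The final contradiction over the field with two elements.
-/

set_option autoImplicit false

namespace Cfsg.Agent.Mdx.Ort

open QuadraticMap Cfsg.Agent.Orth Cfsg.Agent.OMax Finset

variable {F V : Type*} [Field F] [AddCommGroup V] [Module F V] {Q : QuadraticForm F V}

variable {Z : Type*} [MulAction (SGrp Q) Z] {ψ : AddChar F ℂ}

section Two

variable [Finite F] [FiniteDimensional F V]

/-- An anisotropic plane orthogonal to a non-degenerate subspace (two field elements). -/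
theorem exists_plane_perp (hQ : (polarBilin Q).Nondegenerate) (hF : ∀ c : F, c = 0 ∨ c = 1)
    (h2 : (2 : F) = 0) (S : Submodule F V) (hS : S ⊓ perp Q S = ⊥)
    (hd : Module.finrank F S + 2 < Module.finrank F V) :
    ∃ x ∈ perp Q S, ∃ y ∈ perp Q S, Q x = 1 ∧ Q y = 1 ∧ polar Q x y = 1 ∧
      (S ⊔ Submodule.span F {x, y}) ⊓ perp Q (S ⊔ Submodule.span F {x, y}) = ⊥ ∧
      Module.finrank F ↥(S ⊔ Submodule.span F {x, y}) ≤ Module.finrank F S + 2 := by
  have hfr : ∀ x y : V, Module.finrank F ↥(S ⊔ Submodule.span F {x, y}) ≤ Module.finrank F S + 2 := by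
    intro x y
    refine (Submodule.finrank_add_le_finrank_add_finrank _ _).trans ?_
    have := finrank_span_pair_le (F := F) x y
    omega
  have hext : ∀ x y : V, x ∈ perp Q S → y ∈ perp Q S → polar Q x y = 1 →
      (S ⊔ Submodule.span F {x, y}) ⊓ perp Q (S ⊔ Submodule.span F {x, y}) = ⊥ := by
    intro x y hx hy hxy
    refine ext_sup hS (nd_two ?_) ?_
    · rw [pself, pself, hxy, h2]
      simp
    · rw [Submodule.span_le]
      rintro z (rfl | rfl)
      · exact hx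
      · exact hy
  obtain ⟨x, hx, hx0⟩ := exists_nonsing_perp hQ S hS (by omega)
  have hx1 : Q x = 1 := (hF _).resolve_left hx0
  obtain ⟨y, hy, hxy⟩ : ∃ y ∈ perp Q S, polar Q x y = 1 := by
    by_contra hcon
    push Not at hcon
    have h1 : x ∈ S := by
      rw [← perp_perp hQ S]
      intro y hy
      change polar Q y x = 0
      rw [pc]
      exact (hF _).resolve_right (hcon y hy)
    have h3 : x ∈ S ⊓ perp Q S := ⟨h1, hx⟩
    rw [hS] at h3
    apply hx0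
    have : x = 0 := by simpa using h3
    rw [this, map_zero]
  rcases hF (Q y) with h | h
  · obtain ⟨z, hz, hz0⟩ := exists_nonsing_perp hQ _ (hext x y hx hy hxy) (by have := hfr x y; omega)
    have hz1 : Q z = 1 := (hF _).resolve_left hz0
    have hzS : z ∈ perp Q S := fun u hu => hz u (Submodule.mem_sup_left hu)
    have hxz : polar Q x z = 0 := hz x (Submodule.mem_sup_right (Submodule.subset_span (by simp)))
    have hyz : polar Q y z = 0 := hz y (Submodule.mem_sup_right (Submodule.subset_span (by simp)))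
    have hy' : y + z ∈ perp Q S := Submodule.add_mem _ hy hzS
    have hxy' : polar Q x (y + z) = 1 := by rw [par, hxy, hxz, add_zero]
    exact ⟨x, hx, y + z, hy', hx1, by rw [qadd, h, hz1, hyz]; ring, hxy', hext _ _ hx hy' hxy', hfr _ _⟩
  · exact ⟨x, hx, y, hy, hx1, h, hxy, hext _ _ hx hy hxy, hfr _ _⟩

/-- `k` acts on the plane of `x`, `y` as a rotation of order three. -/
def Kp (k : SGrp Q) (x y : V) : Prop :=
  ∀ z, ap k z = z + polar Q z y • y + (polar Q z x + polar Q z y) • x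

theorem exists_Kp (hQ : (polarBilin Q).Nondegenerate)
    (hn : 7 ≤ Module.finrank F V) (h2 : (2 : F) = 0) {x y : V} (hx : Q x = 1) (hy : Q y = 1)
    (hxy : polar Q x y = 1) : ∃ g : SGrp Q, Kp g x y := by
  obtain ⟨g, hg⟩ := exists_rr hQ hn (x := x) (y := y) (by rw [hx]; exact one_ne_zero) (by rw [hx, hy])
  refine ⟨g, fun z => ?_⟩
  rw [hg, hx, pc Q y x, hxy]
  linear_combination (norm := module) (-polar Q z y * h2) • y + (-polar Q z x * h2) • x

omit [Finite F] [FiniteDimensional F V] in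
theorem Kp.fix {g : SGrp Q} {x y z : V} (h : Kp g x y) (hx : polar Q z x = 0)
    (hy : polar Q z y = 0) : ap g z = z := by
  rw [h z, hx, hy]; simp

omit [Finite F] [FiniteDimensional F V] in
theorem Kp.conj {g : SGrp Q} {x y : V} (h : Kp g x y) (t : SGrp Q) (z : V) :
    ap t (ap g z) = ap t z + polar Q (ap t z) (ap t y) • ap t y +
      (polar Q (ap t z) (ap t x) + polar Q (ap t z) (ap t y)) • ap t x := by
  rw [h z, ap_add, ap_add, ap_smul, ap_smul, ap_polar, ap_polar]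

omit [Finite F] [FiniteDimensional F V] in
theorem Kp.sq {g : SGrp Q} {x y : V} (h : Kp g x y) (h2 : (2 : F) = 0) (hx : Q x = 1) (hy : Q y = 1)
    (hxy : polar Q x y = 1) (z : V) :
    ap g (ap g z) = z + (polar Q z x + polar Q z y) • y + polar Q z x • x := by
  have hyx : polar Q y x = 1 := by rw [pc]; exact hxy
  have h3 : polar Q (ap g z) x = polar Q z x + polar Q z y := by
    rw [h z, pal, pal, psl, psl, pself, hx, hyx]; linear_combination (polar Q z x + polar Q z y) * h2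
  have h4 : polar Q (ap g z) y = polar Q z x := by
    rw [h z, pal, pal, psl, psl, pself, hy, hxy]; linear_combination (2 * polar Q z y) * h2
  rw [h (ap g z), h3, h4, h z]
  linear_combination (norm := module) (polar Q z x * h2) • x + (polar Q z y * h2) • x

omit [Finite F] [FiniteDimensional F V] in
theorem Kp.cube {g : SGrp Q} {x y : V} (h : Kp g x y) (h2 : (2 : F) = 0) (hx : Q x = 1) (hy : Q y = 1)
    (hxy : polar Q x y = 1) (z : V) : ap g (ap g (ap g z)) = z := by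
  have hyx : polar Q y x = 1 := by rw [pc]; exact hxy
  have h3 : polar Q (ap g z) x = polar Q z x + polar Q z y := by
    rw [h z, pal, pal, psl, psl, pself, hx, hyx]; linear_combination (polar Q z x + polar Q z y) * h2
  have h4 : polar Q (ap g z) y = polar Q z x := by
    rw [h z, pal, pal, psl, psl, pself, hy, hxy]; linear_combination (2 * polar Q z y) * h2
  rw [h.sq h2 hx hy hxy (ap g z), h3, h4, h z]
  linear_combination (norm := module) (polar Q z x * h2) • x + (polar Q z y * h2) • x +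
    (polar Q z x * h2) • y + (polar Q z y * h2) • y

omit [Finite F] [FiniteDimensional F V] in
theorem Kp.of_fix {g : SGrp Q} {x y z : V} (h : Kp g x y) (h2 : (2 : F) = 0) (hx : Q x = 1) (hy : Q y = 1)
    (hxy : polar Q x y = 1) (hz : ap g z = z) : polar Q z x = 0 ∧ polar Q z y = 0 := by
  have hyx : polar Q y x = 1 := by rw [pc]; exact hxy
  have h1 := h z
  rw [hz] at h1
  have h3 : polar Q z y • y + (polar Q z x + polar Q z y) • x = 0 := by
    linear_combination (norm := module) -h1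
  have h4 := congrArg (fun u => polar Q u x) h3
  have h5 := congrArg (fun u => polar Q u y) h3
  simp only [pal, psl, pself, hx, hy, hxy, hyx, polar_zero_left] at h4 h5
  have h6 : polar Q z y = 0 := by linear_combination h4 - (polar Q z x + polar Q z y) * h2
  exact ⟨by linear_combination h5 - h6 - polar Q z y * h2, h6⟩

/-- Adjusting a point to be fixed by an element of order three. -/
theorem fix_three (hQ : (polarBilin Q).Nondegenerate) (hψ : ψ ≠ 1)
    (hall : ∀ (v : V) (ω : Z), Q v = 0 → v ≠ 0 → Full ψ Q v ω)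
    (hone : ∀ (v : V) (ω ω' : Z), Q v = 0 → v ≠ 0 → ob Q v ω = ob Q v ω')
    (h2 : (2 : F) = 0) {v w : V} (hv : Q v = 0) (hv0 : v ≠ 0) (hvw : polar Q v w = 1) {k : SGrp Q}
    (hkv : ap k v = v) (hkw : ap k w = w) (hkk : ∀ z, ap k (ap k (ap k z)) = z) (ω : Z) :
    ∃ x, polar Q v x = 0 ∧ polar Q w x = 0 ∧ k • ee Q v x • ω = ee Q v x • ω ∧
      ∀ g : SGrp Q, (∀ z, ap g (ap k z) = ap k (ap g z)) → ap g v = v → ap g w = w → g • ω = ω →
        ap g x = x := by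
  obtain ⟨δ, hvδ, hwδ, hδ⟩ := aff_ex hone hv hv0 hvw ω (k • ω)
  have hvk : ∀ z, polar Q v (ap k z) = polar Q v z := fun z => by
    rw [← ap_polar k v z, hkv]
  have hwk : ∀ z, polar Q w (ap k z) = polar Q w z := fun z => by
    rw [← ap_polar k w z, hkw]
  have h1 : ap k (ap k δ) + (ap k δ + δ) = 0 := by
    refine aff_uniq hQ hψ hall hv hv0 hvw (ω := ω) (by rw [par, par, hvk, hvk, hvδ]; ring)
      (by rw [par, par, hwk, hwk, hwδ]; ring) (polar_zero_right Q _) (polar_zero_right Q _) ?_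
    rw [← aff_add (by rw [hvk, hvk, hvδ]) (by rw [par, hvk, hvδ, add_zero]),
      ← aff_add (by rw [hvk, hvδ]) hvδ, ← hδ, ← aff_act hkv, ← hδ, ← aff_act hkv,
      ← aff_act hkv, ← hδ, ee_zero, one_smul, ← mul_smul, ← mul_smul]
    have : k * k * k = 1 := ap_ext fun z => hkk z
    rw [this, one_smul]
  have hx : ap k (ap k δ) + δ = ap k δ := by
    linear_combination (norm := module) h1 - h2 • ap k δ
  refine ⟨ap k δ, by rw [hvk, hvδ], by rw [hwk, hwδ], ?_, ?_⟩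
  · rw [aff_act hkv, hδ, aff_add (by rw [hvk, hvk, hvδ]) hvδ, hx]
  · intro g hgk hgv hgw hgω
    rw [hgk]
    congr 1
    have hvg : ∀ z, polar Q v (ap g z) = polar Q v z := fun z => by
      rw [← ap_polar g v z, hgv]
    have hwg : ∀ z, polar Q w (ap g z) = polar Q w z := fun z => by
      rw [← ap_polar g w z, hgw]
    refine aff_uniq hQ hψ hall hv hv0 hvw (ω := ω) (by rw [hvg, hvδ]) (by rw [hwg, hwδ]) hvδ hwδ ?_
    have h4 : g • k • ω = k • ω := by
      have : g * k = k * g := ap_ext fun z => hgk z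
      rw [← mul_smul, this, mul_smul, hgω]
    rw [hδ, aff_act hgv, hgω] at h4
    exact h4

omit [Finite F] [FiniteDimensional F V] in
/-- Product of two commuting reflections as a Siegel element. -/
theorem Rr_ee (h2 : (2 : F) = 0) {x z : V} (hx : Q x = 1) (hz : Q z = 1) (hxz : polar Q x z = 0) :
    Q (x + z) = 0 ∧ polar Q (x + z) x = 0 ∧ Rr (ee Q (x + z) x) x z 1 := by
  have h1 : Q (x + z) = 0 := by rw [qadd, hx, hz, hxz]; linear_combination h2
  have h3 : polar Q (x + z) x = 0 := by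
    rw [pal, pself, hx, pc Q z x, hxz]; linear_combination h2
  refine ⟨h1, h3, fun y => ?_⟩
  rw [ee_ap h1 h3, par, hx, inv_one]
  linear_combination (norm := module) (-(polar Q y z * h2)) • x

omit [Finite F] [FiniteDimensional F V] in
theorem Kp.mul_Rr {k s : SGrp Q} {x y z : V} (h : Kp k x y) (hs : Rr s x z 1) (h2 : (2 : F) = 0)
    (hx : Q x = 1) (hy : Q y = 1) (hxy : polar Q x y = 1) (hzx : polar Q z x = 0) (hzy : polar Q z y = 0) :
    k * s = s * (k * k) := by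
  have hyx : polar Q y x = 1 := by rw [pc]; exact hxy
  have hyz : polar Q y z = 0 := by rw [pc]; exact hzy
  have hxz : polar Q x z = 0 := by rw [pc]; exact hzx
  apply ap_ext; intro u
  rw [ap_mul, ap_mul, ap_mul, h.sq h2 hx hy hxy u, hs u]
  have e1 : ap k x = y := by
    rw [h x, pself, hx, hxy]
    linear_combination (norm := module) h2 • x + h2 • x
  have e2 : ap k z = z := h.fix hzx hzy
  have e3 : ap s y = y - x := by
    rw [hs y, hyx, hyz, inv_one]; module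
  have e4 : ap s x = x := by
    rw [hs x, pself, hx, hxz, inv_one]
    linear_combination (norm := module) -(h2 • x)
  simp only [ap_sub, ap_add, ap_smul, e1, e2, e3, e4]
  rw [h u, hs u]
  linear_combination (norm := module) (polar Q u x * h2) • x + (-(polar Q u x * h2)) • y + (polar Q u y * h2) • x

omit [Finite F] [FiniteDimensional F V] in
theorem Kp.mul_comm_of_fix {k s : SGrp Q} {x y : V} (h : Kp k x y) (hx : ap s x = x) (hy : ap s y = y) :
    k * s = s * k := by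
  apply ap_ext; intro u
  rw [ap_mul, ap_mul, h.conj s u, hx, hy, h (ap s u)]

/-- Step F over the field with two elements. -/
theorem not_all_full_two (hQ : (polarBilin Q).Nondegenerate) (hn : 7 ≤ Module.finrank F V) (hψ : ψ ≠ 1)
    (hF : ∀ c : F, c = 0 ∨ c = 1) (h2 : (2 : F) = 0) [Nonempty Z]
    (hall : ∀ (v : V) (ω : Z), Q v = 0 → v ≠ 0 → Full ψ Q v ω)
    (hone : ∀ (v : V) (ω ω' : Z), Q v = 0 → v ≠ 0 → ob Q v ω = ob Q v ω') : False := by
  obtain ⟨v, w, hv, hw, hvw, -⟩ := exists_hyp_pair hQ hn (0 : V) 0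
  have hv0 : v ≠ 0 := by
    rintro rfl
    rw [polar_zero_left] at hvw
    exact one_ne_zero hvw.symm
  have hvv : polar Q v v = 0 := by rw [pself, hv, mul_zero]
  have hwv : polar Q w v = 1 := by rw [pc]; exact hvw
  have hww : polar Q w w = 0 := by rw [pself, hw, mul_zero]
  have hS0 : (Submodule.span F {v, w}) ⊓ perp Q (Submodule.span F {v, w}) = ⊥ := by
    refine nd_two ?_
    rw [pself, pself, hv, hw, hvw]; simp
  have hd0 := finrank_span_pair_le (F := F) v w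
  obtain ⟨x₁, hx₁, y₁, hy₁, kx₁, ky₁, kxy₁, hS1, hd1⟩ := exists_plane_perp hQ hF h2 _ hS0 (by omega)
  obtain ⟨x₂, hx₂, y₂, hy₂, kx₂, ky₂, kxy₂, hS2, hd2⟩ := exists_plane_perp hQ hF h2 _ hS1 (by omega)
  obtain ⟨z, hz, hz0⟩ := exists_nonsing_perp hQ _ hS2 (by omega)
  have kz : Q z = 1 := (hF _).resolve_left hz0
  obtain ⟨S0, hS0d⟩ : ∃ S0, S0 = Submodule.span F {v, w} := ⟨_, rfl⟩
  obtain ⟨S1, hS1d⟩ : ∃ S1, S1 = S0 ⊔ Submodule.span F {x₁, y₁} := ⟨_, rfl⟩
  obtain ⟨S2, hS2d⟩ : ∃ S2, S2 = S1 ⊔ Submodule.span F {x₂, y₂} := ⟨_, rfl⟩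
  rw [← hS0d] at hx₁ hy₁ hx₂ hy₂ hz hS2 hd2 hd1
  rw [← hS1d] at hx₂ hy₂ hz hS2 hd2 hd1
  rw [← hS2d] at hz hS2 hd2
  rw [← hS0d] at hd0
  have m01 : S0 ≤ S1 := by rw [hS1d]; exact le_sup_left
  have m12 : S1 ≤ S2 := by rw [hS2d]; exact le_sup_left
  have iv : v ∈ S0 := by rw [hS0d]; exact Submodule.subset_span (by simp)
  have iw : w ∈ S0 := by rw [hS0d]; exact Submodule.subset_span (by simp)
  have ix₁ : x₁ ∈ S1 := by rw [hS1d]; exact Submodule.mem_sup_right (Submodule.subset_span (by simp))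
  have iy₁ : y₁ ∈ S1 := by rw [hS1d]; exact Submodule.mem_sup_right (Submodule.subset_span (by simp))
  have ix₂ : x₂ ∈ S2 := by rw [hS2d]; exact Submodule.mem_sup_right (Submodule.subset_span (by simp))
  have iy₂ : y₂ ∈ S2 := by rw [hS2d]; exact Submodule.mem_sup_right (Submodule.subset_span (by simp))
  -- the orthogonality relations
  have a1 : polar Q v x₁ = 0 := hx₁ v iv
  have a2 : polar Q v y₁ = 0 := hy₁ v iv
  have a3 : polar Q w x₁ = 0 := hx₁ w iw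
  have a4 : polar Q w y₁ = 0 := hy₁ w iw
  have a5 : polar Q v x₂ = 0 := hx₂ v (m01 iv)
  have a6 : polar Q v y₂ = 0 := hy₂ v (m01 iv)
  have a7 : polar Q w x₂ = 0 := hx₂ w (m01 iw)
  have a8 : polar Q w y₂ = 0 := hy₂ w (m01 iw)
  have a9 : polar Q x₁ x₂ = 0 := hx₂ x₁ ix₁
  have a10 : polar Q x₁ y₂ = 0 := hy₂ x₁ ix₁
  have a11 : polar Q y₁ x₂ = 0 := hx₂ y₁ iy₁
  have a12 : polar Q y₁ y₂ = 0 := hy₂ y₁ iy₁
  have b9 : polar Q x₂ x₁ = 0 := by rw [pc]; exact a9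
  have b10 : polar Q y₂ x₁ = 0 := by rw [pc]; exact a10
  have b11 : polar Q x₂ y₁ = 0 := by rw [pc]; exact a11
  have b12 : polar Q y₂ y₁ = 0 := by rw [pc]; exact a12
  have kyx₁ : polar Q y₁ x₁ = 1 := by rw [pc]; exact kxy₁
  have kyx₂ : polar Q y₂ x₂ = 1 := by rw [pc]; exact kxy₂
  obtain ⟨k₁, hk₁⟩ := exists_Kp hQ hn h2 kx₁ ky₁ kxy₁
  obtain ⟨k₂, hk₂⟩ := exists_Kp hQ hn h2 kx₂ ky₂ kxy₂
  have hk₁v : ap k₁ v = v := hk₁.fix a1 a2
  have hk₁w : ap k₁ w = w := hk₁.fix a3 a4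
  have hk₂v : ap k₂ v = v := hk₂.fix a5 a6
  have hk₂w : ap k₂ w = w := hk₂.fix a7 a8
  have hkk : k₁ * k₂ = k₂ * k₁ := hk₁.mul_comm_of_fix (hk₂.fix a9 a10) (hk₂.fix a11 a12)
  obtain ⟨ω₂⟩ := ‹Nonempty Z›
  obtain ⟨p₁, hvp₁, hwp₁, hkp₁, -⟩ := fix_three hQ hψ hall hone h2 hv hv0 hvw hk₁v hk₁w
    (hk₁.cube h2 kx₁ ky₁ kxy₁) ω₂
  obtain ⟨p₂, hvp₂, hwp₂, hkp₂, hg⟩ := fix_three hQ hψ hall hone h2 hv hv0 hvw hk₂v hk₂w
    (hk₂.cube h2 kx₂ ky₂ kxy₂) (ee Q v p₁ • ω₂)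
  obtain ⟨ω₀, hω₀⟩ : ∃ ω₀, ω₀ = ee Q v p₂ • ee Q v p₁ • ω₂ := ⟨_, rfl⟩
  have hkω₂ : k₂ • ω₀ = ω₀ := by rw [hω₀]; exact hkp₂
  have hkω₁ : k₁ • ω₀ = ω₀ := by
    have := hg k₁ (fun z => by rw [← ap_mul, hkk, ap_mul]) hk₁v hk₁w hkp₁
    rw [hω₀, aff_act hk₁v, this, hkp₁]
  -- points fixed by `k₁`, `k₂`
  have hfix : ∀ (g : SGrp Q) (δ : V), polar Q v δ = 0 → polar Q w δ = 0 → g • ω₀ = ee Q v δ • ω₀ →
      k₁ • g • ω₀ = g • ω₀ → k₂ • g • ω₀ = g • ω₀ →
      polar Q δ x₁ = 0 ∧ polar Q δ y₁ = 0 ∧ polar Q δ x₂ = 0 ∧ polar Q δ y₂ = 0 := by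
    intro g δ hvδ hwδ hg h1 h2'
    have e1 : ap k₁ δ = δ := by
      refine aff_uniq hQ hψ hall hv hv0 hvw (ω := ω₀) ?_ ?_ hvδ hwδ ?_
      · rw [← hvδ]; conv_lhs => rw [← hk₁v]
        rw [ap_polar]
      · rw [← hwδ]; conv_lhs => rw [← hk₁w]
        rw [ap_polar]
      · rw [hg, aff_act hk₁v, hkω₁] at h1; exact h1
    have e2 : ap k₂ δ = δ := by
      refine aff_uniq hQ hψ hall hv hv0 hvw (ω := ω₀) ?_ ?_ hvδ hwδ ?_
      · rw [← hvδ]; conv_lhs => rw [← hk₂v]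
        rw [ap_polar]
      · rw [← hwδ]; conv_lhs => rw [← hk₂w]
        rw [ap_polar]
      · rw [hg, aff_act hk₂v, hkω₂] at h2'; exact h2'
    obtain ⟨e3, e4⟩ := hk₁.of_fix h2 kx₁ ky₁ kxy₁ e1
    obtain ⟨e5, e6⟩ := hk₂.of_fix h2 kx₂ ky₂ kxy₂ e2
    exact ⟨e3, e4, e5, e6⟩
  -- Siegel elements `Rr` do not fix points
  have hnofix : ∀ (x u y : V) (ω : Z), Q x = 1 → Q u = 1 → polar Q x u = 0 → polar Q y x = 1 →
      polar Q y u = 0 → ee Q (x + u) x • ω ≠ ω := by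
    intro x u y ω hx hu hxu hyx hyu h
    obtain ⟨e1, e2, -⟩ := Rr_ee h2 hx hu hxu
    have hne : x + u ≠ 0 := by
      intro h0
      have := congrArg (fun s => polar Q y s) h0
      simp only [par, hyx, hyu, polar_zero_right, add_zero] at this
      exact one_ne_zero this
    have h5 := span_of_fixed hQ hψ hall e1 hne e2 h
    obtain ⟨c, hc⟩ := Submodule.mem_span_singleton.1 h5
    have h6 := congrArg (fun s => polar Q y s) hc
    simp only [psr, par, hyx, hyu, add_zero, mul_one] at h6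
    rw [h6, one_smul] at hc
    have : u = 0 := by
      have h7 : x + u = x + 0 := by rw [hc, add_zero]
      exact add_left_cancel h7
    rw [this, map_zero] at hu
    exact zero_ne_one hu
  -- the swap
  obtain ⟨a, ha⟩ : ∃ a, a = x₁ + x₂ := ⟨_, rfl⟩
  obtain ⟨s, hs⟩ : ∃ s, s = y₁ + y₂ := ⟨_, rfl⟩
  have hQa : Q a = 0 := by rw [ha, qadd, kx₁, kx₂, a9]; linear_combination h2
  have hQs : Q s = 0 := by rw [hs, qadd, ky₁, ky₂, a12]; linear_combination h2
  have has : polar Q a s = 0 := by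
    rw [ha, hs, pal, par, par, kxy₁, kxy₂, a10, b11]; linear_combination h2
  have ht : ∀ y, ap (ee Q a s) y = y + (polar Q y y₁ + polar Q y y₂) • a - (polar Q y x₁ + polar Q y x₂) • s := by
    intro y
    have e1 : polar Q y s = polar Q y y₁ + polar Q y y₂ := by rw [hs, par]
    have e2 : polar Q y a = polar Q y x₁ + polar Q y x₂ := by rw [ha, par]
    rw [ee_ap hQa has, e1, e2, hQs]
    module
  have ht1 : ap (ee Q a s) x₁ = x₂ := by
    rw [ht, kxy₁, a10, pself, kx₁, a9, ha]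
    linear_combination (norm := module) h2 • x₁ - h2 • s
  have ht2 : ap (ee Q a s) x₂ = x₁ := by
    rw [ht, kxy₂, b11, pself, kx₂, b9, ha]
    linear_combination (norm := module) h2 • x₂ - h2 • s
  have ht3 : ap (ee Q a s) y₁ = y₂ := by
    rw [ht, pself, ky₁, a12, kyx₁, a11, hs]
    linear_combination (norm := module) h2 • a - h2 • y₂
  have ht4 : ap (ee Q a s) y₂ = y₁ := by
    rw [ht, pself, ky₂, b12, kyx₂, b10, hs]
    linear_combination (norm := module) h2 • a - h2 • y₁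
  obtain ⟨t, htd⟩ : ∃ t, t = ee Q a s := ⟨_, rfl⟩
  rw [← htd] at ht1 ht2 ht3 ht4
  have htk₂ : k₂ * t = t * k₁ := by
    apply ap_ext; intro y
    rw [ap_mul, ap_mul, hk₁.conj t y, ht1, ht3, hk₂ (ap t y)]
  have htk₁ : k₁ * t = t * k₂ := by
    apply ap_ext; intro y
    rw [ap_mul, ap_mul, hk₂.conj t y, ht2, ht4, hk₁ (ap t y)]
  have hta : ∀ y, polar Q y x₁ = 0 → polar Q y y₁ = 0 → polar Q y x₂ = 0 → polar Q y y₂ = 0 → ap t y = y := by
    intro y e1 e2 e3 e4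
    rw [htd, ht, e1, e2, e3, e4]; simp
  have htv : ap t v = v := hta v a1 a2 a5 a6
  obtain ⟨τ, hvτ, hwτ, hτ⟩ := aff_ex hone hv hv0 hvw ω₀ (t • ω₀)
  obtain ⟨hτ1, hτ2, hτ3, hτ4⟩ := hfix t τ hvτ hwτ hτ
    (by rw [← mul_smul, htk₁, mul_smul, hkω₂]) (by rw [← mul_smul, htk₂, mul_smul, hkω₁])
  -- the product of the reflections in `x₁`, `x₂`
  obtain ⟨h, hhd⟩ : ∃ h, h = ee Q (x₁ + x₂) x₁ := ⟨_, rfl⟩
  obtain ⟨-, -, hh⟩ := Rr_ee h2 kx₁ kx₂ a9
  rw [← hhd] at hh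
  have hhk₁ : k₁ * h = h * (k₁ * k₁) := hk₁.mul_Rr hh h2 kx₁ ky₁ kxy₁ b9 b11
  have hhk₂ : k₂ * h = h * (k₂ * k₂) := hk₂.mul_Rr hh.symm h2 kx₂ ky₂ kxy₂ a9 a10
  have hhv : ap h v = v := hh.fix a1 a5
  obtain ⟨ρ, hvρ, hwρ, hρ⟩ := aff_ex hone hv hv0 hvw ω₀ (h • ω₀)
  obtain ⟨hρ1, hρ2, hρ3, hρ4⟩ := hfix h ρ hvρ hwρ hρ
    (by rw [← mul_smul, hhk₁, mul_smul, mul_smul, hkω₁, hkω₁])
    (by rw [← mul_smul, hhk₂, mul_smul, mul_smul, hkω₂, hkω₂])
  have hρ0 : ρ ≠ 0 := by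
    rintro rfl
    rw [ee_zero, one_smul, hhd] at hρ
    exact hnofix x₁ x₂ y₁ ω₀ kx₁ kx₂ a9 kyx₁ a11 hρ
  -- the elements `g`
  have hgen : ∀ z : V, Q z = 1 → polar Q v z = 0 → polar Q w z = 0 → polar Q x₁ z = 0 → polar Q y₁ z = 0 →
      polar Q x₂ z = 0 → polar Q y₂ z = 0 → ρ = polar Q τ z • z ∧
      ∃ δ, polar Q v δ = 0 ∧ polar Q w δ = 0 ∧ ee Q (x₁ + z) x₁ • ω₀ = ee Q v δ • ω₀ ∧
        polar Q δ x₁ = 0 ∧ polar Q δ y₁ = 0 ∧ polar Q δ x₂ = 0 ∧ polar Q δ y₂ = 0 := by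
    intro z kz c1 c2 c3 c4 c5 c6
    have d3 : polar Q z x₁ = 0 := by rw [pc]; exact c3
    have d4 : polar Q z y₁ = 0 := by rw [pc]; exact c4
    have d5 : polar Q z x₂ = 0 := by rw [pc]; exact c5
    have d6 : polar Q z y₂ = 0 := by rw [pc]; exact c6
    obtain ⟨-, -, hgr⟩ := Rr_ee h2 kx₁ kz c3
    obtain ⟨g, hgd⟩ : ∃ g, g = ee Q (x₁ + z) x₁ := ⟨_, rfl⟩
    rw [← hgd] at hgr ⊢
    have hgk₁ : k₁ * g = g * (k₁ * k₁) := hk₁.mul_Rr hgr h2 kx₁ ky₁ kxy₁ d3 d4
    have hgk₂ : k₂ * g = g * k₂ := hk₂.mul_comm_of_fix (hgr.fix b9 c5) (hgr.fix b10 c6)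
    have hgv : ap g v = v := hgr.fix a1 c1
    have hgw : ap g w = w := hgr.fix a3 c2
    obtain ⟨δ, hvδ, hwδ, hδ⟩ := aff_ex hone hv hv0 hvw ω₀ (g • ω₀)
    obtain ⟨hδ1, hδ2, hδ3, hδ4⟩ := hfix g δ hvδ hwδ hδ
      (by rw [← mul_smul, hgk₁, mul_smul, mul_smul, hkω₁, hkω₁])
      (by rw [← mul_smul, hgk₂, mul_smul, hkω₂])
    refine ⟨?_, δ, hvδ, hwδ, hδ, hδ1, hδ2, hδ3, hδ4⟩
    have hgt : g * t = t * (h * g) := by
      apply ap_ext; intro u
      have e1 : polar Q (ap t u) x₁ = polar Q u x₂ := by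
        conv_lhs => rw [← ht2]
        rw [ap_polar]
      have htz : ap t z = z := hta z d3 d4 d5 d6
      have e2 : polar Q (ap t u) z = polar Q u z := by
        conv_lhs => rw [← htz]
        rw [ap_polar]
      have e3 : ap h z = z := hh.fix d3 d5
      have e4 : ap h x₁ = -x₁ := by
        rw [hh x₁, pself, kx₁, a9, inv_one]; module
      rw [ap_mul, ap_mul, ap_mul, hgr (ap t u), hgr u, e1, e2]
      simp only [ap_sub, ap_smul, e3, e4]
      rw [hh u]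
      simp only [ap_sub, ap_smul, ap_neg, ht1, ht2, htz, inv_one]
      module
    have hvg : ∀ y, polar Q v (ap g y) = polar Q v y := fun y => by rw [← ap_polar g v y, hgv]
    have hwg : ∀ y, polar Q w (ap g y) = polar Q w y := fun y => by rw [← ap_polar g w y, hgw]
    have h5 : g • t • ω₀ = t • h • g • ω₀ := by rw [← mul_smul, hgt, mul_smul, mul_smul]
    have hhδ : ap h δ = δ := hh.fix hδ1 hδ3
    have htδρ : ap t (δ + ρ) = δ + ρ := hta _ (by rw [pal, hδ1, hρ1, add_zero])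
      (by rw [pal, hδ2, hρ2, add_zero]) (by rw [pal, hδ3, hρ3, add_zero]) (by rw [pal, hδ4, hρ4, add_zero])
    rw [hτ, hδ, aff_act hgv, hδ, aff_add (by rw [hvg, hvτ]) hvδ, aff_act hhv, hhδ, hρ, aff_add hvδ hvρ,
      aff_act htv, htδρ, hτ, aff_add (by rw [par, hvδ, hvρ, add_zero]) hvτ] at h5
    have h6 := aff_uniq hQ hψ hall hv hv0 hvw (by rw [par, hvg, hvτ, hvδ, add_zero])
      (by rw [par, hwg, hwτ, hwδ, add_zero]) (by rw [par, par, hvδ, hvρ, hvτ]; ring)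
      (by rw [par, par, hwδ, hwρ, hwτ]; ring) h5
    rw [hgr τ, hτ1, inv_one] at h6
    linear_combination (norm := module) -h6 - (polar Q τ z * h2) • z
  -- the vector `z`
  have c1 : polar Q v z = 0 := hz v (m12 (m01 iv))
  have c2 : polar Q w z = 0 := hz w (m12 (m01 iw))
  have c3 : polar Q x₁ z = 0 := hz x₁ (m12 ix₁)
  have c4 : polar Q y₁ z = 0 := hz y₁ (m12 iy₁)
  have c5 : polar Q x₂ z = 0 := hz x₂ ix₂
  have c6 : polar Q y₂ z = 0 := hz y₂ iy₂
  obtain ⟨hρz, δ, hvδ, hwδ, hδ, hδ1, hδ2, hδ3, hδ4⟩ := hgen z kz c1 c2 c3 c4 c5 c6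
  have hτz : polar Q τ z = 1 := by
    rcases hF (polar Q τ z) with h5 | h5
    · exfalso; apply hρ0; rw [hρz, h5, zero_smul]
    · exact h5
  have hzτ : polar Q z τ = 1 := by rw [pc]; exact hτz
  -- the whole space
  have hperp : ∀ y, polar Q y v = 0 → polar Q y w = 0 → polar Q y x₁ = 0 → polar Q y y₁ = 0 →
      polar Q y x₂ = 0 → polar Q y y₂ = 0 → y ∈ perp Q S2 := by
    intro y e1 e2 e3 e4 e5 e6 u hu
    change polar Q u y = 0
    rw [pc]
    rw [hS2d, hS1d, hS0d] at hu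
    obtain ⟨u', hu', u'', hu'', rfl⟩ := Submodule.mem_sup.1 hu
    obtain ⟨u₁, hu₁, u₂, hu₂, rfl⟩ := Submodule.mem_sup.1 hu'
    obtain ⟨c₁, c₂, rfl⟩ := Submodule.mem_span_pair.1 hu''
    obtain ⟨c₃, c₄, rfl⟩ := Submodule.mem_span_pair.1 hu₁
    obtain ⟨c₅, c₆, rfl⟩ := Submodule.mem_span_pair.1 hu₂
    simp only [par, psr, e1, e2, e3, e4, e5, e6]
    ring
  have hτS : τ ∈ perp Q S2 := hperp τ (by rw [pc]; exact hvτ) (by rw [pc]; exact hwτ) hτ1 hτ2 hτ3 hτ4
  have hzz : polar Q z z = 0 := by rw [pself, kz]; linear_combination h2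
  have hττ : polar Q τ τ = 0 := by rw [pself]; linear_combination Q τ * h2
  have hS8 : (S2 ⊔ Submodule.span F {z, τ}) ⊓ perp Q (S2 ⊔ Submodule.span F {z, τ}) = ⊥ := by
    refine ext_sup hS2 (nd_two ?_) ?_
    · rw [hzz, hττ, hzτ]; simp
    · rw [Submodule.span_le]
      rintro y (rfl | rfl)
      · exact hz
      · exact hτS
  have hmz : z ∈ S2 ⊔ Submodule.span F {z, τ} := Submodule.mem_sup_right (Submodule.subset_span (by simp))
  have hmτ : τ ∈ S2 ⊔ Submodule.span F {z, τ} := Submodule.mem_sup_right (Submodule.subset_span (by simp))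
  have hm2 : S2 ≤ S2 ⊔ Submodule.span F {z, τ} := le_sup_left
  obtain ⟨S8, hS8d⟩ : ∃ S8, S8 = S2 ⊔ Submodule.span F {z, τ} := ⟨_, rfl⟩
  rw [← hS8d] at hS8 hmz hmτ hm2
  have htop : S8 = ⊤ := by
    by_contra hne
    have hlt : Module.finrank F S8 < Module.finrank F V := Submodule.finrank_lt hne
    obtain ⟨z', hz', hz'0⟩ := exists_nonsing_perp hQ S8 hS8 hlt
    have kz' : Q z' = 1 := (hF _).resolve_left hz'0
    obtain ⟨h5, -⟩ := hgen z' kz' (hz' v (hm2 (m12 (m01 iv)))) (hz' w (hm2 (m12 (m01 iw))))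
      (hz' x₁ (hm2 (m12 ix₁))) (hz' y₁ (hm2 (m12 iy₁))) (hz' x₂ (hm2 ix₂)) (hz' y₂ (hm2 iy₂))
    apply hρ0
    have h6 : polar Q τ z' = 0 := hz' τ hmτ
    rw [h5, h6, zero_smul]
  -- the element `g`
  obtain ⟨-, -, hgr⟩ := Rr_ee h2 kx₁ kz c3
  have hgg : ee Q (x₁ + z) x₁ * ee Q (x₁ + z) x₁ = 1 := by
    obtain ⟨-, e2, -⟩ := Rr_ee h2 kx₁ kz c3
    rw [← ee_add e2 e2]
    have : x₁ + x₁ = 0 := by linear_combination (norm := module) h2 • x₁
    rw [this, ee_zero]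
  obtain ⟨g, hgd⟩ : ∃ g, g = ee Q (x₁ + z) x₁ := ⟨_, rfl⟩
  have hnog : ∀ ω : Z, g • ω ≠ ω := fun ω => by
    rw [hgd]; exact hnofix x₁ z y₁ ω kx₁ kz c3 kyx₁ c4
  rw [← hgd] at hgr hgg hδ
  have hgv : ap g v = v := hgr.fix a1 c1
  have hgw : ap g w = w := hgr.fix a3 c2
  have hvg : ∀ y, polar Q v (ap g y) = polar Q v y := fun y => by rw [← ap_polar g v y, hgv]
  have hwg : ∀ y, polar Q w (ap g y) = polar Q w y := fun y => by rw [← ap_polar g w y, hgw]
  have h7 : ap g δ + δ = 0 := by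
    refine aff_uniq hQ hψ hall hv hv0 hvw (ω := ω₀) (by rw [par, hvg, hvδ, add_zero])
      (by rw [par, hwg, hwδ, add_zero]) (polar_zero_right Q _) (polar_zero_right Q _) ?_
    rw [← aff_add (by rw [hvg, hvδ]) hvδ, ← hδ, ← aff_act hgv, ← hδ, ee_zero, one_smul, ← mul_smul, hgg,
      one_smul]
  have hδz : polar Q δ z = 0 := by
    rw [hgr δ, hδ1, inv_one] at h7
    have h8 : polar Q δ z • z = 0 := by linear_combination (norm := module) -h7 + h2 • δ
    rcases hF (polar Q δ z) with h9 | h9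
    · exact h9
    · exfalso
      rw [h9, one_smul] at h8
      apply hz0
      rw [h8, map_zero]
  have hδ' : δ - polar Q δ τ • z = 0 := by
    have h9 : δ - polar Q δ τ • z ∈ perp Q S8 := by
      intro u hu
      change polar Q u (δ - polar Q δ τ • z) = 0
      rw [pc]
      rw [hS8d] at hu
      obtain ⟨u', hu', u'', hu'', rfl⟩ := Submodule.mem_sup.1 hu
      obtain ⟨c₁, c₂, rfl⟩ := Submodule.mem_span_pair.1 hu''
      have h10 : polar Q u' δ = 0 := hperp δ (by rw [pc]; exact hvδ) (by rw [pc]; exact hwδ) hδ1 hδ2 hδ3 hδ4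
        u' hu'
      have h11 : polar Q u' z = 0 := hz u' hu'
      rw [pdl, psl, par, par, par, par, psr, psr, psr, psr, pc Q δ u', h10, hδz, pc Q z u', h11, hzz, hzτ]
      ring
    have h10 : δ - polar Q δ τ • z ∈ S8 ⊓ perp Q S8 := ⟨by rw [htop]; exact Submodule.mem_top, h9⟩
    rw [hS8] at h10
    simpa using h10
  obtain ⟨c, hc⟩ : ∃ c, c = polar Q δ τ := ⟨_, rfl⟩
  rw [← hc] at hδ'
  have hδc : δ = c • z := sub_eq_zero.1 hδ'
  apply hnog (ee Q v (c • τ) • ω₀)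
  rw [aff_act hgv, hδ, aff_add (by rw [hvg, psr, hvτ, mul_zero]) hvδ, hδc, ap_smul, hgr τ, hτ1, hτz, inv_one]
  congr 2
  module

end Two

end Cfsg.Agent.Mdx.Ort
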