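import Cfsg.Agent.Mdx.OMain

/-!
Refined bounds for the number of dual fixators containing a non-singular vector (two or three field
elements).
-/

set_option autoImplicit false

namespace Cfsg.Agent.Mdx.Ort

open QuadraticMap Cfsg.Agent.Orth Cfsg.Agent.OMax Finset

variable {F V : Type*} [Field F] [AddCommGroup V] [Module F V] {Q : QuadraticForm F V}

variable {Z : Type*} [MulAction (SGrp Q) Z] {ψ : AddChar F ℂ}

section Gen

variable [Fintype F] [FiniteDimensional F V] [Finite Z]

theorem card_SY_le (hQ : (polarBilin Q).Nondegenerate) (hn : 7 ≤ Module.finrank F V) {v x y : V}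
    (hv : Q v = 0) (hv0 : v ≠ 0) (hx : polar Q v x = 0) (hy : polar Q v y = 0) (hy0 : Q y ≠ 0)
    (hxy : Q x = Q y) : Nat.card (SY Z ψ Q v y) ≤ Nat.card (SY Z ψ Q v x) := by
  have : Finite V := Module.finite_of_finite F
  have hns : ∀ u : V, Q u ≠ 0 → u ∉ Submodule.span F {v} := by
    intro u hu h
    obtain ⟨c, rfl⟩ := Submodule.mem_span_singleton.1 h
    rw [qsmul, hv, mul_zero] at hu
    exact hu rfl
  obtain ⟨g, hg1, hg2⟩ := exists_ap_pair hQ hn (u := v) (u' := y) (w := v) (w' := x)
    ((li_pair_iff hv0).2 (hns y hy0)) ((li_pair_iff hv0).2 (hns x (by rw [hxy]; exact hy0)))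
    (by rw [hx, hy]) rfl hxy.symm
  have hmap : ∀ ω : Z, AddSubgroup.map (apE g).toAddMonoidHom (TD (Q := Q) ψ v ω) = TD (Q := Q) ψ v (g • ω) := by
    intro ω
    ext u
    rw [AddSubgroup.mem_map]
    constructor
    · rintro ⟨u', hu', rfl⟩
      exact (TD_ap hg1 ω).2 hu'
    · intro hu
      refine ⟨ap g⁻¹ u, ?_, ap_ap_inv g u⟩
      rw [← ap_ap_inv g u] at hu
      exact (TD_ap hg1 ω).1 hu
  refine Nat.card_le_card_of_injective (fun T : SY Z ψ Q v y =>
    (⟨AddSubgroup.map (apE g).toAddMonoidHom T.1, ?_⟩ : SY Z ψ Q v x)) ?_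
  · obtain ⟨T, ⟨ω, rfl⟩, hyT, z, hz, hzs⟩ := T
    refine ⟨⟨g • ω, hmap ω⟩, ⟨y, hyT, hg2⟩, ap g z, ⟨z, hz, rfl⟩, ?_⟩
    intro h
    apply hzs
    obtain ⟨α, β, hαβ⟩ := Submodule.mem_span_pair.1 h
    have : z = α • v + β • y := by
      apply ap_inj g
      rw [ap_add, ap_smul, ap_smul, hg1, hg2, hαβ]
    rw [this]
    exact Submodule.mem_span_pair.2 ⟨α, β, rfl⟩
  · intro T T' h
    have h1 := congrArg Subtype.val h
    apply Subtype.ext
    exact AddSubgroup.map_injective (apE g).injective h1

open Classical in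
theorem SY_refined [Fintype V] (hQ : (polarBilin Q).Nondegenerate) (hn : 7 ≤ Module.finrank F V) (hψ : ψ ≠ 1)
    {v y : V} (hv : Q v = 0) (hv0 : v ≠ 0) (hy : polar Q v y = 0) (hy0 : Q y ≠ 0) {α β : ℕ}
    (hα : ∀ (T : AddSubgroup V) (y' : V), y' ∈ T → Q y' = Q y →
      α * (univ.filter fun x : V => x ∈ T ∧ Q x = Q y).card ≤ β * (univ.filter fun x : V => x ∈ T).card) :
    α * (Nat.card (SY Z ψ Q v y) * (univ.filter fun x : V => polar Q v x = 0 ∧ Q x = Q y).card) ≤
      β * (Fintype.card F * Nat.card Z) := by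
  have := Fintype.ofFinite (Ob Z Q v)
  obtain ⟨TT, hTT⟩ : ∃ TT : Finset (AddSubgroup V), ∀ T, T ∈ TT ↔ ∃ ω : Z, T = TD (Q := Q) ψ v ω :=
    ⟨univ.filter fun T => ∃ ω : Z, T = TD (Q := Q) ψ v ω, fun T => by simp⟩
  obtain ⟨X, hX⟩ : ∃ X : Finset V, X = univ.filter fun x : V => polar Q v x = 0 ∧ Q x = Q y := ⟨_, rfl⟩
  rw [← hX]
  have hXm : ∀ x, x ∈ X ↔ polar Q v x = 0 ∧ Q x = Q y := fun x => by rw [hX]; simp
  -- first inequality
  have h1 : Nat.card (SY Z ψ Q v y) * X.card ≤ ∑ x ∈ X, Nat.card (SY Z ψ Q v x) := by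
    rw [mul_comm, ← smul_eq_mul, ← Finset.sum_const]
    refine Finset.sum_le_sum fun x hx => ?_
    exact card_SY_le hQ hn hv hv0 ((hXm x).1 hx).1 hy hy0 ((hXm x).1 hx).2
  have h2 : ∀ x ∈ X, Nat.card (SY Z ψ Q v x) = ∑ T ∈ TT, if T ∈ SY Z ψ Q v x then 1 else 0 := by
    intro x _
    rw [← Finset.card_filter]
    refine Nat.subtype_card _ fun T => ?_
    rw [Finset.mem_filter]
    exact ⟨fun h => h.2, fun h => ⟨(hTT T).2 h.1, h⟩⟩
  rw [Finset.sum_congr rfl h2, Finset.sum_comm] at h1
  have h3 : ∀ T ∈ TT, α * (∑ x ∈ X, if T ∈ SY Z ψ Q v x then 1 else 0) ≤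
      β * (univ.filter fun x : V => x ∈ T).card := by
    intro T _
    rw [← Finset.card_filter]
    have h4 : (X.filter fun x => T ∈ SY Z ψ Q v x).card ≤ (univ.filter fun x : V => x ∈ T ∧ Q x = Q y).card := by
      apply Finset.card_le_card
      intro x hx
      rw [Finset.mem_filter] at hx ⊢
      exact ⟨Finset.mem_univ _, hx.2.2.1, ((hXm x).1 hx.1).2⟩
    refine (Nat.mul_le_mul_left _ h4).trans ?_
    by_cases hex : ∃ y' ∈ T, Q y' = Q y
    · obtain ⟨y', hy'T, hy'⟩ := hex
      exact hα T y' hy'T hy'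
    · push Not at hex
      rw [Finset.filter_false_of_mem (fun x _ h => hex x h.1 h.2), Finset.card_empty, mul_zero]
      exact Nat.zero_le _
  have h5 := Finset.sum_le_sum h3
  rw [← Finset.mul_sum, ← Finset.mul_sum] at h5
  have h6 : ∑ T ∈ TT, (univ.filter fun x : V => x ∈ T).card ≤ Fintype.card F * Nat.card Z := by
    rw [← sum_card_TOb (Z := Z) (ψ := ψ) hQ hψ hv0]
    have hmaps : ∀ O ∈ (univ : Finset (Ob Z Q v)), TOb ψ v O ∈ TT := by
      intro O _
      obtain ⟨ω, rfl⟩ := ob_surj v O
      rw [hTT, TOb_ob]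
      exact ⟨ω, rfl⟩
    rw [← Finset.sum_fiberwise_of_maps_to hmaps]
    refine Finset.sum_le_sum fun T hT => ?_
    obtain ⟨ω, hω⟩ := (hTT T).1 hT
    have hmem : ob Q v ω ∈ univ.filter (fun O : Ob Z Q v => TOb ψ v O = T) := by
      rw [Finset.mem_filter, TOb_ob, hω]
      exact ⟨Finset.mem_univ _, rfl⟩
    refine le_trans (le_of_eq ?_) (Finset.single_le_sum (fun O _ => Nat.zero_le _) hmem)
    rw [TOb_ob, ← hω]
  calc α * (Nat.card (SY Z ψ Q v y) * X.card)
      ≤ α * ∑ T ∈ TT, ∑ x ∈ X, (if T ∈ SY Z ψ Q v x then 1 else 0) := Nat.mul_le_mul_left _ h1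
    _ ≤ β * ∑ T ∈ TT, (univ.filter fun x : V => x ∈ T).card := h5
    _ ≤ β * (Fintype.card F * Nat.card Z) := Nat.mul_le_mul_left _ h6

/-- Translation argument. -/
theorem card_translate [Fintype V] (T : AddSubgroup V) {a : V} (ha : a ∈ T) (P : V → Prop) [DecidablePred P]
    [DecidablePred (· ∈ T)] :
    (univ.filter fun x : V => x ∈ T ∧ P (x + a)).card = (univ.filter fun x : V => x ∈ T ∧ P x).card := by
  classical
  refine Finset.card_bij (fun x _ => x + a) ?_ ?_ ?_
  · intro x hx
    rw [Finset.mem_filter] at hx ⊢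
    exact ⟨Finset.mem_univ _, T.add_mem hx.2.1 ha, hx.2.2⟩
  · intro x _ y _ h
    exact add_right_cancel h
  · intro y hy
    rw [Finset.mem_filter] at hy
    refine ⟨y - a, ?_, by abel⟩
    rw [Finset.mem_filter, sub_add_cancel]
    exact ⟨Finset.mem_univ _, T.sub_mem hy.2.1 ha, hy.2.2⟩

open Classical in
/-- At most two thirds of the vectors of a subgroup have a given non-zero norm (odd characteristic). -/
theorem two_thirds [Fintype V] (h2 : (2 : F) ≠ 0) {c : F} (hc : c ≠ 0)
    (T : AddSubgroup V) (y : V) (hy : y ∈ T)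
    (hyc : Q y = c) : 3 * (univ.filter fun x : V => x ∈ T ∧ Q x = c).card ≤
      2 * (univ.filter fun x : V => x ∈ T).card := by
  have e1 := card_translate T hy (fun x => Q x = c)
  have e2 := card_translate T (T.neg_mem hy) (fun x => Q x = c)
  have h1 : ∀ P : V → Prop, (univ.filter fun x : V => x ∈ T ∧ P x).card =
      ∑ x ∈ univ.filter (fun x : V => x ∈ T), if P x then 1 else 0 := by
    intro P
    rw [← Finset.card_filter, Finset.filter_filter]
  have h4 : (univ.filter fun x : V => x ∈ T ∧ Q x = c).card + (univ.filter fun x : V => x ∈ T ∧ Q (x + y) = c).card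
      + (univ.filter fun x : V => x ∈ T ∧ Q (x + -y) = c).card ≤ 2 * (univ.filter fun x : V => x ∈ T).card := by
    rw [h1 (fun x => Q x = c), h1 (fun x => Q (x + y) = c), h1 (fun x => Q (x + -y) = c),
      ← Finset.sum_add_distrib, ← Finset.sum_add_distrib, mul_comm, ← smul_eq_mul, ← Finset.sum_const]
    refine Finset.sum_le_sum fun x _ => ?_
    by_cases g1 : Q x = c
    · by_cases g2 : Q (x + y) = c
      · by_cases g3 : Q (x + -y) = c
        · exfalso
          rw [qadd, g1, hyc] at g2
          rw [qadd, g1, QuadraticMap.map_neg, hyc, polar_neg_right] at g3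
          have : 2 * c = 0 := by linear_combination g2 + g3
          rcases mul_eq_zero.1 this with h | h
          · exact h2 h
          · exact hc h
        · rw [if_pos g1, if_pos g2, if_neg g3]
      · rw [if_pos g1, if_neg g2]
        split_ifs <;> omega
    · rw [if_neg g1]
      split_ifs <;> omega
  omega

open Classical in
/-- At most three quarters of the vectors of a subgroup are non-singular (two field elements). -/
theorem three_quarters [Fintype V] (hF : ∀ c : F, c = 0 ∨ c = 1) (h2 : (2 : F) = 0)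
    (T : AddSubgroup V) (y : V) (hy : y ∈ T)
    (hyc : Q y = 1) : 4 * (univ.filter fun x : V => x ∈ T ∧ Q x = 1).card ≤
      3 * (univ.filter fun x : V => x ∈ T).card := by
  have h1 : ∀ P : V → Prop, (univ.filter fun x : V => x ∈ T ∧ P x).card =
      ∑ x ∈ univ.filter (fun x : V => x ∈ T), if P x then 1 else 0 := by
    intro P
    rw [← Finset.card_filter, Finset.filter_filter]
  by_cases hex : ∃ a ∈ T, ∃ b ∈ T, polar Q a b = 1
  · obtain ⟨a, ha, b, hb, hab⟩ := hex
    have e1 := card_translate T ha (fun x => Q x = 1)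
    have e2 := card_translate T hb (fun x => Q x = 1)
    have e3 := card_translate T (T.add_mem ha hb) (fun x => Q x = 1)
    have h4 : (univ.filter fun x : V => x ∈ T ∧ Q x = 1).card +
        (univ.filter fun x : V => x ∈ T ∧ Q (x + a) = 1).card
        + (univ.filter fun x : V => x ∈ T ∧ Q (x + b) = 1).card +
        (univ.filter fun x : V => x ∈ T ∧ Q (x + (a + b)) = 1).card ≤ 3 * (univ.filter fun x : V => x ∈ T).card := by
      rw [h1 (fun x => Q x = 1), h1 (fun x => Q (x + a) = 1), h1 (fun x => Q (x + b) = 1),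
        h1 (fun x => Q (x + (a + b)) = 1),
        ← Finset.sum_add_distrib, ← Finset.sum_add_distrib, ← Finset.sum_add_distrib, mul_comm, ← smul_eq_mul,
        ← Finset.sum_const]
      refine Finset.sum_le_sum fun x _ => ?_
      by_cases g1 : Q x = 1
      · by_cases g2 : Q (x + a) = 1
        · by_cases g3 : Q (x + b) = 1
          · by_cases g4 : Q (x + (a + b)) = 1
            · exfalso
              rw [qadd, g1] at g2 g3 g4
              rw [qadd, par, hab] at g4
              have : (1 : F) = 0 := by linear_combination g4 - g2 - g3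
              exact one_ne_zero this
            · rw [if_pos g1, if_pos g2, if_pos g3, if_neg g4]
          · rw [if_pos g1, if_pos g2, if_neg g3]
            split_ifs <;> omega
        · rw [if_pos g1, if_neg g2]
          split_ifs <;> omega
      · rw [if_neg g1]
        split_ifs <;> omega
    omega
  · push Not at hex
    have e1 := card_translate T hy (fun x => Q x = 1)
    have h4 : (univ.filter fun x : V => x ∈ T ∧ Q x = 1).card +
        (univ.filter fun x : V => x ∈ T ∧ Q (x + y) = 1).card ≤ (univ.filter fun x : V => x ∈ T).card := by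
      rw [h1 (fun x => Q x = 1), h1 (fun x => Q (x + y) = 1), ← Finset.sum_add_distrib,
        ← mul_one (univ.filter fun x : V => x ∈ T).card, ← smul_eq_mul, ← Finset.sum_const]
      refine Finset.sum_le_sum fun x hx => ?_
      have hxT : x ∈ T := (Finset.mem_filter.1 hx).2
      by_cases g1 : Q x = 1
      · by_cases g2 : Q (x + y) = 1
        · exfalso
          have h5 := (hF (polar Q x y)).resolve_right (hex x hxT y hy)
          rw [qadd, g1, hyc, h5] at g2
          have : (1 : F) = 0 := by linear_combination g2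
          exact one_ne_zero this
        · rw [if_pos g1, if_neg g2, add_zero]
      · rw [if_neg g1]
        split_ifs <;> omega
    omega

end Gen

end Cfsg.Agent.Mdx.Ort
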