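import Cfsg.Agent.Mdx.O5

/-!
Step C: if there is a full dual fixator and few points, every dual fixator is full or trivial.
-/

set_option autoImplicit false

namespace Cfsg.Agent.Mdx.Ort

open QuadraticMap Cfsg.Agent.Orth Cfsg.Agent.OMax Finset

variable {F V : Type*} [Field F] [AddCommGroup V] [Module F V] {Q : QuadraticForm F V}

variable {Z : Type*} [MulAction (SGrp Q) Z] {ψ : AddChar F ℂ}

/-- A set of non-zero vectors stable under scalars has cardinality divisible by `q - 1`. -/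
theorem dvd_card_of_smul [Fintype F] [Finite V] (D : Set V) (h0 : (0 : V) ∉ D)
    (h : ∀ x ∈ D, ∀ c : F, c ≠ 0 → c • x ∈ D) : Fintype.card F - 1 ∣ Nat.card D := by
  classical
  let _ : MulAction Fˣ D :=
    { smul := fun c x => ⟨(c : F) • (x : V), h x x.2 c c.ne_zero⟩
      one_smul := fun x => Subtype.ext (one_smul F (x : V))
      mul_smul := fun a b x => Subtype.ext (mul_smul (a : F) (b : F) (x : V)) }
  have hcard : Nat.card Fˣ = Fintype.card F - 1 := by
    rw [Nat.card_eq_fintype_card, Fintype.card_units]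
  have h1 := Nat.card_congr (MulAction.selfEquivSigmaOrbits Fˣ D)
  have : Fintype (MulAction.orbitRel.Quotient Fˣ D) := Fintype.ofFinite _
  rw [Nat.card_sigma] at h1
  have h2 : ∀ x : D, Nat.card (MulAction.orbit Fˣ x) = Fintype.card F - 1 := by
    intro x
    rw [← hcard]
    refine (Nat.card_congr (Equiv.ofBijective (fun c : Fˣ => (⟨c • x, ⟨c, rfl⟩⟩ : MulAction.orbit Fˣ x)) ⟨?_, ?_⟩)).symm
    · intro c c' hc
      have h3 : (c : F) • (x : V) = (c' : F) • (x : V) := by
        have := congrArg (fun z : MulAction.orbit Fˣ x => ((z : D) : V)) hc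
        exact this
      have hx : (x : V) ≠ 0 := fun h' => h0 (h' ▸ x.2)
      exact Units.ext (smul_left_injective F hx h3)
    · rintro ⟨_, c, rfl⟩
      exact ⟨c, rfl⟩
  rw [h1]
  rw [Finset.sum_congr rfl (fun O _ => h2 _)]
  rw [Finset.sum_const, smul_eq_mul]
  exact dvd_mul_left _ _

theorem Full.conj {v : V} {ω : Z} (h : Full ψ Q v ω) (g : SGrp Q) : Full ψ Q (ap g v) (g • ω) := by
  intro u hu
  rw [← ap_ap_inv g u] at hu ⊢
  rw [ap_polar] at hu
  exact (TD_conj ψ g v _ ω).2 (h _ hu)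

theorem Full.smul {v : V} {ω : Z} (h : Full ψ Q v ω) {c : F} (hc : c ≠ 0) : Full ψ Q (c • v) ω := by
  intro u hu
  rw [psl] at hu
  have hu' := (mul_eq_zero.1 hu).resolve_left hc
  rw [TD_smul ψ hc]
  exact h _ (by rw [psr, hu', mul_zero])

theorem full_iff_of_ob {v : V} {ω ω' : Z} (h : ob Q v ω = ob Q v ω') :
    TD (Q := Q) ψ v ω = TD (Q := Q) ψ v ω' := by
  rw [← TOb_ob, ← TOb_ob, h]

/-- Numerical data. -/
structure Num (Q : QuadraticForm F V) [Fintype F] (Bd r P s K N₁ S : ℕ) : Prop where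
  hr : Fintype.card F = r + 1
  hP : ∀ v : V, v ≠ 0 → Nat.card {x // polar Q v x = 0} = P
  hs : ∀ v : V, Q v = 0 → v ≠ 0 → Nat.card {x // polar Q v x = 0 ∧ Q x = 0} = s
  hK : ∀ (v : V) (c : F), Q v = 0 → v ≠ 0 → c ≠ 0 →
    K ≤ Nat.card {x // polar Q v x = 0 ∧ ∃ d : F, d ≠ 0 ∧ Q x = d * d * c}
  hS : Nat.card {v : V // Q v = 0 ∧ v ≠ 0} = r * (N₁ + 1)
  h1 : Fintype.card F * Bd ≤ 2 * P
  h2 : r * (Fintype.card F * Bd) ≤ r * P + Fintype.card F * K
  h3 : Fintype.card F * Bd ≤ P + 2 * s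
  hN : r * (Fintype.card F * N₁) + Fintype.card F * Fintype.card F = r * P + Fintype.card F * s
  hB : Bd ≤ N₁ + 1

section C

variable [Fintype F] [FiniteDimensional F V] [Finite Z] {Bd r P s K N₁ S : ℕ}

variable (hQ : (polarBilin Q).Nondegenerate) (hn : 7 ≤ Module.finrank F V) (hψ : ψ ≠ 1)
  (hst : ∀ v, Q v = 0 → v ≠ 0 → Star Z ψ Q v) (hnum : Num Q Bd r P s K N₁ S)
  (hlt : Nat.card Z < Bd) (hfull : ∃ (v : V) (ω : Z), Q v = 0 ∧ v ≠ 0 ∧ Full ψ Q v ω)

include hQ hn hfull in
theorem exists_full_at {v : V} (hv : Q v = 0) (hv0 : v ≠ 0) : ∃ ω : Z, Full ψ Q v ω := by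
  obtain ⟨v', ω, hv', hv'0, h⟩ := hfull
  obtain ⟨g, hg⟩ := exists_ap_single hQ hn hv'0 hv0 (by rw [hv, hv'])
  exact ⟨g • ω, by rw [← hg]; exact h.conj g⟩

open Classical in
include hnum in
theorem card_full_TD {v : V} (hv : Q v = 0) (hv0 : v ≠ 0) (hψ : ψ ≠ 1) [Fintype V] {ω : Z} (h : Full ψ Q v ω) :
    (univ.filter fun x : V => x ∈ TD (Q := Q) ψ v ω).card = P := by
  rw [← hnum.hP v hv0, Nat.card_eq_fintype_card, Fintype.card_subtype]
  congr 1
  ext x
  simp only [mem_filter, mem_univ, true_and]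
  exact ⟨fun hx => TD_le hψ hv ω hx, h x⟩

open Classical in
include hQ hψ hnum hlt in
/-- Uniqueness of the full orbit. -/
theorem full_unique {v : V} (hv : Q v = 0) (hv0 : v ≠ 0) {ω ω' : Z} (h : Full ψ Q v ω)
    (h' : Full ψ Q v ω') : ob Q v ω = ob Q v ω' := by
  by_contra hne
  have : Finite V := Module.finite_of_finite F
  have := Fintype.ofFinite V
  have h1 : ∀ x, polar Q v x = 0 → 2 ≤ mm Z ψ Q v x := by
    intro x hx
    have hf : Function.Injective (fun i : Bool => (if i then ⟨ob Q v ω, by rw [TOb_ob]; exact h x hx⟩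
        else ⟨ob Q v ω', by rw [TOb_ob]; exact h' x hx⟩ : {O : Ob Z Q v // x ∈ TOb ψ v O})) := by
      intro i j hij
      cases i <;> cases j
      · rfl
      · exact absurd (congrArg Subtype.val hij).symm hne
      · exact absurd (congrArg Subtype.val hij) hne
      · rfl
    have := Nat.card_le_card_of_injective _ hf
    rwa [Nat.card_eq_fintype_card, Fintype.card_bool] at this
  have h2 := sum_mm (Z := Z) (ψ := ψ) hQ hψ hv0
  have h3 : ∑ x ∈ univ.filter (fun x : V => polar Q v x = 0), 2 ≤ ∑ x : V, mm Z ψ Q v x := by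
    refine le_trans (Finset.sum_le_sum fun x hx => h1 x (Finset.mem_filter.1 hx).2) ?_
    exact Finset.sum_le_sum_of_subset (Finset.filter_subset _ _)
  rw [Finset.sum_const, smul_eq_mul, h2] at h3
  have h4 : (univ.filter (fun x : V => polar Q v x = 0)).card = P := by
    rw [← hnum.hP v hv0, Nat.card_eq_fintype_card, Fintype.card_subtype]
  rw [h4] at h3
  have h5 := hnum.h1
  have h6 : Fintype.card F * Nat.card Z < Fintype.card F * Bd :=
    Nat.mul_lt_mul_of_pos_left hlt Fintype.card_pos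
  omega

include hQ hn in
theorem not_full_of_plane {v y : V} {ω : Z} (hT : ∀ u ∈ TD (Q := Q) ψ v ω, u ∈ Submodule.span F {v, y}) :
    ¬ Full ψ Q v ω := by
  intro h
  obtain ⟨e, f, -, -, -, hve, -, -, -, he⟩ := exists_hyp_pair hQ hn v y
  exact he (hT e (h e hve))

open Classical in
/-- Weighted estimate for an orbit with planar dual fixator. -/
theorem weight_plane [Fintype V] (hr : Fintype.card F = r + 1) {v y : V} (hv0 : v ≠ 0) {T : AddSubgroup V}
    (hvT : ∀ t : F, t • v ∈ T) (hT : ∀ x ∈ T, x ∈ Submodule.span F {v, y}) {X : V → Prop}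
    (hX : ∀ x, X x → x ∉ Submodule.span F {v}) :
    Fintype.card F * (univ.filter fun x : V => x ∈ T ∧ X x).card ≤
      r * (univ.filter fun x : V => x ∈ T).card := by
  obtain ⟨h1, h2⟩ := card_plane (F := F) hv0 hvT hT
  have h3 : (univ.filter fun x : V => x ∈ T ∧ X x).card ≤
      (univ.filter fun x : V => x ∈ T ∧ x ∉ Submodule.span F {v}).card := by
    apply Finset.card_le_card
    intro x hx
    rw [Finset.mem_filter] at hx ⊢
    exact ⟨hx.1, hx.2.1, hX x hx.2.2⟩
  rw [hr] at h1 h2 ⊢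
  generalize (univ.filter fun x : V => x ∈ T ∧ X x).card = a at *
  generalize (univ.filter fun x : V => x ∈ T ∧ x ∉ Submodule.span F {v}).card = b at *
  generalize (univ.filter fun x : V => x ∈ T).card = t at *
  have h4 : (r + 1) * a ≤ (r + 1) * b := Nat.mul_le_mul_left _ h3
  have h5 : (r + 1) * (b + (r + 1)) = (r + 1) * t := by rw [h2]
  nlinarith

open Classical in
include hQ hn hψ hst hnum hlt hfull in
/-- There is no orbit with a planar non-singular dual fixator. -/
theorem not_nonS {v : V} (hv : Q v = 0) (hv0 : v ≠ 0) (ω : Z) : ¬ NonS ψ Q v ω := by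
  rintro ⟨y, hyT, hy, hT⟩
  have : Finite V := Module.finite_of_finite F
  have := Fintype.ofFinite V
  have := Fintype.ofFinite (Ob Z Q v)
  have hvy := TD_le hψ hv ω hyT
  obtain ⟨ω₀, h₀⟩ := exists_full_at hQ hn hfull hv hv0
  have hne : ob Q v ω ≠ ob Q v ω₀ := by
    intro h
    apply not_full_of_plane hQ hn hT
    intro u hu
    rw [full_iff_of_ob h]
    exact h₀ u hu
  obtain ⟨X, hXdef⟩ : ∃ X : V → Prop, ∀ x, X x ↔ polar Q v x = 0 ∧ ∃ d : F, d ≠ 0 ∧ Q x = d * d * Q y :=
    ⟨_, fun _ => Iff.rfl⟩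
  have hXs : ∀ x, X x → x ∉ Submodule.span F {v} := by
    intro x hXx h
    obtain ⟨-, d, hd, hx⟩ := (hXdef x).1 hXx
    obtain ⟨c, rfl⟩ := Submodule.mem_span_singleton.1 h
    rw [qsmul, hv, mul_zero] at hx
    exact mul_ne_zero (mul_ne_zero hd hd) hy hx.symm
  have hmm : ∀ x, X x → 2 ≤ mm Z ψ Q v x := by
    intro x hx
    have hXx := hx
    obtain ⟨hvx, d, hd, hq⟩ := (hXdef x).1 hx
    have hys : y ∉ Submodule.span F {v} := hXs y ((hXdef y).2 ⟨hvy, 1, one_ne_zero, by ring⟩)
    rw [mm_class hQ hn hv hv0 hd hvy hvx hys (hXs x hXx) hq]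
    have hf : Function.Injective (fun i : Bool => (if i then ⟨ob Q v ω, by rw [TOb_ob]; exact hyT⟩
        else ⟨ob Q v ω₀, by rw [TOb_ob]; exact h₀ y hvy⟩ : {O : Ob Z Q v // y ∈ TOb ψ v O})) := by
      intro i j hij
      cases i <;> cases j
      · rfl
      · exact absurd (congrArg Subtype.val hij).symm hne
      · exact absurd (congrArg Subtype.val hij) hne
      · rfl
    have := Nat.card_le_card_of_injective _ hf
    rwa [Nat.card_eq_fintype_card, Fintype.card_bool] at this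
  have hcount := sum_mm_filter (Z := Z) (ψ := ψ) (Q := Q) v X
  have hK : K ≤ (univ.filter X).card := by
    have := hnum.hK v (Q y) hv hv0 hy
    rw [Nat.card_eq_fintype_card, Fintype.card_subtype] at this
    refine this.trans (Finset.card_le_card fun x hx => ?_)
    rw [Finset.mem_filter] at hx ⊢
    exact ⟨hx.1, (hXdef x).2 hx.2⟩
  have h2 : 2 * (univ.filter X).card ≤ ∑ x ∈ univ.filter X, mm Z ψ Q v x := by
    have : ∑ x ∈ univ.filter X, 2 ≤ ∑ x ∈ univ.filter X, mm Z ψ Q v x :=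
      Finset.sum_le_sum fun x hx => hmm x (Finset.mem_filter.1 hx).2
    rw [Finset.sum_const, smul_eq_mul] at this
    omega
  rw [hcount] at h2
  have hO₀ : (univ.filter fun x : V => x ∈ TOb ψ v (ob Q v ω₀) ∧ X x).card = (univ.filter X).card := by
    congr 1
    ext x
    simp only [mem_filter, mem_univ, true_and, TOb_ob]
    exact ⟨fun h => h.2, fun h => ⟨h₀ x ((hXdef x).1 h).1, h⟩⟩
  rw [← Finset.add_sum_erase _ _ (Finset.mem_univ (ob Q v ω₀)), hO₀] at h2
  have hO : ∀ O ∈ (univ.erase (ob Q v ω₀)),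
      Fintype.card F * (univ.filter fun x : V => x ∈ TOb ψ v O ∧ X x).card ≤
        r * (univ.filter fun x : V => x ∈ TOb ψ v O).card := by
    intro O hO
    have hOne := (Finset.mem_erase.1 hO).1
    obtain ⟨ω', rfl⟩ := ob_surj v O
    simp only [TOb_ob]
    by_cases hex : ∃ x, x ∈ TD (Q := Q) ψ v ω' ∧ X x
    · obtain ⟨x, hx, hXx⟩ := hex
      have hnf : ¬ Full ψ Q v ω' := fun h => hOne (full_unique hQ hψ hnum hlt hv hv0 h h₀)
      rcases trichotomy hQ hn hψ hv hv0 (hst v hv hv0) ω' with h | h | h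
      · exact absurd h hnf
      · exfalso
        obtain ⟨-, d, hd, hq⟩ := (hXdef x).1 hXx
        rw [h x hx] at hq
        exact mul_ne_zero (mul_ne_zero hd hd) hy hq.symm
      · obtain ⟨y', -, -, hT'⟩ := h
        exact weight_plane hnum.hr hv0 (fun t => smul_self_mem_TD v t ω') hT' hXs
    · rw [Finset.filter_false_of_mem (fun x _ h => hex ⟨x, h⟩), Finset.card_empty, mul_zero]
      exact Nat.zero_le _
  have h3 := Finset.sum_le_sum hO
  rw [← Finset.mul_sum, ← Finset.mul_sum] at h3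
  have h4 := sum_card_TOb (Z := Z) (ψ := ψ) hQ hψ hv0
  rw [← Finset.add_sum_erase _ _ (Finset.mem_univ (ob Q v ω₀)), TOb_ob,
    card_full_TD hnum hv hv0 hψ h₀] at h4
  generalize (∑ x ∈ univ.erase (ob Q v ω₀), (univ.filter fun y : V => y ∈ TOb ψ v x ∧ X y).card) = A at *
  generalize (∑ x ∈ univ.erase (ob Q v ω₀), (univ.filter fun y : V => y ∈ TOb ψ v x).card) = B at *
  generalize (univ.filter X).card = k at *
  have h5 := hnum.h2
  have h6 : r * (Fintype.card F * Nat.card Z) < r * (Fintype.card F * Bd) := by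
    refine Nat.mul_lt_mul_of_pos_left (Nat.mul_lt_mul_of_pos_left hlt Fintype.card_pos) ?_
    have h7 := hnum.hr
    have h8 : 1 < Fintype.card F := Fintype.one_lt_card
    omega
  rw [← h4] at h6
  have h7 : k ≤ A := by omega
  have h8 : Fintype.card F * K ≤ Fintype.card F * A := Nat.mul_le_mul_left _ (hK.trans h7)
  rw [mul_add] at h6
  omega

end C

end Cfsg.Agent.Mdx.Ort
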