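import Cfsg.Agent.Mdx.O11
import Cfsg.Agent.Mdx.O6

/-!
The property `Star` over the field with two elements.
-/

set_option autoImplicit false

namespace Cfsg.Agent.Mdx.Ort

open QuadraticMap Cfsg.Agent.Orth Cfsg.Agent.OMax Finset

variable {F V : Type*} [Field F] [AddCommGroup V] [Module F V] {Q : QuadraticForm F V}

variable {Z : Type*} [MulAction (SGrp Q) Z] {ψ : AddChar F ℂ}

/-- Siegel elements attached to a sum of orthogonal singular vectors. -/
theorem ee_add_left {a s y : V} (ha : Q a = 0) (hs : Q s = 0) (has : polar Q a s = 0)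
    (hay : polar Q a y = 0) (hsy : polar Q s y = 0) :
    ee Q (a + s) y = ee Q a (Q y • s) * (ee Q a y * ee Q s y) := by
  have h1 : Q (a + s) = 0 := by rw [qadd, ha, hs, has]; ring
  have h2 : polar Q (a + s) y = 0 := by rw [pal, hay, hsy, add_zero]
  have h3 : polar Q a (Q y • s) = 0 := by rw [psr, has, mul_zero]
  have hsa : polar Q s a = 0 := by rw [pc]; exact has
  have haa : polar Q a a = 0 := by rw [pself, ha, mul_zero]
  have hss : polar Q s s = 0 := by rw [pself, hs, mul_zero]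
  have hya : polar Q y a = 0 := by rw [pc]; exact hay
  have hys : polar Q y s = 0 := by rw [pc]; exact hsy
  apply ap_ext; intro x
  rw [ap_mul, ap_mul, ee_ap h1 h2, ee_ap ha h3, ee_ap ha hay, ee_ap hs hsy]
  simp only [pal, pdl, psl, psr, par, haa, hss, has, hsa, hsy, hya, hys, pself, qsmul, hs]
  module

theorem SY_smul {v y : V} {g : SGrp Q} (hgv : ap g v = v) (hgy : ap g y = y) {ω : Z}
    (h : TD (Q := Q) ψ v ω ∈ SY Z ψ Q v y) : TD (Q := Q) ψ v (g • ω) ∈ SY Z ψ Q v y := by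
  obtain ⟨-, hy, z, hz, hzs⟩ := h
  refine ⟨⟨_, rfl⟩, ?_, ap g z, (TD_ap hgv ω).2 hz, ?_⟩
  · have := (TD_ap (ψ := ψ) hgv ω).2 hy
    rwa [hgy] at this
  · intro h
    apply hzs
    obtain ⟨α, β, hαβ⟩ := Submodule.mem_span_pair.1 h
    have : z = α • v + β • y := by
      apply ap_inj g
      rw [ap_add, ap_smul, ap_smul, hgv, hgy, hαβ]
    rw [this]
    exact Submodule.mem_span_pair.2 ⟨α, β, rfl⟩

variable (Z) (ψ) in
/-- `g` fixes `v`, `y` and acts trivially on the relevant dual fixators. -/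
structure Trv (v y : V) (g : SGrp Q) : Prop where
  hv : ap g v = v
  hy : ap g y = y
  h : ∀ ω : Z, TD (Q := Q) ψ v ω ∈ SY Z ψ Q v y → TD (Q := Q) ψ v (g • ω) = TD (Q := Q) ψ v ω

theorem Trv.mul {v y : V} {g g' : SGrp Q} (h : Trv Z ψ v y g) (h' : Trv Z ψ v y g') :
    Trv Z ψ v y (g * g') := by
  refine ⟨by rw [ap_mul, h'.hv, h.hv], by rw [ap_mul, h'.hy, h.hy], fun ω hω => ?_⟩
  rw [mul_smul, h.h _ (SY_smul h'.hv h'.hy hω), h'.h ω hω]

theorem Trv.conj {v y : V} {g k : SGrp Q} (h : Trv Z ψ v y g) (hkv : ap k v = v) (hky : ap k y = y) :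
    Trv Z ψ v y (k * g * k⁻¹) := by
  have hkv' : ap k⁻¹ v = v := by
    apply ap_inj k; rw [ap_ap_inv, hkv]
  have hky' : ap k⁻¹ y = y := by
    apply ap_inj k; rw [ap_ap_inv, hky]
  refine ⟨by rw [ap_mul, ap_mul, hkv', h.hv, hkv], by rw [ap_mul, ap_mul, hky', h.hy, hky], fun ω hω => ?_⟩
  have h1 := h.h _ (SY_smul hkv' hky' hω)
  have h2 := TD_smul_eq (ψ := ψ) hkv h1
  rw [smul_inv_smul] at h2
  rw [mul_smul, mul_smul, h2]

/-- Linear independence of a singular vector, a non-singular one and another singular one. -/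
theorem li_triple {v y a : V} (hv : Q v = 0) (hv0 : v ≠ 0) (hvy : polar Q v y = 0) (hy : Q y ≠ 0) (ha : Q a = 0)
    (hav : a ∉ Submodule.span F {v}) : LinearIndependent F ![v, y, a] := by
  rw [Fintype.linearIndependent_iff]
  intro g hg
  rw [Fin.sum_univ_three] at hg
  simp only [Matrix.cons_val_zero, Matrix.cons_val_one, Matrix.cons_val] at hg
  have h2 : g 2 = 0 := by
    by_contra h
    have h3 : a ∈ Submodule.span F {v, y} := by
      refine Submodule.mem_span_pair.2 ⟨-(g 2)⁻¹ * g 0, -(g 2)⁻¹ * g 1, ?_⟩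
      have e : (g 2)⁻¹ * g 2 = 1 := inv_mul_cancel₀ h
      have h4 : (g 2)⁻¹ • (g 0 • v + g 1 • y + g 2 • a) = 0 := by rw [hg, smul_zero]
      linear_combination (norm := module) -h4 + e • a
    obtain ⟨α, rfl⟩ := span_sing hv hvy hy ha h3
    exact hav (Submodule.smul_mem _ _ (Submodule.mem_span_singleton_self v))
  rw [h2, zero_smul, add_zero] at hg
  have h1 : g 1 = 0 := by
    by_contra h
    have h5 : Q (g 1 • y) = 0 := by
      have : g 1 • y = -(g 0 • v) := by rw [eq_neg_iff_add_eq_zero, add_comm]; exact hg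
      rw [this, QuadraticMap.map_neg, qsmul, hv, mul_zero]
    rw [qsmul] at h5
    exact mul_ne_zero (mul_ne_zero h h) hy h5
  rw [h1, zero_smul, add_zero] at hg
  have h0 : g 0 = 0 := (smul_eq_zero.1 hg).resolve_right hv0
  intro i
  fin_cases i
  · exact h0
  · exact h1
  · exact h2

section Two

variable [Finite F] [FiniteDimensional F V]

/-- `Star` over the field with two elements when at most three dual fixators contain a non-singular vector. -/
theorem star_two (hQ : (polarBilin Q).Nondegenerate) (hn : 7 ≤ Module.finrank F V)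
    (hψ : ψ ≠ 1) (hF : ∀ c : F, c = 0 ∨ c = 1) (h2 : (2 : F) = 0) [hchar : CharP F 2] {v : V} (hv : Q v = 0) (hv0 : v ≠ 0)
    (h : ∀ y, polar Q v y = 0 → Q y ≠ 0 → Nat.card (SY Z ψ Q v y) ≤ 3) : Star Z ψ Q v := by
  classical
  intro y ω a z hvy hy hyT ha hva hya hz hza t
  have : Finite V := Module.finite_of_finite F
  have : Fact (Nat.Prime 2) := ⟨Nat.prime_two⟩
  have hy1 : Q y = 1 := (hF _).resolve_left hy
  have hza1 : polar Q z a = 1 := (hF _).resolve_left hza
  have hav : polar Q a v = 0 := by rw [pc]; exact hva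
  have hay : polar Q a y = 0 := by rw [pc]; exact hya
  have hyy : polar Q y y = 0 := by rw [pself]; linear_combination Q y * h2
  have haa : polar Q a a = 0 := by rw [pself, ha, mul_zero]
  suffices haT : a ∈ TD (Q := Q) ψ v ω by
    rcases hF t with rfl | rfl
    · rw [zero_smul]; exact AddSubgroup.zero_mem _
    · rw [one_smul]; exact haT
  have hω : TD (Q := Q) ψ v ω ∈ SY Z ψ Q v y :=
    ⟨⟨ω, rfl⟩, hyT, z, hz, not_mem_span_of_polar hva hya hza⟩
  have h1 := relIndex_KT_le ha hva hya hω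
  obtain ⟨k, hk⟩ := relIndex_KT_dvd (Q := Q) (ψ := ψ) 2 (y := y) hva ω
  have h3 := h y hvy hy
  by_contra haT
  have hti : ∀ b ∈ KT (Q := Q) ψ (y := y) hva ω, ∀ b' ∈ KT (Q := Q) ψ (y := y) hva ω, polar Q b b' = 0 := by
    intro b hb b' hb'
    rcases hF (polar Q b b') with h5 | h5
    · exact h5
    · exfalso
      apply haT
      have := smul_mem_of_KT ha hva hz hb hb'
      rwa [h5, hza1, mul_one, one_smul] at this
  obtain ⟨b₁, b₂, hbb, hb₁, hb₂⟩ := exists_polar_triple hQ hn a v y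
  have hidx : (KT (Q := Q) ψ (y := y) hva ω).relIndex (BB Q a v y) = 2 := by
    have hk2 : k < 2 := by
      by_contra h0
      have h4 : 2 ^ 2 ≤ 2 ^ k := Nat.pow_le_pow_right (by norm_num) (by omega)
      omega
    have hk0 : k ≠ 0 := by
      rintro rfl
      rw [pow_zero, AddSubgroup.relIndex_eq_one] at hk
      exact hbb (hti b₁ (hk hb₁) b₂ (hk hb₂))
    have : k = 1 := by omega
    rw [hk, this, pow_one]
  -- differences of elements outside `KT`
  have hdiff : ∀ b b', b ∈ BB Q a v y → b' ∈ BB Q a v y → b ∉ KT (Q := Q) ψ (y := y) hva ω →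
      b' ∉ KT (Q := Q) ψ (y := y) hva ω → b + b' ∈ KT (Q := Q) ψ (y := y) hva ω := by
    intro b b' hb hb' hbK hbK'
    have h5 := AddSubgroup.add_mem_iff_of_index_two (H := (KT (Q := Q) ψ (y := y) hva ω).addSubgroupOf (BB Q a v y))
      hidx (a := ⟨b, hb⟩) (b := ⟨b', hb'⟩)
    rw [AddSubgroup.mem_addSubgroupOf, AddSubgroup.mem_addSubgroupOf, AddSubgroup.mem_addSubgroupOf] at h5
    exact h5.2 ⟨fun h => absurd h hbK, fun h => absurd h hbK'⟩
  have hyB : y ∈ BB Q a v y := ⟨hay, hvy, hyy⟩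
  have hyK : y ∈ KT (Q := Q) ψ (y := y) hva ω := by
    by_contra hyK
    have h5 : ∀ b, b ∈ BB Q a v y → ∃ c : F, b + c • y ∈ KT (Q := Q) ψ (y := y) hva ω := by
      intro b hb
      by_cases hbK : b ∈ KT (Q := Q) ψ (y := y) hva ω
      · exact ⟨0, by rwa [zero_smul, add_zero]⟩
      · exact ⟨1, by rw [one_smul]; exact hdiff b y hb hyB hbK hyK⟩
    obtain ⟨c₁, h6⟩ := h5 b₁ hb₁
    obtain ⟨c₂, h7⟩ := h5 b₂ hb₂
    have h8 := hti _ h6 _ h7
    apply hbb
    rw [pal, par, par, psl, psl, psr, psr, hyy, pc Q b₁ y, hb₁.2.2, hb₂.2.2] at h8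
    linear_combination h8
  -- the action of `ee a y`
  have hta : Trv Z ψ v y (ee Q a y) := by
    have hgv : ∀ b, b ∈ BB Q a v y → ap (ee Q a b) v = v := fun b hb => by
      rw [ee_ap ha hb.1, hva, hb.2.1]; simp
    refine ⟨hgv y hyB, by rw [ee_ap ha hay, hya, hyy]; simp, fun ω' hω' => ?_⟩
    obtain ⟨b₀, hb₀, hb₀K⟩ : ∃ b₀ ∈ BB Q a v y, b₀ ∉ KT (Q := Q) ψ (y := y) hva ω := by
      by_contra hcon
      push Not at hcon
      exact hbb (hti b₁ (hcon b₁ hb₁) b₂ (hcon b₂ hb₂))
    have hT' : TD (Q := Q) ψ v (ee Q a b₀ • ω) ≠ TD (Q := Q) ψ v ω := fun h5 => hb₀K ⟨hb₀, h5⟩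
    have h6 : TD (Q := Q) ψ v (ee Q a y • ω) = TD (Q := Q) ψ v ω := hyK.2
    have h7 : TD (Q := Q) ψ v (ee Q a y • ee Q a b₀ • ω) = TD (Q := Q) ψ v (ee Q a b₀ • ω) := by
      rw [← mul_smul, ee_comm hay hb₀.1, mul_smul]
      exact TD_smul_eq (hgv b₀ hb₀) h6
    by_cases g1 : TD (Q := Q) ψ v ω' = TD (Q := Q) ψ v ω
    · rw [TD_smul_eq (hgv y hyB) g1, h6, g1]
    by_cases g2 : TD (Q := Q) ψ v ω' = TD (Q := Q) ψ v (ee Q a b₀ • ω)
    · rw [TD_smul_eq (hgv y hyB) g2, h7, g2]
    by_contra g3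
    have hinv : ∀ ω₁ ω₂ : Z, TD (Q := Q) ψ v (ee Q a y • ω₁) = TD (Q := Q) ψ v (ee Q a y • ω₂) →
        TD (Q := Q) ψ v ω₁ = TD (Q := Q) ψ v ω₂ := by
      intro ω₁ ω₂ h8
      have hgi : ap (ee Q a y)⁻¹ v = v := by
        apply ap_inj (ee Q a y); rw [ap_ap_inv, hgv y hyB]
      have := TD_smul_eq (ψ := ψ) hgi h8
      rwa [inv_smul_smul, inv_smul_smul] at this
    have g4 : TD (Q := Q) ψ v (ee Q a y • ω') ≠ TD (Q := Q) ψ v ω := fun h8 => by
      rw [← h6] at h8; exact g1 (hinv _ _ h8)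
    have g5 : TD (Q := Q) ψ v (ee Q a y • ω') ≠ TD (Q := Q) ψ v (ee Q a b₀ • ω) := fun h8 => by
      rw [← h7] at h8; exact g2 (hinv _ _ h8)
    have hey : ap (ee Q a y) y = y := by rw [ee_ap ha hay, hya, hyy]; simp
    have heb : ap (ee Q a b₀) y = y := by rw [ee_ap ha hb₀.1, hya, hb₀.2.2]; simp
    have hsub : (({TD (Q := Q) ψ v ω, TD (Q := Q) ψ v (ee Q a b₀ • ω), TD (Q := Q) ψ v ω',
        TD (Q := Q) ψ v (ee Q a y • ω')} : Finset (AddSubgroup V)) : Set (AddSubgroup V)) ⊆ SY Z ψ Q v y := by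
      intro T hT
      simp only [Finset.coe_insert, Finset.coe_singleton, Set.mem_insert_iff, Set.mem_singleton_iff] at hT
      rcases hT with rfl | rfl | rfl | rfl
      · exact hω
      · exact SY_smul (hgv b₀ hb₀) heb hω
      · exact hω'
      · exact SY_smul (hgv y hyB) hey hω'
    have h9 := Set.ncard_le_ncard hsub (Set.toFinite _)
    rw [Set.ncard_coe_finset, Finset.card_insert_of_notMem, Finset.card_insert_of_notMem,
      Finset.card_insert_of_notMem, Finset.card_singleton] at h9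
    · have h10 : Nat.card (SY Z ψ Q v y) = (SY Z ψ Q v y).ncard := rfl
      omega
    · rw [Finset.mem_singleton]; exact fun h => g3 h.symm
    · rw [Finset.mem_insert, Finset.mem_singleton, not_or]
      exact ⟨fun h => g2 h.symm, fun h => g5 h.symm⟩
    · rw [Finset.mem_insert, Finset.mem_insert, Finset.mem_singleton, not_or, not_or]
      exact ⟨fun h => hT' h.symm, fun h => g1 h.symm, fun h => g4 h.symm⟩
  -- all the conjugates
  have hav0 : a ∉ Submodule.span F {v} := by
    intro h5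
    obtain ⟨c, rfl⟩ := Submodule.mem_span_singleton.1 h5
    apply hza
    rw [psr, pc Q z v, TD_le hψ hv ω hz, mul_zero]
  have hconj : ∀ a', Q a' = 0 → polar Q v a' = 0 → polar Q y a' = 0 → a' ∉ Submodule.span F {v} →
      Trv Z ψ v y (ee Q a' y) := by
    intro a' ha' hva' hya' ha'v
    obtain ⟨g, hg⟩ := exists_ap_family hQ hn ![v, y, a] ![v, y, a'] (li_triple hv hv0 hvy hy ha hav0)
      (li_triple hv hv0 hvy hy ha' ha'v) (by
        intro i j
        fin_cases i <;> fin_cases j <;>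
        simp [hvy, hva, hva', hya, hya', hav, hay, pself, pc Q y v, pc Q a' v, pc Q a' y, ha, ha']) (by
        intro i
        fin_cases i <;> simp [ha, ha']) (by
        intro c hc
        refine ⟨y, by rw [hy1, (hF c).resolve_left hc], fun i => ?_⟩
        fin_cases i
        · simpa using (by rw [pc]; exact hvy : polar Q y v = 0)
        · simpa using hyy
        · simpa using hya')
    have hg0 : ap g v = v := by simpa using hg 0
    have hg1 : ap g y = y := by simpa using hg 1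
    have hg2 : ap g a = a' := by simpa using hg 2
    have h5 := hta.conj hg0 hg1
    rwa [ee_conj, hg1, hg2] at h5
  have hee2 : ∀ u : V, ee Q u y * ee Q u y = 1 := by
    intro u
    by_cases hu : polar Q u y = 0
    · rw [← ee_add hu hu]
      have : y + y = 0 := by linear_combination (norm := module) h2 • y
      rw [this, ee_zero]
    · rw [ee_of_not (fun h => hu h.2), mul_one]
  have hvK : ∀ c : F, c • v ∈ KT (Q := Q) ψ (y := y) hva ω := by
    intro c
    refine ⟨⟨by rw [psr, hav, mul_zero], by rw [psr, pself, hv, mul_zero, mul_zero],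
      by rw [psr, pc Q y v, hvy, mul_zero]⟩, ?_⟩
    rcases hF c with rfl | rfl
    · rw [zero_smul, ee_zero, one_smul]
    · rw [one_smul, ee_swap ha hv hav]
      apply full_iff_of_ob
      rw [ob_eq_iff]
      exact ⟨-a, by rw [polar_neg_right, hva, neg_zero], rfl⟩
  have hsK : ∀ s, s ∈ BB Q a v y → Q s = 0 → s ∈ KT (Q := Q) ψ (y := y) hva ω := by
    intro s hs hQs
    by_cases g1 : s ∈ Submodule.span F {v}
    · obtain ⟨c, rfl⟩ := Submodule.mem_span_singleton.1 g1
      exact hvK c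
    by_cases g2 : a + s ∈ Submodule.span F {v}
    · obtain ⟨c, hc⟩ := Submodule.mem_span_singleton.1 g2
      have haK : a ∈ KT (Q := Q) ψ (y := y) hva ω := by
        refine ⟨⟨haa, hva, hya⟩, ?_⟩
        have := ee_smul_self (Q := Q) a 1
        rw [one_smul] at this
        rw [this, one_smul]
      have h5 := AddSubgroup.sub_mem _ (hvK c) haK
      rwa [hc, add_sub_cancel_left] at h5
    have hsy : polar Q s y = 0 := by rw [pc]; exact hs.2.2
    have hqas : Q (a + s) = 0 := by rw [qadd, ha, hQs, hs.1]; ring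
    have t1 := hconj (a + s) hqas (by rw [par, hva, hs.2.1, add_zero]) (by rw [par, hya, hs.2.2, add_zero]) g2
    have t2 := hconj s hQs hs.2.1 hs.2.2 g1
    have h5 := ee_add_left ha hQs hs.1 hay hsy
    rw [hy1, one_smul] at h5
    have h6 : ee Q a s = ee Q (a + s) y * (ee Q s y * ee Q a y) := by
      rw [h5]
      have e1 : ee Q a s * (ee Q a y * ee Q s y) * (ee Q s y * ee Q a y) =
          ee Q a s * (ee Q a y * (ee Q s y * ee Q s y) * ee Q a y) := by group
      rw [e1, hee2, mul_one, hee2, mul_one]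
    have h7 := (t1.mul (t2.mul hta)).h ω hω
    rw [← h6] at h7
    exact ⟨hs, h7⟩
  have hall : ∀ b, b ∈ BB Q a v y → b ∈ KT (Q := Q) ψ (y := y) hva ω := by
    intro b hb
    rcases hF (Q b) with h5 | h5
    · exact hsK b hb h5
    · have h6 : Q (b + y) = 0 := by
        rw [qadd, h5, hy1, pc Q b y, hb.2.2]; linear_combination h2
      have h7 := hsK (b + y) (AddSubgroup.add_mem _ hb hyB) h6
      have h8 := AddSubgroup.sub_mem _ h7 hyK
      rwa [add_sub_cancel_right] at h8
  exact hbb (hti b₁ (hall b₁ hb₁) b₂ (hall b₂ hb₂))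

end Two

end Cfsg.Agent.Mdx.Ort
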