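import Cfsg.Agent.Mdx.O12
import Cfsg.Agent.Mdx.O10

/-!
The bound on the index of a proper subgroup from the numerical data, all fields.
-/

set_option autoImplicit false

namespace Cfsg.Agent.Mdx.Ort

open QuadraticMap Cfsg.Agent.Orth Cfsg.Agent.OMax Finset

variable {F V : Type*} [Field F] [AddCommGroup V] [Module F V] {Q : QuadraticForm F V}

theorem two_elements [Fintype F] (h : Fintype.card F = 2) : (∀ c : F, c = 0 ∨ c = 1) ∧ (2 : F) = 0 := by
  have h1 := Nat.cast_card_eq_zero F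
  rw [h] at h1
  have h2 : (2 : F) = 0 := by exact_mod_cast h1
  refine ⟨fun c => ?_, h2⟩
  classical
  by_contra hc
  push Not at hc
  have h3 : ({0, 1, c} : Finset F).card = 3 := by
    rw [Finset.card_insert_of_notMem, Finset.card_insert_of_notMem, Finset.card_singleton]
    · rw [Finset.mem_singleton]; exact fun h => hc.2 h.symm
    · rw [Finset.mem_insert, Finset.mem_singleton, not_or]
      exact ⟨zero_ne_one, fun h => hc.1 h.symm⟩
  have h4 := Finset.card_le_univ ({0, 1, c} : Finset F)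
  rw [h3, h] at h4
  omega

theorem three_elements [Fintype F] (h : Fintype.card F = 3) :
    (∀ c : F, c = 0 ∨ c = 1 ∨ c = -1) ∧ (3 : F) = 0 := by
  have h1 := Nat.cast_card_eq_zero F
  rw [h] at h1
  have h2 : (3 : F) = 0 := by exact_mod_cast h1
  refine ⟨fun c => ?_, h2⟩
  classical
  by_contra hc
  push Not at hc
  have h11 : (1 : F) ≠ -1 := by
    intro h
    apply one_ne_zero (α := F)
    linear_combination h2 - h
  have h3 : ({0, 1, -1, c} : Finset F).card = 4 := by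
    rw [Finset.card_insert_of_notMem, Finset.card_insert_of_notMem, Finset.card_insert_of_notMem,
      Finset.card_singleton]
    · rw [Finset.mem_singleton]; exact fun h => hc.2.2 h.symm
    · rw [Finset.mem_insert, Finset.mem_singleton, not_or]
      exact ⟨h11, fun h => hc.2.1 h.symm⟩
    · rw [Finset.mem_insert, Finset.mem_insert, Finset.mem_singleton, not_or, not_or]
      exact ⟨zero_ne_one, fun h => one_ne_zero (α := F) (neg_eq_zero.1 h.symm), fun h => hc.1 h.symm⟩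
  have h4 := Finset.card_le_univ ({0, 1, -1, c} : Finset F)
  rw [h3, h] at h4
  omega

theorem exists_sq_ne [Fintype F] (h : 4 ≤ Fintype.card F) : ∃ d : F, d ≠ 0 ∧ d * d ≠ 1 := by
  classical
  have h11 : ((Finset.univ : Finset F) \ {0, 1, -1}).Nonempty := by
    rw [← Finset.card_pos]
    have h12 := Finset.le_card_sdiff ({0, 1, -1} : Finset F) Finset.univ
    have h13 : ({0, 1, -1} : Finset F).card ≤ 3 := Finset.card_le_three
    rw [Finset.card_univ] at h12
    omega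
  obtain ⟨d, hd⟩ := h11
  simp only [Finset.mem_sdiff, Finset.mem_univ, true_and, Finset.mem_insert, Finset.mem_singleton,
    not_or] at hd
  refine ⟨d, hd.1, fun h => ?_⟩
  rcases mul_self_eq_one_iff.1 h with h | h
  · exact hd.2.1 h
  · exact hd.2.2 h

variable [Fintype F] [FiniteDimensional F V] {Bd r P s K N₁ S : ℕ}

section Z

variable {Z : Type*} [MulAction (SGrp Q) Z] {ψ : AddChar F ℂ}

theorem not_all_full_any (hQ : (polarBilin Q).Nondegenerate) (hn : 7 ≤ Module.finrank F V) (hψ : ψ ≠ 1)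
    [Nonempty Z] (hall : ∀ (v : V) (ω : Z), Q v = 0 → v ≠ 0 → Full ψ Q v ω)
    (hone : ∀ (v : V) (ω ω' : Z), Q v = 0 → v ≠ 0 → ob Q v ω = ob Q v ω') : False := by
  have h1 : 1 < Fintype.card F := Fintype.one_lt_card
  rcases lt_or_ge (Fintype.card F) 4 with h | h
  · have h2 : Fintype.card F = 2 ∨ Fintype.card F = 3 := by omega
    rcases h2 with h2 | h2
    · obtain ⟨e1, e2⟩ := two_elements h2
      exact not_all_full_two hQ hn hψ e1 e2 hall hone
    · obtain ⟨e1, e2⟩ := three_elements h2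
      exact not_all_full_three hQ hn hψ e1 e2 hall hone
  · exact not_all_full hQ hn hψ (exists_sq_ne h) hall hone

variable [Finite Z]

theorem false_of_full_any (hQ : (polarBilin Q).Nondegenerate) (hn : 7 ≤ Module.finrank F V) (hψ : ψ ≠ 1)
    (hst : ∀ v, Q v = 0 → v ≠ 0 → Star Z ψ Q v) (hnum : Num Q Bd r P s K N₁ S)
    (hlt : Nat.card Z < Bd) (hfull : ∃ (v : V) (ω : Z), Q v = 0 ∧ v ≠ 0 ∧ Full ψ Q v ω)
    [MulAction.IsPretransitive (SGrp Q) Z] (hmv : ∀ ω : Z, ∃ g : SGrp Q, g • ω ≠ ω) : False := by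
  have hne : Nonempty Z := by
    obtain ⟨v, ω, -⟩ := hfull
    exact ⟨ω⟩
  have h1 : ∀ (v : V) (ω : Z), Q v = 0 → v ≠ 0 → Full ψ Q v ω := fun v ω hv hv0 =>
    all_full hQ hn hψ hst hnum hlt hfull hmv hv hv0 ω
  exact not_all_full_any hQ hn hψ h1 (fun v ω ω' hv hv0 =>
    full_unique hQ hψ hnum hlt hv hv0 (h1 v ω hv hv0) (h1 v ω' hv hv0))

/-- Bound for the number of large dual fixators containing a vector, three elements. -/
theorem SY_bound_three (hQ : (polarBilin Q).Nondegenerate) (hn : 7 ≤ Module.finrank F V) (hψ : ψ ≠ 1)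
    (h3 : Fintype.card F = 3) {v y : V} (hv : Q v = 0) (hv0 : v ≠ 0) (hy : polar Q v y = 0) (hy0 : Q y ≠ 0)
    {k : ℕ} (hk : k ≤ Nat.card {x // polar Q v x = 0 ∧ Q x = Q y}) :
    3 * (Nat.card (SY Z ψ Q v y) * k) ≤ 2 * (Fintype.card F * Nat.card Z) := by
  classical
  have : Finite V := Module.finite_of_finite F
  have := Fintype.ofFinite V
  obtain ⟨e1, e2⟩ := three_elements h3
  have h2 : (2 : F) ≠ 0 := by
    intro h
    apply one_ne_zero (α := F)
    linear_combination e2 - h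
  rw [Nat.card_eq_fintype_card, Fintype.card_subtype] at hk
  have h4 := SY_refined (Z := Z) hQ hn hψ hv hv0 hy hy0 (α := 3) (β := 2)
    (fun T y' hy' hyy => two_thirds h2 hy0 T y' hy' hyy)
  exact (Nat.mul_le_mul_left _ (Nat.mul_le_mul_left _ hk)).trans h4

/-- Bound for the number of large dual fixators containing a vector, two elements. -/
theorem SY_bound_two (hQ : (polarBilin Q).Nondegenerate) (hn : 7 ≤ Module.finrank F V) (hψ : ψ ≠ 1)
    (h2 : Fintype.card F = 2) {v y : V} (hv : Q v = 0) (hv0 : v ≠ 0) (hy : polar Q v y = 0) (hy0 : Q y ≠ 0)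
    {k : ℕ} (hk : k ≤ Nat.card {x // polar Q v x = 0 ∧ Q x = Q y}) :
    4 * (Nat.card (SY Z ψ Q v y) * k) ≤ 3 * (Fintype.card F * Nat.card Z) := by
  classical
  have : Finite V := Module.finite_of_finite F
  have := Fintype.ofFinite V
  obtain ⟨e1, e2⟩ := two_elements h2
  have hy1 : Q y = 1 := (e1 _).resolve_left hy0
  rw [Nat.card_eq_fintype_card, Fintype.card_subtype] at hk
  have h4 := SY_refined (Z := Z) hQ hn hψ hv hv0 hy hy0 (α := 4) (β := 3)
    (fun T y' hy' hyy => by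
      rw [hy1] at hyy ⊢
      exact three_quarters e1 e2 T y' hy' hyy)
  exact (Nat.mul_le_mul_left _ (Nat.mul_le_mul_left _ hk)).trans h4

/-- The class of `Q y` when all non-zero squares are one. -/
theorem hK_one (hnum : Num Q Bd r P s K N₁ S) (hd : ∀ d : F, d ≠ 0 → d * d = 1) {v y : V} (hv : Q v = 0)
    (hv0 : v ≠ 0) (hy0 : Q y ≠ 0) : K ≤ Nat.card {x // polar Q v x = 0 ∧ Q x = Q y} := by
  refine (hnum.hK v (Q y) hv hv0 hy0).trans (le_of_eq ?_)
  refine Nat.card_congr (Equiv.subtypeEquivRight fun x => ?_)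
  constructor
  · rintro ⟨h1, d, hd0, h2⟩
    exact ⟨h1, by rw [h2, hd d hd0, one_mul]⟩
  · rintro ⟨h1, h2⟩
    exact ⟨h1, 1, one_ne_zero, by rw [h2]; ring⟩

theorem star_num_three (hQ : (polarBilin Q).Nondegenerate) (hn : 7 ≤ Module.finrank F V) (hψ : ψ ≠ 1)
    (h3 : Fintype.card F = 3) (hnum : Num Q Bd r P s K N₁ S) (hlt : Nat.card Z < Bd)
    (h9 : 2 * (Fintype.card F * Bd) ≤ 9 * K) : ∀ v, Q v = 0 → v ≠ 0 → Star Z ψ Q v := by
  intro v hv hv0
  obtain ⟨e1, e2⟩ := three_elements h3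
  have : Fact (Nat.Prime 3) := ⟨Nat.prime_three⟩
  have hchar : CharP F 3 := charP_of_card_eq_prime h3
  have hd : ∀ d : F, d ≠ 0 → d * d = 1 := by
    intro d hd
    rcases e1 d with h | h | h
    · exact absurd h hd
    · rw [h]; ring
    · rw [h]; ring
  refine star_of_lt hQ hn 3 fun y hvy hy => ?_
  have h1 := SY_bound_three (Z := Z) hQ hn hψ h3 hv hv0 hvy hy (hK_one hnum hd hv hv0 hy)
  have h2 : Fintype.card F * Nat.card Z < Fintype.card F * Bd :=
    Nat.mul_lt_mul_of_pos_left hlt Fintype.card_pos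
  by_contra hcon
  push Not at hcon
  have h4 : 3 * (3 * K) ≤ 3 * (Nat.card (SY Z ψ Q v y) * K) :=
    Nat.mul_le_mul_left _ (Nat.mul_le_mul_right _ hcon)
  omega

theorem star_num_two (hQ : (polarBilin Q).Nondegenerate) (hn : 7 ≤ Module.finrank F V) (hψ : ψ ≠ 1)
    (h2 : Fintype.card F = 2) (hnum : Num Q Bd r P s K N₁ S) (hlt : Nat.card Z < Bd)
    (h16 : 3 * (Fintype.card F * Bd) ≤ 16 * K) : ∀ v, Q v = 0 → v ≠ 0 → Star Z ψ Q v := by
  intro v hv hv0
  obtain ⟨e1, e2⟩ := two_elements h2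
  have : Fact (Nat.Prime 2) := ⟨Nat.prime_two⟩
  have hchar : CharP F 2 := charP_of_card_eq_prime h2
  have hd : ∀ d : F, d ≠ 0 → d * d = 1 := by
    intro d hd
    rw [(e1 d).resolve_left hd, one_mul]
  refine star_two hQ hn hψ e1 e2 hv hv0 fun y hvy hy => ?_
  have h1 := SY_bound_two (Z := Z) hQ hn hψ h2 hv hv0 hvy hy (hK_one hnum hd hv hv0 hy)
  have h3 : Fintype.card F * Nat.card Z < Fintype.card F * Bd :=
    Nat.mul_lt_mul_of_pos_left hlt Fintype.card_pos
  by_contra hcon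
  push Not at hcon
  have h4 : 4 * (4 * K) ≤ 4 * (Nat.card (SY Z ψ Q v y) * K) :=
    Nat.mul_le_mul_left _ (Nat.mul_le_mul_right _ hcon)
  omega

end Z

/-- The bound on the index, general form. -/
theorem le_index_gen (hQ : (polarBilin Q).Nondegenerate) (hn : 7 ≤ Module.finrank F V)
    (hnum : Num Q Bd r P s K N₁ S)
    (hst : ∀ (H : Subgroup (SGrp Q)) (ψ : AddChar F ℂ), ψ ≠ 1 → Nat.card (SGrp Q ⧸ H) < Bd →
      ∀ v, Q v = 0 → v ≠ 0 → Star (SGrp Q ⧸ H) ψ Q v)
    (hR : ∀ (H : Subgroup (SGrp Q)) (ψ : AddChar F ℂ), ψ ≠ 1 → Nat.card (SGrp Q ⧸ H) < Bd →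
      (∀ v, Q v = 0 → v ≠ 0 → Star (SGrp Q ⧸ H) ψ Q v) → (∀ ω : SGrp Q ⧸ H, ∃ g : SGrp Q, g • ω ≠ ω) →
      ∃ (v : V) (ω : SGrp Q ⧸ H), Q v = 0 ∧ v ≠ 0 ∧ Full ψ Q v ω)
    (H : Subgroup (SGrp Q)) (hH : H ≠ ⊤) : Bd ≤ H.index := by
  by_contra hcon
  push Not at hcon
  obtain ⟨ψ, hψ⟩ := exists_psi (F := F)
  have : Finite V := Module.finite_of_finite F
  have : Finite (V ≃ₗ[F] V) := Finite.of_injective (fun g => (g : V → V)) (fun g h H => by
    ext x; exact congrFun H x)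
  have : Finite (SGrp Q ⧸ H) := inferInstance
  have hlt : Nat.card (SGrp Q ⧸ H) < Bd := hcon
  have hst' := hst H ψ hψ hlt
  have hmv : ∀ ω : SGrp Q ⧸ H, ∃ g : SGrp Q, g • ω ≠ ω := by
    intro ω
    by_contra h
    push Not at h
    obtain ⟨k, rfl⟩ := QuotientGroup.mk_surjective ω
    apply hH
    rw [eq_top_iff]
    intro g _
    have h1 := h (k * g * k⁻¹)
    rw [MulAction.Quotient.smul_mk, QuotientGroup.eq] at h1
    simp only [smul_eq_mul, mul_inv_rev, inv_inv] at h1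
    have h2 : k⁻¹ * (k * g * k⁻¹ * k) ∈ H := by
      have := H.inv_mem h1
      simpa [mul_assoc] using this
    simpa [mul_assoc] using h2
  exact false_of_full_any hQ hn hψ hst' hnum hlt (hR H ψ hψ hlt hst' hmv) hmv

/-- The bound when no subspace is totally singular together with its orthogonal complement. -/
theorem le_index_W (hQ : (polarBilin Q).Nondegenerate) (hn : 7 ≤ Module.finrank F V)
    (hnum : Num Q Bd r P s K N₁ S) (p : ℕ) [hp : Fact p.Prime] [CharP F p]
    (hK : Fintype.card F * Bd ≤ p * K ∨ (Fintype.card F = 3 ∧ 2 * (Fintype.card F * Bd) ≤ 9 * K) ∨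
      (Fintype.card F = 2 ∧ 3 * (Fintype.card F * Bd) ≤ 16 * K))
    (hW : ∀ E : Submodule F V, (∀ x ∈ E, Q x = 0) → (∀ x ∈ perp Q E, Q x = 0) → False)
    (H : Subgroup (SGrp Q)) (hH : H ≠ ⊤) : Bd ≤ H.index := by
  have hfV : Finite V := Module.finite_of_finite F
  have hfL : Finite (V ≃ₗ[F] V) := Finite.of_injective (fun g => (g : V → V)) (fun g h H => by
    ext x; exact congrFun H x)
  refine le_index_gen hQ hn hnum ?_ ?_ H hH
  · intro H ψ hψ hlt
    have : Finite (SGrp Q ⧸ H) := inferInstance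
    rcases hK with h | ⟨h3, h⟩ | ⟨h2, h⟩
    · exact star_of_num hQ hn hψ hnum hlt p h
    · exact star_num_three hQ hn hψ h3 hnum hlt h
    · exact star_num_two hQ hn hψ h2 hnum hlt h
  · intro H ψ hψ hlt hst hmv
    obtain ⟨v, h⟩ := exists_full hQ hn hψ hst hW ((1 : SGrp Q) : SGrp Q ⧸ H) (hmv _)
    exact ⟨v, _, h⟩

end Cfsg.Agent.Mdx.Ort
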