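import Cfsg.Agent.Mdx.O1
import Cfsg.Agent.GeoMax.OBasic

/-!
Transitivity properties of the group generated by Siegel transformations; the multiplicity function
of a permutation representation restricted to a Siegel group.
-/

set_option autoImplicit false

namespace Cfsg.Agent.Mdx.Ort

open QuadraticMap Cfsg.Agent.Orth Cfsg.Agent.OMax

variable {F V : Type*} [Field F] [AddCommGroup V] [Module F V] {Q : QuadraticForm F V}

section Trans

variable [Finite F] [FiniteDimensional F V]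

/-- Correct an isometry by one fixing given vectors so as to lie in the commutator subgroup. -/
theorem exists_correct (hQ : (polarBilin Q).Nondegenerate) (hn : 7 ≤ Module.finrank F V)
    {ι : Type*} (w : ι → V) (hw : ∀ c : F, c ≠ 0 → ∃ z, Q z = c ∧ ∀ i, polar Q z (w i) = 0)
    (g : OGrp Q) : ∃ k : OGrp Q, (∀ i, (k : V ≃ₗ[F] V) (w i) = w i) ∧ k * g ∈ commutator (OGrp Q) := by
  have hR : RGrp Q = ⊤ := RGrp_eq_top hQ (Or.inr (by omega))
  have hg : g ∈ RGrp Q := hR ▸ Subgroup.mem_top g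
  induction hg using Subgroup.closure_induction with
  | mem x hx =>
    obtain ⟨u, hu, rfl⟩ := hx
    obtain ⟨z, hz, hzw⟩ := hw (Q u) hu
    have hz0 : Q z ≠ 0 := by rw [hz]; exact hu
    refine ⟨refl Q z hz0, fun i => ?_, ?_⟩
    · rw [refl_apply_of_ortho]
      rw [pc]; exact hzw i
    · have := reflProd_mem_commutator hQ (l := [⟨z, hz0⟩, ⟨u, hu⟩]) ⟨1, rfl⟩
        ⟨Q u, by rw [nrm_cons, nrm_cons, nrm_nil, mul_one, hz]⟩
      rwa [reflProd_cons, reflProd_cons, reflProd_nil, mul_one] at this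
  | one => exact ⟨1, fun i => rfl, by rw [one_mul]; exact Subgroup.one_mem _⟩
  | mul a b _ _ ha hb =>
    obtain ⟨k, hk, hka⟩ := ha
    obtain ⟨k', hk', hkb⟩ := hb
    refine ⟨k * k', fun i => by rw [coe_mul_apply, hk', hk], ?_⟩
    rw [mem_commutator_iff_of_eq_one] at hka hkb ⊢
    rw [map_mul] at hka hkb
    rw [map_mul, map_mul, map_mul, mul_mul_mul_comm, hka, hkb, one_mul]
  | inv a _ ha =>
    obtain ⟨k, hk, hka⟩ := ha
    refine ⟨k⁻¹, fun i => ?_, ?_⟩
    · conv_lhs => rw [← hk i]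
      exact coe_inv_apply_self k (w i)
    · rw [mem_commutator_iff_of_eq_one] at hka ⊢
      rw [map_mul] at hka
      rw [map_mul, map_inv, map_inv, ← mul_inv, hka, inv_one]

/-- Witt's theorem inside the group generated by Siegel transformations. -/
theorem exists_ap_family (hQ : (polarBilin Q).Nondegenerate) (hn : 7 ≤ Module.finrank F V)
    {k : ℕ} (u w : Fin k → V) (hu : LinearIndependent F u) (hw : LinearIndependent F w)
    (hp : ∀ i j, polar Q (u i) (u j) = polar Q (w i) (w j)) (hq : ∀ i, Q (u i) = Q (w i))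
    (hz : ∀ c : F, c ≠ 0 → ∃ z, Q z = c ∧ ∀ i, polar Q z (w i) = 0) :
    ∃ g : SGrp Q, ∀ i, ap g (u i) = w i := by
  obtain ⟨g, hg⟩ := witt_family hQ k u w hu hw hp hq
  obtain ⟨h, hh, hc⟩ := exists_correct hQ hn w hz g
  refine ⟨⟨h * g, by rw [SGrp_eq_comm hQ hn]; exact hc⟩, fun i => ?_⟩
  change ((h * g : OGrp Q) : V ≃ₗ[F] V) (u i) = w i
  rw [coe_mul_apply, hg, hh]

theorem exists_ap_pair (hQ : (polarBilin Q).Nondegenerate) (hn : 7 ≤ Module.finrank F V)
    {u u' w w' : V} (hu : LinearIndependent F ![u, u']) (hw : LinearIndependent F ![w, w'])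
    (hp : polar Q u u' = polar Q w w') (hq : Q u = Q w) (hq' : Q u' = Q w') :
    ∃ g : SGrp Q, ap g u = w ∧ ap g u' = w' := by
  obtain ⟨g, hg⟩ := exists_ap_family hQ hn ![u, u'] ![w, w'] hu hw (by
    intro i j
    fin_cases i <;> fin_cases j
    · simp [pself, hq]
    · simpa using hp
    · simp only [Fin.mk_one, Matrix.cons_val_one, Matrix.cons_val_fin_one, Fin.zero_eta,
        Matrix.cons_val_zero]
      rw [pc, hp, pc]
    · simp [pself, hq']) (by
    intro i
    fin_cases i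
    · simpa using hq
    · simpa using hq') (by
    intro c _
    obtain ⟨z, hz, hzw⟩ := Cfsg.Agent.GeoMax.Ort.repV hQ [w, w'] (by simpa using hn) 0 c
    refine ⟨z, hz, fun i => ?_⟩
    fin_cases i
    · have := hzw w (by simp)
      rw [polar_zero_left] at this
      simpa using this
    · have := hzw w' (by simp)
      rw [polar_zero_left] at this
      simpa using this)
  exact ⟨g, by simpa using hg 0, by simpa using hg 1⟩

theorem exists_ap_single (hQ : (polarBilin Q).Nondegenerate) (hn : 7 ≤ Module.finrank F V)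
    {u w : V} (hu : u ≠ 0) (hw : w ≠ 0) (h : Q u = Q w) : ∃ g : SGrp Q, ap g u = w := by
  obtain ⟨g, hg, h1⟩ := SGrp_trans hQ hn hu hw h
  exact ⟨⟨g, hg⟩, h1⟩

end Trans

omit [Field F] [Module F V] in
theorem li_pair_iff [Field F] [Module F V] {v x : V} (hv : v ≠ 0) :
    LinearIndependent F ![v, x] ↔ x ∉ Submodule.span F {v} := by
  rw [LinearIndependent.pair_iff' hv]
  constructor
  · intro h hx
    obtain ⟨c, hc⟩ := Submodule.mem_span_singleton.1 hx
    exact h c hc
  · intro h c hc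
    exact h (Submodule.mem_span_singleton.2 ⟨c, hc⟩)

/-! ### The action of a Siegel group and its multiplicities -/

section Act

variable {Z : Type*} [MulAction (SGrp Q) Z]

/-- The vectors orthogonal to `v`. -/
def PV (Q : QuadraticForm F V) (v : V) : AddSubgroup V := (perp Q (Submodule.span F {v})).toAddSubgroup

theorem mem_PV {v x : V} : x ∈ PV Q v ↔ polar Q v x = 0 := by
  constructor
  · intro h; exact h v (Submodule.mem_span_singleton_self v)
  · intro h u hu
    obtain ⟨c, rfl⟩ := Submodule.mem_span_singleton.1 hu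
    change polar Q (c • v) x = 0
    rw [psl, h, mul_zero]

variable (Z) in
/-- The action of `v^⊥` through Siegel elements. -/
@[reducible] noncomputable def actP (v : V) : AddAction (PV Q v) Z :=
  mkAct (PV Q v) (fun b ω => ee Q v b • ω) (fun ω => by rw [ee_zero, one_smul])
    (fun b hb b' hb' ω => by rw [ee_add (mem_PV.1 hb) (mem_PV.1 hb'), mul_smul])

theorem actP_vadd (v : V) (b : PV Q v) (ω : Z) :
    (actP Z v).toVAdd.vadd b ω = ee Q v (b : V) • ω := rfl

theorem stA_eq (v : V) (ω : Z) : @stA V _ (PV Q v) Z (actP Z v) ω = AA (Q := Q) v ω := by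
  ext b
  rw [@mem_stA V _ (PV Q v) Z (actP Z v), mem_AA]
  constructor
  · rintro ⟨hb, h⟩; exact ⟨mem_PV.1 hb, h⟩
  · rintro ⟨hb, h⟩; exact ⟨mem_PV.2 hb, h⟩

variable (ψ : AddChar F ℂ)

theorem TT_eq (v : V) (ω : Z) :
    @TT F V _ _ _ ψ (polarBilin Q) (PV Q v) Z (actP Z v) ω = TD (Q := Q) ψ v ω := by
  unfold TT TD
  rw [stA_eq]

variable (Z) in
/-- The orbits of the Siegel group. -/
noncomputable def Ob (Q : QuadraticForm F V) [MulAction (SGrp Q) Z] (v : V) : Type _ :=
  @AddAction.orbitRel.Quotient (PV Q v) Z _ (actP Z v)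

instance [Finite Z] (v : V) : Finite (Ob Z Q v) := by
  unfold Ob; infer_instance

/-- Orbit of a point. -/
noncomputable def ob (Q : QuadraticForm F V) [MulAction (SGrp Q) Z] (v : V) (ω : Z) : Ob Z Q v :=
  @Quotient.mk'' Z (@AddAction.orbitRel (PV Q v) Z _ (actP Z v)) ω

theorem ob_surj (v : V) (O : Ob Z Q v) : ∃ ω : Z, ob Q v ω = O := by
  obtain ⟨ω, h⟩ := Quotient.exists_rep O
  exact ⟨ω, h⟩

theorem ob_eq_iff (v : V) (ω ω' : Z) :
    ob Q v ω = ob Q v ω' ↔ ∃ b, polar Q v b = 0 ∧ ee Q v b • ω' = ω := by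
  have h1 : ob Q v ω = ob Q v ω' ↔ (@AddAction.orbitRel (PV Q v) Z _ (actP Z v)).r ω ω' :=
    Quotient.eq''
  rw [h1]
  constructor
  · rintro ⟨b, hb⟩
    exact ⟨b, mem_PV.1 b.2, hb⟩
  · rintro ⟨b, hb, h⟩
    exact ⟨⟨b, mem_PV.2 hb⟩, h⟩

/-- Dual fixator of an orbit. -/
noncomputable def TOb (v : V) (O : Ob Z Q v) : AddSubgroup V :=
  @TO F V _ _ _ ψ (polarBilin Q) (PV Q v) Z (actP Z v) O

theorem TOb_ob (v : V) (ω : Z) : TOb ψ v (ob Q v ω) = TD (Q := Q) ψ v ω := by
  rw [← TT_eq]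
  exact @TO_mk F V _ _ _ (PV Q v) Z (actP Z v) ψ (polarBilin Q) ω

variable (Z) in
/-- Multiplicity of `x` in the permutation representation restricted to the Siegel group of `v`. -/
noncomputable def mm (Q : QuadraticForm F V) [MulAction (SGrp Q) Z] (v x : V) : ℕ :=
  Nat.card {O : Ob Z Q v // x ∈ TOb ψ v O}

theorem mm_eq (v x : V) :
    mm Z ψ Q v x = @mu F V _ _ _ ψ (polarBilin Q) (PV Q v) Z (actP Z v) x := rfl

variable {ψ}

theorem mm_pos [Finite Z] {v x : V} {ω : Z} (h : x ∈ TD (Q := Q) ψ v ω) : 1 ≤ mm Z ψ Q v x := by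
  have : Nonempty {O : Ob Z Q v // x ∈ TOb ψ v O} := ⟨⟨ob Q v ω, by rw [TOb_ob]; exact h⟩⟩
  exact Nat.card_pos

section Fin

variable [Fintype F] [Fintype V] [FiniteDimensional F V]

theorem card_PV (hQ : (polarBilin Q).Nondegenerate) {v : V} (hv : v ≠ 0) :
    Fintype.card F * Nat.card (PV Q v) = Nat.card V := by
  have h1 := finrank_perp hQ (Submodule.span F {v})
  rw [finrank_span_singleton hv] at h1
  have h2 : Nat.card (PV Q v) = Fintype.card F ^ Module.finrank F (perp Q (Submodule.span F {v})) := by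
    have := Module.natCard_eq_pow_finrank (K := F) (V := perp Q (Submodule.span F {v}))
    rw [Nat.card_eq_fintype_card (α := F)] at this
    exact this
  have h3 := Module.natCard_eq_pow_finrank (K := F) (V := V)
  rw [Nat.card_eq_fintype_card (α := F)] at h3
  rw [h2, h3, ← h1, pow_succ, mul_comm]

theorem sum_mm [Finite Z] (hQ : (polarBilin Q).Nondegenerate) (hψ : ψ ≠ 1) {v : V} (hv : v ≠ 0) :
    ∑ x : V, mm Z ψ Q v x = Fintype.card F * Nat.card Z := by
  have h1 := @sum_mu F V _ _ _ (PV Q v) Z (actP Z v) ψ (polarBilin Q) _ _ _ _ hψ (nd_of hQ)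
  have h2 := card_PV (Q := Q) hQ hv
  have h3 : 0 < Nat.card (PV Q v) := Nat.card_pos
  rw [← h2, mul_comm (Fintype.card F), mul_assoc] at h1
  exact Nat.eq_of_mul_eq_mul_left h3 h1

theorem card_TOb_mul [Finite Z] (hQ : (polarBilin Q).Nondegenerate) (hψ : ψ ≠ 1) {v : V} (hv : v ≠ 0)
    (ω : Z) : Nat.card (TD (Q := Q) ψ v ω) =
      Fintype.card F * Nat.card {ω' : Z // ob Q v ω' = ob Q v ω} := by
  have h1 := @card_TT_mul F V _ _ _ (PV Q v) Z (actP Z v) ψ (polarBilin Q) _ _ _ hψ (nd_of hQ) ω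
  rw [TT_eq, ← card_PV (Q := Q) hQ hv, mul_comm (Fintype.card F), mul_assoc] at h1
  have h3 : 0 < Nat.card (PV Q v) := Nat.card_pos
  rw [Nat.eq_of_mul_eq_mul_left h3 h1]
  congr 1
  refine Nat.card_congr (Equiv.subtypeEquivRight fun ω' => ?_)
  rw [ob_eq_iff]
  constructor
  · rintro ⟨b, hb⟩
    exact ⟨b, mem_PV.1 b.2, hb⟩
  · rintro ⟨b, hb, h⟩
    exact ⟨⟨b, mem_PV.2 hb⟩, h⟩

end Fin

/-- Invariance of the multiplicities. -/
theorem mm_inv [Finite F] [Finite V] [Finite Z] {v : V} {c : F} (hc : c ≠ 0) (g : SGrp Q) (hg : ap g v = c • v) (x : V) :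
    mm Z ψ Q v (c⁻¹ • ap g x) = mm Z ψ Q v x := by
  let β : V ≃ V :=
    { toFun := fun x => c⁻¹ • ap g x
      invFun := fun x => c • ap g⁻¹ x
      left_inv := fun x => by
        change c • ap g⁻¹ (c⁻¹ • ap g x) = x
        rw [ap_smul, ap_inv_ap, smul_smul, mul_inv_cancel₀ hc, one_smul]
      right_inv := fun x => by
        change c⁻¹ • ap g (c • ap g⁻¹ x) = x
        rw [ap_smul, ap_ap_inv, smul_smul, inv_mul_cancel₀ hc, one_smul] }
  refine @mu_congr F V _ _ _ (PV Q v) Z (actP Z v) ψ (polarBilin Q) _ _ _ (MulAction.toPerm g) β ?_ ?_ x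
  · intro y y'
    have key : ∀ b : V, g • ee Q v b • y = ee Q v (c • ap g b) • g • y := by
      intro b
      rw [← ee_smul_left hc, ← hg, ← ee_conj, smul_smul, smul_smul, inv_mul_cancel_right]
    have hgi : ap g⁻¹ v = c⁻¹ • v := by
      apply ap_inj g
      rw [ap_ap_inv, ap_smul, hg, smul_smul, inv_mul_cancel₀ hc, one_smul]
    constructor
    · rintro ⟨b, hb⟩
      have hb' : ee Q v (b : V) • y = y' := hb
      refine ⟨⟨c • ap g (b : V), mem_PV.2 ?_⟩, ?_⟩
      · rw [psr]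
        have h1 : polar Q (ap g v) (ap g (b : V)) = 0 := by rw [ap_polar]; exact mem_PV.1 b.2
        rw [hg, psl] at h1
        exact h1
      · change ee Q v (c • ap g (b : V)) • g • y = g • y'
        rw [← key, hb']
    · rintro ⟨b, hb⟩
      have hb' : ee Q v (b : V) • g • y = g • y' := hb
      refine ⟨⟨c⁻¹ • ap g⁻¹ (b : V), mem_PV.2 ?_⟩, ?_⟩
      · rw [psr]
        have h1 : polar Q (ap g⁻¹ v) (ap g⁻¹ (b : V)) = 0 := by rw [ap_polar]; exact mem_PV.1 b.2
        rw [hgi, psl] at h1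
        exact h1
      · change ee Q v (c⁻¹ • ap g⁻¹ (b : V)) • y = y'
        apply smul_left_cancel g
        rw [key, ap_smul, ap_ap_inv, smul_smul c c⁻¹ (b : V), mul_inv_cancel₀ hc, one_smul, hb']
  · intro y x
    rw [TT_eq, TT_eq]
    change _ ↔ c⁻¹ • ap g x ∈ TD (Q := Q) ψ v (g • y)
    rw [← TD_smul ψ hc, ← hg, TD_conj]

theorem mm_add_smul (v x : V) (t : F) : mm Z ψ Q v (x + t • v) = mm Z ψ Q v x := by
  unfold mm
  refine Nat.card_congr (Equiv.subtypeEquivRight fun O => ?_)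
  obtain ⟨ω, rfl⟩ := ob_surj v O
  rw [TOb_ob]
  constructor
  · intro h
    have := AddSubgroup.sub_mem _ h (smul_self_mem_TD (Q := Q) (ψ := ψ) v t ω)
    rwa [add_sub_cancel_right] at this
  · intro h
    exact AddSubgroup.add_mem _ h (smul_self_mem_TD v t ω)

/-- The multiplicity depends only on the square class of the norm. -/
theorem mm_class [Finite F] [FiniteDimensional F V] [Finite V] [Finite Z]
    (hQ : (polarBilin Q).Nondegenerate) (hn : 7 ≤ Module.finrank F V) {v x x' : V} {d : F}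
    (hv : Q v = 0) (hv0 : v ≠ 0) (hd : d ≠ 0) (hx : polar Q v x = 0) (hx' : polar Q v x' = 0)
    (hxs : x ∉ Submodule.span F {v}) (hxs' : x' ∉ Submodule.span F {v})
    (hq : Q x' = d * d * Q x) : mm Z ψ Q v x' = mm Z ψ Q v x := by
  have hd' : d⁻¹ ≠ 0 := inv_ne_zero hd
  have hcv : d⁻¹ • v ≠ 0 := smul_ne_zero hd' hv0
  obtain ⟨g, hg1, hg2⟩ := exists_ap_pair hQ hn (u := v) (u' := x) (w := d⁻¹ • v) (w' := d⁻¹ • x')
    ((li_pair_iff hv0).2 hxs) ((li_pair_iff hcv).2 (by
      intro h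
      apply hxs'
      obtain ⟨c, hc⟩ := Submodule.mem_span_singleton.1 h
      rw [Submodule.mem_span_singleton]
      refine ⟨c, ?_⟩
      have := congrArg (fun z => d • z) hc
      simp only [smul_smul] at this
      rwa [mul_inv_cancel₀ hd, one_smul, mul_left_comm, mul_inv_cancel₀ hd, mul_one] at this))
    (by rw [psl, psr, hx, hx', mul_zero, mul_zero]) (by rw [qsmul, hv, mul_zero])
    (by rw [qsmul, hq]; field_simp)
  have := mm_inv (Z := Z) (ψ := ψ) hd' g hg1 x
  rw [hg2, smul_smul, inv_inv, mul_inv_cancel₀ hd, one_smul] at this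
  exact this

end Act

end Cfsg.Agent.Mdx.Ort
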