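import Cfsg.Agent.Mdx.O2

/-!
If the dual fixator contains a non-singular vector `y` and is not contained in `⟨v, y⟩` then it is
all of `v^⊥`.
-/

set_option autoImplicit false

namespace Cfsg.Agent.Mdx.Ort

open QuadraticMap Cfsg.Agent.Orth Cfsg.Agent.OMax

variable {F V : Type*} [Field F] [AddCommGroup V] [Module F V] {Q : QuadraticForm F V}

section Geo

variable [Finite F] [FiniteDimensional F V]

/-- Hyperbolic pair orthogonal to a subspace, off that subspace. -/
theorem exists_hyp_perp (hQ : (polarBilin Q).Nondegenerate) (X : Submodule F V)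
    (hX : Module.finrank F X + Module.finrank F ↥(X ⊓ perp Q X) + 3 ≤ Module.finrank F V) :
    ∃ e ∈ perp Q X, ∃ f ∈ perp Q X, Q e = 0 ∧ Q f = 0 ∧ polar Q e f = 1 ∧ e ∉ X := by
  have hP := finrank_perp hQ X
  obtain ⟨C, hC⟩ := Submodule.exists_isCompl (X ⊓ perp Q X)
  have hCfin := Submodule.finrank_add_eq_of_isCompl hC
  have hPC : 3 ≤ Module.finrank F ↥(perp Q X ⊓ C) := by
    have h1 := Submodule.finrank_sup_add_finrank_inf_eq (perp Q X) C
    have h2 := Submodule.finrank_le (perp Q X ⊔ C)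
    omega
  obtain ⟨e, he, he0, heq⟩ := Cfsg.Agent.GeoMax.Ort.exists_sing_mem Q _ hPC
  have heX : e ∉ X := by
    intro h
    apply he0
    have := hC.disjoint
    rw [Submodule.disjoint_def] at this
    exact this _ ⟨h, he.1⟩ he.2
  obtain ⟨b, hb, hbe⟩ := exists_ortho_not hQ X heX
  have hbX : b ∈ perp Q X := by
    intro u hu
    change polar Q u b = 0
    rw [pc]; exact hb u hu
  refine ⟨e, he.1, b - Q b • e, Submodule.sub_mem _ hbX (Submodule.smul_mem _ _ he.1), heq, ?_, ?_, heX⟩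
  · rw [qsub, qsmul, psr, heq, hbe]; ring
  · rw [pdr, psr, pself, heq, pc, hbe]; ring

theorem finrank_span_pair_le (v y : V) : Module.finrank F (Submodule.span F {v, y}) ≤ 2 := by
  have e : Submodule.span F {v, y} = (F ∙ v) ⊔ (F ∙ y) := by rw [Submodule.span_insert]
  rw [e]
  refine (Submodule.finrank_add_le_finrank_add_finrank _ _).trans ?_
  have h1 : Module.finrank F (F ∙ v) ≤ 1 := finrank_span_one_le _
  have h2 : Module.finrank F (F ∙ y) ≤ 1 := finrank_span_one_le _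
  omega

theorem finrank_span_triple_le (v y z : V) : Module.finrank F (Submodule.span F {v, y, z}) ≤ 3 := by
  have e : Submodule.span F {v, y, z} = (F ∙ v) ⊔ Submodule.span F {y, z} := by rw [Submodule.span_insert]
  rw [e]
  refine (Submodule.finrank_add_le_finrank_add_finrank _ _).trans ?_
  have h1 : Module.finrank F (F ∙ v) ≤ 1 := finrank_span_one_le _
  have h2 := finrank_span_pair_le (F := F) y z
  omega

omit [Finite F] [FiniteDimensional F V] in
theorem mem_perp_pair {v y x : V} : x ∈ perp Q (Submodule.span F {v, y}) ↔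
    polar Q v x = 0 ∧ polar Q y x = 0 := by
  constructor
  · intro h
    exact ⟨h v (Submodule.subset_span (by simp)), h y (Submodule.subset_span (by simp))⟩
  · rintro ⟨h1, h2⟩ u hu
    obtain ⟨a, b, rfl⟩ := Submodule.mem_span_pair.1 hu
    change polar Q _ x = 0
    rw [pal, psl, psl, h1, h2]; ring

omit [Finite F] [FiniteDimensional F V] in
theorem mem_perp_triple {v y z x : V} : x ∈ perp Q (Submodule.span F {v, y, z}) ↔
    polar Q v x = 0 ∧ polar Q y x = 0 ∧ polar Q z x = 0 := by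
  constructor
  · intro h
    exact ⟨h v (Submodule.subset_span (by simp)), h y (Submodule.subset_span (by simp)),
      h z (Submodule.subset_span (by simp))⟩
  · rintro ⟨h1, h2, h3⟩ u hu
    obtain ⟨a, b, c, rfl⟩ := Submodule.mem_span_triple.1 hu
    change polar Q _ x = 0
    rw [pal, pal, psl, psl, psl, h1, h2, h3]; ring

/-- A hyperbolic pair orthogonal to two vectors. -/
theorem exists_hyp_pair (hQ : (polarBilin Q).Nondegenerate) (hn : 7 ≤ Module.finrank F V) (v y : V) :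
    ∃ e f : V, Q e = 0 ∧ Q f = 0 ∧ polar Q e f = 1 ∧ polar Q v e = 0 ∧ polar Q y e = 0 ∧
      polar Q v f = 0 ∧ polar Q y f = 0 ∧ e ∉ Submodule.span F {v, y} := by
  have h2 := finrank_span_pair_le (F := F) v y
  have h3 : Module.finrank F ↥(Submodule.span F {v, y} ⊓ perp Q (Submodule.span F {v, y})) ≤
      Module.finrank F (Submodule.span F {v, y}) := Submodule.finrank_mono inf_le_left
  obtain ⟨e, he, f, hf, h4, h5, h6, h7⟩ := exists_hyp_perp hQ (Submodule.span F {v, y}) (by omega)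
  rw [mem_perp_pair] at he hf
  exact ⟨e, f, h4, h5, h6, he.1, he.2, hf.1, hf.2, h7⟩

/-- A singular vector orthogonal to `v, y` and not to `w`. -/
theorem exists_sing_perp_pair (hQ : (polarBilin Q).Nondegenerate) (hn : 7 ≤ Module.finrank F V)
    {v y w : V} (hw : w ∉ Submodule.span F {v, y}) :
    ∃ a, Q a = 0 ∧ polar Q v a = 0 ∧ polar Q y a = 0 ∧ polar Q w a ≠ 0 := by
  obtain ⟨e, f, he, hf, hef, hve, hye, hvf, hyf, -⟩ := exists_hyp_pair hQ hn v y
  obtain ⟨b, hb, hbw⟩ := exists_ortho_not hQ _ hw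
  obtain ⟨a, ha, haq, haw⟩ := exists_sing_not_ortho (U := perp Q (Submodule.span F {v, y}))
    (mem_perp_pair.2 ⟨hve, hye⟩) (mem_perp_pair.2 ⟨hvf, hyf⟩) he hf hef (u := b) (w := w)
    (by
      intro u hu
      change polar Q u b = 0
      rw [pc]; exact hb u hu) (by rw [hbw]; exact one_ne_zero)
  rw [mem_perp_pair] at ha
  exact ⟨a, haq, ha.1, ha.2, by rw [pc]; exact haw⟩

/-- Non-orthogonal vectors orthogonal to three given vectors. -/
theorem exists_polar_triple (hQ : (polarBilin Q).Nondegenerate) (hn : 7 ≤ Module.finrank F V)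
    (u v w : V) : ∃ b b', polar Q b b' ≠ 0 ∧ (polar Q u b = 0 ∧ polar Q v b = 0 ∧ polar Q w b = 0) ∧
      (polar Q u b' = 0 ∧ polar Q v b' = 0 ∧ polar Q w b' = 0) := by
  by_contra hcon
  push Not at hcon
  have h1 : perp Q (Submodule.span F {u, v, w}) ≤ perp Q (perp Q (Submodule.span F {u, v, w})) := by
    intro b hb b' hb'
    change polar Q b' b = 0
    rw [mem_perp_triple] at hb hb'
    by_contra h
    exact hcon b' b h hb' hb.1 hb.2.1 hb.2.2
  rw [perp_perp hQ] at h1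
  have h2 := Submodule.finrank_mono h1
  have h3 := finrank_perp hQ (Submodule.span F {u, v, w})
  have h4 := finrank_span_triple_le (F := F) u v w
  omega

/-- A non-singular vector orthogonal to three given vectors. -/
theorem exists_nonsing_triple (hQ : (polarBilin Q).Nondegenerate) (hn : 7 ≤ Module.finrank F V)
    (u v w : V) : ∃ b, Q b ≠ 0 ∧ polar Q u b = 0 ∧ polar Q v b = 0 ∧ polar Q w b = 0 := by
  obtain ⟨b, b', h, hb, hb'⟩ := exists_polar_triple hQ hn u v w
  by_cases h1 : Q b = 0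
  · by_cases h2 : Q b' = 0
    · refine ⟨b + b', ?_, ?_, ?_, ?_⟩
      · rw [qadd, h1, h2, zero_add, zero_add]; exact h
      · rw [par, hb.1, hb'.1, add_zero]
      · rw [par, hb.2.1, hb'.2.1, add_zero]
      · rw [par, hb.2.2, hb'.2.2, add_zero]
    · exact ⟨b', h2, hb'⟩
  · exact ⟨b, h1, hb⟩

end Geo

section Star

variable {Z : Type*} [MulAction (SGrp Q) Z] (ψ : AddChar F ℂ)

variable (Z) in
/-- The key property used to identify dual fixators. -/
def Star (Q : QuadraticForm F V) [MulAction (SGrp Q) Z] (v : V) : Prop :=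
  ∀ (y : V) (ω : Z) (a z : V), polar Q v y = 0 → Q y ≠ 0 → y ∈ TD (Q := Q) ψ v ω → Q a = 0 →
    polar Q v a = 0 → polar Q y a = 0 → z ∈ TD (Q := Q) ψ v ω → polar Q z a ≠ 0 →
    ∀ t : F, t • a ∈ TD (Q := Q) ψ v ω

variable {ψ}

variable [Finite F] [FiniteDimensional F V]

omit [Finite F] [FiniteDimensional F V] in
theorem span_sing {v y a : V} (hv : Q v = 0) (hvy : polar Q v y = 0) (hy : Q y ≠ 0) (ha : Q a = 0)
    (haX : a ∈ Submodule.span F {v, y}) : ∃ α : F, a = α • v := by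
  obtain ⟨α, β, rfl⟩ := Submodule.mem_span_pair.1 haX
  refine ⟨α, ?_⟩
  rw [qadd, qsmul, qsmul, psl, psr, hvy, hv] at ha
  have h1 : β * β * Q y = 0 := by linear_combination ha
  have h2 : β = 0 := by
    have := (mul_eq_zero.1 h1).resolve_right hy
    exact mul_self_eq_zero.1 this
  rw [h2, zero_smul, add_zero]

theorem perp_le_of_star (hQ : (polarBilin Q).Nondegenerate) (hn : 7 ≤ Module.finrank F V) (hψ : ψ ≠ 1)
    {v : V} (hv : Q v = 0) (hst : Star Z ψ Q v) {ω : Z} {y z : V} (hvy : polar Q v y = 0) (hy : Q y ≠ 0)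
    (hyT : y ∈ TD (Q := Q) ψ v ω) (hz : z ∈ TD (Q := Q) ψ v ω) (hzs : z ∉ Submodule.span F {v, y}) :
    ∀ u, polar Q v u = 0 → polar Q y u = 0 → u ∈ TD (Q := Q) ψ v ω := by
  obtain ⟨a₁, ha₁, hva₁, hya₁, hza₁⟩ := exists_sing_perp_pair hQ hn hzs
  have h1 := hst y ω a₁ z hvy hy hyT ha₁ hva₁ hya₁ hz hza₁
  have ha₁T : a₁ ∈ TD (Q := Q) ψ v ω := by simpa using h1 1
  have ha₁X : a₁ ∉ Submodule.span F {v, y} := by
    intro h
    obtain ⟨α, rfl⟩ := span_sing hv hvy hy ha₁ h
    apply hza₁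
    rw [psr, pc, TD_le hψ hv ω hz, mul_zero]
  -- separation inside `{v, y}^⊥`
  have hsep : ∀ a, a ∉ Submodule.span F {v, y} → ∃ p ∈ perp Q (Submodule.span F {v, y}), polar Q a p ≠ 0 := by
    intro a ha
    obtain ⟨b, hb, hba⟩ := exists_ortho_not hQ _ ha
    refine ⟨b, ?_, by rw [pc, hba]; exact one_ne_zero⟩
    intro u hu
    change polar Q u b = 0
    rw [pc]; exact hb u hu
  -- all singular vectors
  have h2 : ∀ a, Q a = 0 → polar Q v a = 0 → polar Q y a = 0 → ∀ t : F, t • a ∈ TD (Q := Q) ψ v ω := by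
    intro a ha hva hya
    by_cases haX : a ∈ Submodule.span F {v, y}
    · obtain ⟨α, rfl⟩ := span_sing hv hvy hy ha haX
      intro t
      rw [smul_smul]
      exact smul_self_mem_TD v _ ω
    by_cases h3 : polar Q a₁ a = 0
    · obtain ⟨p, hp, hp1, hp2⟩ := Cfsg.Agent.GeoMax.Ort.exists_polar_ne_two (hsep a haX) (hsep a₁ ha₁X)
      rw [mem_perp_pair] at hp
      have hap : polar Q a p ≠ 0 := hp1
      have haa : polar Q a a = 0 := by rw [pself, ha, mul_zero]
      obtain ⟨a₂, ha₂⟩ : ∃ a₂, a₂ = p + (-(Q p / polar Q a p)) • a := ⟨_, rfl⟩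
      have h4 : Q a₂ = 0 := by
        rw [ha₂, qadd, qsmul, ha, psr, pc Q p a]
        field_simp; ring
      have h5 : polar Q v a₂ = 0 := by rw [ha₂, par, psr, hp.1, hva]; ring
      have h6 : polar Q y a₂ = 0 := by rw [ha₂, par, psr, hp.2, hya]; ring
      have h7 : polar Q a₁ a₂ ≠ 0 := by
        rw [ha₂, par, psr, h3, mul_zero, add_zero]; exact hp2
      have h8 : polar Q a₂ a ≠ 0 := by
        rw [ha₂, pal, psl, haa, mul_zero, add_zero, pc]; exact hap
      have h9 := hst y ω a₂ a₁ hvy hy hyT h4 h5 h6 ha₁T h7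
      have h10 : a₂ ∈ TD (Q := Q) ψ v ω := by simpa using h9 1
      exact hst y ω a a₂ hvy hy hyT ha hva hya h10 h8
    · exact hst y ω a a₁ hvy hy hyT ha hva hya ha₁T h3
  intro u hvu hyu
  obtain ⟨e, f, he, hf, hef, hve, hye, hvf, hyf, -⟩ := exists_hyp_pair hQ hn v y
  have hfe : polar Q f e = 1 := by rw [pc, hef]
  have hee : polar Q e e = 0 := by rw [pself, he, mul_zero]
  have hff : polar Q f f = 0 := by rw [pself, hf, mul_zero]
  obtain ⟨u₀, hu₀⟩ : ∃ u₀, u₀ = u - polar Q u f • e - polar Q u e • f := ⟨_, rfl⟩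
  have h3 : polar Q u₀ e = 0 := by rw [hu₀, pdl, pdl, psl, psl, hee, hfe]; ring
  have h4 : polar Q u₀ f = 0 := by rw [hu₀, pdl, pdl, psl, psl, hff, hef]; ring
  have h5 : polar Q v u₀ = 0 := by rw [hu₀, pdr, pdr, psr, psr, hvu, hve, hvf]; ring
  have h6 : polar Q y u₀ = 0 := by rw [hu₀, pdr, pdr, psr, psr, hyu, hye, hyf]; ring
  have h7 : Q (u₀ - Q u₀ • e + f) = 0 := by
    rw [qadd, qsub, qsmul, pdl, psl, psr, he, hf, h3, h4, hef]; ring
  have h8 := h2 _ h7 (by rw [par, pdr, psr, h5, hve, hvf]; ring) (by rw [par, pdr, psr, h6, hye, hyf]; ring) 1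
  have h9 := h2 e he hve hye (Q u₀ + polar Q u f)
  have h10 := h2 f hf hvf hyf (polar Q u e - 1)
  have h11 : u = (1 : F) • (u₀ - Q u₀ • e + f) + (Q u₀ + polar Q u f) • e + (polar Q u e - 1) • f := by
    rw [hu₀]; module
  rw [h11]
  exact AddSubgroup.add_mem _ (AddSubgroup.add_mem _ h8 h9) h10

/-- Step A. -/
theorem full_of_star (hQ : (polarBilin Q).Nondegenerate) (hn : 7 ≤ Module.finrank F V) (hψ : ψ ≠ 1)
    {v : V} (hv : Q v = 0) (hv0 : v ≠ 0) (hst : Star Z ψ Q v) {ω : Z} {y z : V} (hvy : polar Q v y = 0)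
    (hy : Q y ≠ 0)
    (hyT : y ∈ TD (Q := Q) ψ v ω) (hz : z ∈ TD (Q := Q) ψ v ω) (hzs : z ∉ Submodule.span F {v, y}) :
    ∀ u, polar Q v u = 0 → u ∈ TD (Q := Q) ψ v ω := by
  have h1 := perp_le_of_star hQ hn hψ hv hst hvy hy hyT hz hzs
  obtain ⟨e, f, he, hf, hef, hve, hye, hvf, hyf, heX⟩ := exists_hyp_pair hQ hn v y
  have heT := h1 e hve hye
  have hy' : Q (y + e) ≠ 0 := by rw [qadd, he, hye, add_zero, add_zero]; exact hy
  have hvy' : polar Q v (y + e) = 0 := by rw [par, hvy, hve, add_zero]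
  have hyT' : y + e ∈ TD (Q := Q) ψ v ω := AddSubgroup.add_mem _ hyT heT
  have heX' : e ∉ Submodule.span F {v, y + e} := by
    intro h
    obtain ⟨α, hα⟩ := span_sing hv hvy' hy' he h
    apply heX
    rw [hα]
    exact Submodule.smul_mem _ _ (Submodule.subset_span (by simp))
  have h2 := perp_le_of_star hQ hn hψ hv hst hvy' hy' hyT' heT heX'
  have hyv : y ∉ Submodule.span F {v} := by
    intro h
    obtain ⟨c, rfl⟩ := Submodule.mem_span_singleton.1 h
    apply hy
    rw [qsmul, hv, mul_zero]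
  obtain ⟨w₀, hw₀, hw₀y⟩ := exists_ortho_not hQ _ hyv
  have hvw₀ : polar Q v w₀ = 0 := by rw [pc]; exact hw₀ v (Submodule.mem_span_singleton_self v)
  obtain ⟨w₂, hw₂⟩ : ∃ w₂, w₂ = w₀ - polar Q w₀ (y + e) • f := ⟨_, rfl⟩
  have hfe : polar Q f e = 1 := by rw [pc, hef]
  have h3 : polar Q v w₂ = 0 := by rw [hw₂, pdr, psr, hvw₀, hvf]; ring
  have h4 : polar Q (y + e) w₂ = 0 := by
    rw [hw₂, pdr, psr, pc Q (y + e) w₀, pal Q y e f, hyf, hef]; ring
  have h5 : polar Q y w₂ = 1 := by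
    rw [hw₂, pdr, psr, hyf, pc Q y w₀, hw₀y]; ring
  intro u hvu
  have h6 := h1 (u - polar Q y u • w₂) (by rw [pdr, psr, hvu, h3]; ring) (by rw [pdr, psr, h5]; ring)
  have h7 := h2 (polar Q y u • w₂) (by rw [psr, h3, mul_zero]) (by rw [psr, h4, mul_zero])
  have h8 := AddSubgroup.add_mem _ h6 h7
  rwa [sub_add_cancel] at h8

end Star

/-! ### The property `Star` from bounds on the multiplicities -/

section Bound

variable {Z : Type*} [MulAction (SGrp Q) Z] {ψ : AddChar F ℂ}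

theorem TD_ap {v : V} {g : SGrp Q} (hg : ap g v = v) (ω : Z) {x : V} :
    ap g x ∈ TD (Q := Q) ψ v (g • ω) ↔ x ∈ TD (Q := Q) ψ v ω := by
  conv_lhs => rw [← hg]
  rw [hg]
  have := TD_conj (Q := Q) ψ g v x ω
  rwa [hg] at this

theorem TD_smul_eq {v : V} {g : SGrp Q} (hg : ap g v = v) {ω ω' : Z}
    (h : TD (Q := Q) ψ v ω = TD (Q := Q) ψ v ω') :
    TD (Q := Q) ψ v (g • ω) = TD (Q := Q) ψ v (g • ω') := by
  ext x
  rw [← ap_ap_inv g x, TD_ap hg, TD_ap hg, h]

/-- The vectors `b` orthogonal to `a, v, y` whose Siegel element with `a` fixes the dual fixator. -/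
noncomputable def KT (ψ : AddChar F ℂ) {v y a : V} (hva : polar Q v a = 0)
    (ω : Z) : AddSubgroup V where
  carrier := {b | (polar Q a b = 0 ∧ polar Q v b = 0 ∧ polar Q y b = 0) ∧
    TD (Q := Q) ψ v (ee Q a b • ω) = TD (Q := Q) ψ v ω}
  zero_mem' := ⟨⟨polar_zero_right Q _, polar_zero_right Q _, polar_zero_right Q _⟩, by rw [ee_zero, one_smul]⟩
  add_mem' := by
    rintro b b' ⟨h1, h2⟩ ⟨h1', h2'⟩
    refine ⟨⟨by rw [par, h1.1, h1'.1, add_zero], by rw [par, h1.2.1, h1'.2.1, add_zero],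
      by rw [par, h1.2.2, h1'.2.2, add_zero]⟩, ?_⟩
    rw [ee_add h1.1 h1'.1, mul_smul]
    have hg : ap (ee Q a b) v = v := by
      by_cases ha : Q a = 0
      · rw [ee_ap ha h1.1, hva, h1.2.1]; simp
      · rw [ee_of_not (fun h => ha h.1), ap_one]
    rw [TD_smul_eq hg h2', h2]
  neg_mem' := by
    rintro b ⟨h1, h2⟩
    refine ⟨⟨by rw [polar_neg_right, h1.1, neg_zero], by rw [polar_neg_right, h1.2.1, neg_zero],
      by rw [polar_neg_right, h1.2.2, neg_zero]⟩, ?_⟩
    have hg : ap (ee Q a (-b)) v = v := by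
      by_cases ha : Q a = 0
      · rw [ee_ap ha (by rw [polar_neg_right, h1.1, neg_zero]), hva, polar_neg_right, h1.2.1]; simp
      · rw [ee_of_not (fun h => ha h.1), ap_one]
    have := TD_smul_eq (ψ := ψ) hg h2
    rw [ee_neg h1.1, inv_smul_smul] at this
    rw [ee_neg h1.1, ← this]

theorem mem_KT {v y a : V} (hva : polar Q v a = 0) {ω : Z} {b : V} :
    b ∈ KT (Q := Q) ψ (y := y) hva ω ↔ (polar Q a b = 0 ∧ polar Q v b = 0 ∧ polar Q y b = 0) ∧
    TD (Q := Q) ψ v (ee Q a b • ω) = TD (Q := Q) ψ v ω := Iff.rfl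

/-- Consequence of the existence of two non-orthogonal vectors in `KT`. -/
theorem smul_mem_of_KT {v y a z : V} (ha : Q a = 0) (hva : polar Q v a = 0) {ω : Z}
    (hz : z ∈ TD (Q := Q) ψ v ω) {b b' : V} (hb : b ∈ KT (Q := Q) ψ (y := y) hva ω)
    (hb' : b' ∈ KT (Q := Q) ψ (y := y) hva ω) :
    (polar Q b b' * polar Q z a) • a ∈ TD (Q := Q) ψ v ω := by
  have key : ∀ c, c ∈ KT (Q := Q) ψ (y := y) hva ω →
      polar Q z c • a - polar Q z a • c - (Q c * polar Q z a) • a ∈ TD (Q := Q) ψ v ω := by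
    intro c hc
    have hg : ap (ee Q a c) v = v := by rw [ee_ap ha hc.1.1, hva, hc.1.2.1]; simp
    have h1 := (TD_ap (ψ := ψ) hg ω).2 hz
    rw [hc.2, ee_ap ha hc.1.1] at h1
    have h2 := AddSubgroup.sub_mem _ h1 hz
    convert h2 using 1
    abel
  have h1 := key b hb
  have h2 := key b' hb'
  have h3 := key (b + b') (AddSubgroup.add_mem _ hb hb')
  have h4 := AddSubgroup.sub_mem _ (AddSubgroup.add_mem _ h1 h2) h3
  convert h4 using 1
  rw [par, qadd]
  module

/-- The set of dual fixators containing `y` and not contained in `⟨v, y⟩`. -/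
def SY (Z : Type*) (ψ : AddChar F ℂ) (Q : QuadraticForm F V) [MulAction (SGrp Q) Z] (v y : V) :
    Set (AddSubgroup V) :=
  {T | (∃ ω : Z, T = TD (Q := Q) ψ v ω) ∧ y ∈ T ∧ ∃ z ∈ T, z ∉ Submodule.span F {v, y}}

/-- Index of `KT` in `{a, v, y}^⊥`. -/
theorem card_le_KT [Finite F] [FiniteDimensional F V] {v y a : V} (ha : Q a = 0)
    (hva : polar Q v a = 0) (hya : polar Q y a = 0) {ω : Z}
    (hω : TD (Q := Q) ψ v ω ∈ SY Z ψ Q v y) :
    Nat.card {b // polar Q a b = 0 ∧ polar Q v b = 0 ∧ polar Q y b = 0} ≤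
      Nat.card (SY Z ψ Q v y) * Nat.card (KT (Q := Q) ψ (y := y) hva ω) := by
  classical
  have : Finite V := Module.finite_of_finite F
  have : Finite (AddSubgroup V) := inferInstance
  -- the map to `SY`
  let f : {b // polar Q a b = 0 ∧ polar Q v b = 0 ∧ polar Q y b = 0} → SY Z ψ Q v y := fun b =>
    ⟨TD (Q := Q) ψ v (ee Q a b.1 • ω), by
      obtain ⟨-, hy, z, hz, hzs⟩ := hω
      have hg : ap (ee Q a b.1) v = v := by rw [ee_ap ha b.2.1, hva, b.2.2.1]; simp
      have hgy : ap (ee Q a b.1) y = y := by rw [ee_ap ha b.2.1, hya, b.2.2.2]; simp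
      refine ⟨⟨_, rfl⟩, ?_, ap (ee Q a b.1) z, (TD_ap hg ω).2 hz, ?_⟩
      · have := (TD_ap hg ω).2 hy
        rwa [hgy] at this
      · intro h
        apply hzs
        obtain ⟨α, β, hαβ⟩ := Submodule.mem_span_pair.1 h
        have : z = α • v + β • y := by
          apply ap_inj (ee Q a b.1)
          rw [ap_add, ap_smul, ap_smul, hg, hgy, hαβ]
        rw [this]
        exact Submodule.mem_span_pair.2 ⟨α, β, rfl⟩⟩
  have hf : ∀ b b', f b = f b' → b.1 - b'.1 ∈ KT (Q := Q) ψ (y := y) hva ω := by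
    intro b b' h
    have h1 : TD (Q := Q) ψ v (ee Q a b.1 • ω) = TD (Q := Q) ψ v (ee Q a b'.1 • ω) :=
      congrArg Subtype.val h
    have e1 : polar Q a (-b'.1) = 0 := by rw [polar_neg_right, b'.2.1, neg_zero]
    refine ⟨⟨by rw [pdr, b.2.1, b'.2.1, sub_zero], by rw [pdr, b.2.2.1, b'.2.2.1, sub_zero],
      by rw [pdr, b.2.2.2, b'.2.2.2, sub_zero]⟩, ?_⟩
    have hg : ap (ee Q a (-b'.1)) v = v := by
      rw [ee_ap ha e1, hva, polar_neg_right, b'.2.2.1]; simp
    have h2 := TD_smul_eq (ψ := ψ) hg h1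
    rw [← mul_smul, ← ee_add e1 b.2.1, ee_neg b'.2.1, inv_smul_smul, neg_add_eq_sub] at h2
    exact h2
  have : Nonempty {b // polar Q a b = 0 ∧ polar Q v b = 0 ∧ polar Q y b = 0} :=
    ⟨⟨0, polar_zero_right Q _, polar_zero_right Q _, polar_zero_right Q _⟩⟩
  -- injection into the product
  let g : {b // polar Q a b = 0 ∧ polar Q v b = 0 ∧ polar Q y b = 0} →
      SY Z ψ Q v y × KT (Q := Q) ψ (y := y) hva ω := fun b =>
    (f b, ⟨b.1 - (Function.invFun f (f b)).1, hf _ _ (Function.invFun_eq ⟨b, rfl⟩).symm⟩)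
  have hg : Function.Injective g := by
    intro b b' h
    have h1 : f b = f b' := congrArg Prod.fst h
    have h2 : b.1 - (Function.invFun f (f b)).1 = b'.1 - (Function.invFun f (f b')).1 :=
      congrArg Subtype.val (congrArg Prod.snd h)
    rw [h1] at h2
    exact Subtype.ext (sub_left_injective h2)
  have := Nat.card_le_card_of_injective g hg
  rwa [Nat.card_prod] at this

/-- The vectors orthogonal to three given ones, as an additive subgroup. -/
def BB (Q : QuadraticForm F V) (a v y : V) : AddSubgroup V where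
  carrier := {b | polar Q a b = 0 ∧ polar Q v b = 0 ∧ polar Q y b = 0}
  zero_mem' := ⟨polar_zero_right Q _, polar_zero_right Q _, polar_zero_right Q _⟩
  add_mem' := by
    rintro b b' h1 h1'
    exact ⟨by rw [par, h1.1, h1'.1, add_zero], by rw [par, h1.2.1, h1'.2.1, add_zero],
      by rw [par, h1.2.2, h1'.2.2, add_zero]⟩
  neg_mem' := by
    rintro b h1
    exact ⟨by rw [polar_neg_right, h1.1, neg_zero], by rw [polar_neg_right, h1.2.1, neg_zero],
      by rw [polar_neg_right, h1.2.2, neg_zero]⟩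

theorem KT_le {v y a : V} (hva : polar Q v a = 0) (ω : Z) :
    KT (Q := Q) ψ (y := y) hva ω ≤ BB Q a v y := fun _ h => h.1

theorem relIndex_KT_le [Finite F] [FiniteDimensional F V] {v y a : V} (ha : Q a = 0)
    (hva : polar Q v a = 0) (hya : polar Q y a = 0) {ω : Z}
    (hω : TD (Q := Q) ψ v ω ∈ SY Z ψ Q v y) :
    (KT (Q := Q) ψ (y := y) hva ω).relIndex (BB Q a v y) ≤ Nat.card (SY Z ψ Q v y) := by
  have : Finite V := Module.finite_of_finite F
  have h1 := card_le_KT ha hva hya hω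
  have h2 : (KT (Q := Q) ψ (y := y) hva ω).relIndex (BB Q a v y) *
      Nat.card (KT (Q := Q) ψ (y := y) hva ω) = Nat.card (BB Q a v y) := by
    have := AddSubgroup.relIndex_mul_index (KT_le (Q := Q) (ψ := ψ) (y := y) hva ω)
    have h3 := AddSubgroup.card_mul_index (KT (Q := Q) ψ (y := y) hva ω)
    have h4 := AddSubgroup.card_mul_index (BB Q a v y)
    rw [← this, ← h4] at h3
    have h5 : (BB Q a v y).index ≠ 0 := AddSubgroup.index_ne_zero_of_finite
    have h6 : (BB Q a v y).index * ((KT (Q := Q) ψ (y := y) hva ω).relIndex (BB Q a v y) *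
      Nat.card (KT (Q := Q) ψ (y := y) hva ω)) = (BB Q a v y).index * Nat.card (BB Q a v y) := by
      linarith
    exact Nat.eq_of_mul_eq_mul_left (Nat.pos_of_ne_zero h5) h6
  have h3 : Nat.card (BB Q a v y) = Nat.card {b // polar Q a b = 0 ∧ polar Q v b = 0 ∧ polar Q y b = 0} := rfl
  rw [← h3, ← h2] at h1
  exact Nat.le_of_mul_le_mul_right h1 Nat.card_pos

theorem relIndex_KT_dvd [Finite F] [FiniteDimensional F V] (p : ℕ) [hp : Fact p.Prime] [CharP F p] {v y a : V}
    (hva : polar Q v a = 0) (ω : Z) :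
    ∃ k, (KT (Q := Q) ψ (y := y) hva ω).relIndex (BB Q a v y) = p ^ k := by
  have : Finite V := Module.finite_of_finite F
  have : Fintype F := Fintype.ofFinite F
  obtain ⟨n, -, hn⟩ := FiniteField.card F p
  have h1 := Module.natCard_eq_pow_finrank (K := F) (V := V)
  rw [Nat.card_eq_fintype_card (α := F), hn, ← pow_mul] at h1
  have h2 : (KT (Q := Q) ψ (y := y) hva ω).relIndex (BB Q a v y) ∣ Nat.card V := by
    refine dvd_trans ?_ (AddSubgroup.card_addSubgroup_dvd_card (BB Q a v y))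
    exact AddSubgroup.index_dvd_card _
  rw [h1] at h2
  obtain ⟨k, -, hk⟩ := (Nat.dvd_prime_pow hp.out).1 h2
  exact ⟨k, hk⟩

omit [Field F] in
theorem not_mem_span_of_polar [Field F] [Module F V] {Q : QuadraticForm F V} {v y a z : V}
    (hva : polar Q v a = 0) (hya : polar Q y a = 0)
    (hza : polar Q z a ≠ 0) : z ∉ Submodule.span F {v, y} := by
  intro h
  obtain ⟨α, β, rfl⟩ := Submodule.mem_span_pair.1 h
  apply hza
  rw [pal, psl, psl, hva, hya]; ring

/-- `Star` when there are fewer than `p` dual fixators containing a given non-singular vector. -/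
theorem star_of_lt [Finite F] [FiniteDimensional F V] (hQ : (polarBilin Q).Nondegenerate)
    (hn : 7 ≤ Module.finrank F V) (p : ℕ) [hp : Fact p.Prime] [CharP F p] {v : V}
    (h : ∀ y, polar Q v y = 0 → Q y ≠ 0 → Nat.card (SY Z ψ Q v y) < p) : Star Z ψ Q v := by
  intro y ω a z hvy hy hyT ha hva hya hz hza t
  have hω : TD (Q := Q) ψ v ω ∈ SY Z ψ Q v y :=
    ⟨⟨ω, rfl⟩, hyT, z, hz, not_mem_span_of_polar hva hya hza⟩
  have h1 := relIndex_KT_le ha hva hya hω
  obtain ⟨k, hk⟩ := relIndex_KT_dvd (Q := Q) (ψ := ψ) p (y := y) hva ω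
  have hk0 : k = 0 := by
    by_contra h0
    have h2 : p ≤ p ^ k := Nat.le_self_pow h0 p
    have := h y hvy hy
    omega
  rw [hk0, pow_zero, AddSubgroup.relIndex_eq_one] at hk
  obtain ⟨b, b', hbb, hb, hb'⟩ := exists_polar_triple hQ hn a v y
  have hbK : b ∈ KT (Q := Q) ψ (y := y) hva ω := hk hb
  have hbK' : (t / (polar Q b b' * polar Q z a)) • b' ∈ KT (Q := Q) ψ (y := y) hva ω :=
    hk ⟨by rw [psr, hb'.1, mul_zero], by rw [psr, hb'.2.1, mul_zero], by rw [psr, hb'.2.2, mul_zero]⟩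
  have h3 := smul_mem_of_KT ha hva hz hbK hbK'
  rw [psr] at h3
  have e : t / (polar Q b b' * polar Q z a) * polar Q b b' * polar Q z a = t := by
    field_simp
  rwa [e] at h3

theorem SY_le_mm [Finite F] [FiniteDimensional F V] [Finite Z] (v y : V) :
    Nat.card (SY Z ψ Q v y) ≤ mm Z ψ Q v y := by
  have : Finite V := Module.finite_of_finite F
  let f : {O : Ob Z Q v // y ∈ TOb ψ v O} → {T : AddSubgroup V // y ∈ T ∧ ∃ ω : Z, T = TD (Q := Q) ψ v ω} :=
    fun O => ⟨TOb ψ v O.1, O.2, by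
      obtain ⟨ω, hω⟩ := ob_surj v O.1
      exact ⟨ω, by rw [← hω, TOb_ob]⟩⟩
  have hf : Function.Surjective f := by
    rintro ⟨T, hT, ω, rfl⟩
    exact ⟨⟨ob Q v ω, by rw [TOb_ob]; exact hT⟩, Subtype.ext (TOb_ob ψ v ω)⟩
  have h1 := Nat.card_le_card_of_surjective f hf
  refine le_trans ?_ h1
  refine Nat.card_le_card_of_injective (fun T : SY Z ψ Q v y => (⟨T.1, T.2.2.1, T.2.1⟩ :
    {T : AddSubgroup V // y ∈ T ∧ ∃ ω : Z, T = TD (Q := Q) ψ v ω})) ?_
  intro T T' h
  have h' : T.1 = T'.1 := by simpa using h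
  exact Subtype.ext h'

end Bound

end Cfsg.Agent.Mdx.Ort
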