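import Cfsg.Agent.Mdx.O3

/-!
Every point not fixed by the whole group has a full dual fixator, unless there are totally singular
subspaces with totally singular orthogonal complement.
-/

set_option autoImplicit false

namespace Cfsg.Agent.Mdx.Ort

open QuadraticMap Cfsg.Agent.Orth Cfsg.Agent.OMax

variable {F V : Type*} [Field F] [AddCommGroup V] [Module F V] {Q : QuadraticForm F V}

variable {Z : Type*} [MulAction (SGrp Q) Z] {ψ : AddChar F ℂ}

/-- The dual fixator is everything orthogonal to `v`. -/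
def Full (ψ : AddChar F ℂ) (Q : QuadraticForm F V) [MulAction (SGrp Q) Z] (v : V) (ω : Z) : Prop :=
  ∀ u, polar Q v u = 0 → u ∈ TD (Q := Q) ψ v ω

/-- The dual fixator consists of singular vectors. -/
def Sing (ψ : AddChar F ℂ) (Q : QuadraticForm F V) [MulAction (SGrp Q) Z] (v : V) (ω : Z) : Prop :=
  ∀ u ∈ TD (Q := Q) ψ v ω, Q u = 0

/-- The dual fixator is contained in the plane of `v` and a non-singular vector. -/
def NonS (ψ : AddChar F ℂ) (Q : QuadraticForm F V) [MulAction (SGrp Q) Z] (v : V) (ω : Z) : Prop :=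
  ∃ y ∈ TD (Q := Q) ψ v ω, Q y ≠ 0 ∧ ∀ u ∈ TD (Q := Q) ψ v ω, u ∈ Submodule.span F {v, y}

variable [Finite F] [FiniteDimensional F V]

theorem trichotomy (hQ : (polarBilin Q).Nondegenerate) (hn : 7 ≤ Module.finrank F V) (hψ : ψ ≠ 1)
    {v : V} (hv : Q v = 0) (hv0 : v ≠ 0) (hst : Star Z ψ Q v) (ω : Z) :
    Full ψ Q v ω ∨ Sing ψ Q v ω ∨ NonS ψ Q v ω := by
  by_cases h1 : Sing ψ Q v ω
  · exact Or.inr (Or.inl h1)
  unfold Sing at h1
  push Not at h1
  obtain ⟨y, hyT, hy⟩ := h1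
  have hvy := TD_le hψ hv ω hyT
  by_cases h2 : ∀ u ∈ TD (Q := Q) ψ v ω, u ∈ Submodule.span F {v, y}
  · exact Or.inr (Or.inr ⟨y, hyT, hy, h2⟩)
  push Not at h2
  obtain ⟨z, hz, hzs⟩ := h2
  exact Or.inl (full_of_star hQ hn hψ hv hv0 hst hvy hy hyT hz hzs)

theorem dp_PV (hQ : (polarBilin Q).Nondegenerate) (hψ : ψ ≠ 1) (v : V) :
    dp ψ (polarBilin Q) (PV Q v) = (Submodule.span F {v}).toAddSubgroup := by
  rw [PV, dp_sub hψ, perp_perp hQ]

theorem dp_AA_inf (hQ : (polarBilin Q).Nondegenerate) (hψ : ψ ≠ 1) (v v' : V) (ω : Z) :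
    dp ψ (polarBilin Q) (AA (Q := Q) v ω ⊓ PV Q v') =
      TD (Q := Q) ψ v ω ⊔ (Submodule.span F {v'}).toAddSubgroup := by
  have : Finite V := Module.finite_of_finite F
  rw [dp_inf hψ (nd_of hQ) psi_symm, dp_PV hQ hψ]
  rfl

/-- Relation between the dual fixators of two orthogonal singular vectors. -/
theorem rel (hQ : (polarBilin Q).Nondegenerate) (hψ : ψ ≠ 1) {v v' x b : V} (hv : Q v = 0)
    (hv' : Q v' = 0) (hvv : polar Q v v' = 0) {ω : Z} (hx : x ∈ TD (Q := Q) ψ v ω)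
    (hb : b ∈ AA (Q := Q) v' ω) (hvb : polar Q v b = 0) :
    ∃ t ∈ TD (Q := Q) ψ v ω, ∃ c : F, polar Q x v' • b = t + c • v' := by
  have h1 : polar Q x v' • b ∈ dp ψ (polarBilin Q) (AA (Q := Q) v ω ⊓ PV Q v') := by
    rintro a ⟨ha, ha'⟩
    have h2 := hx _ (AA_rel hv hv' hvv ha (mem_PV.1 ha') hb hvb)
    rw [pbil, psr] at h2
    rw [pbil, psl, pc Q b a, mul_comm]
    exact h2
  rw [dp_AA_inf hQ hψ] at h1
  obtain ⟨t, ht, w, hw, h⟩ := AddSubgroup.mem_sup.1 h1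
  obtain ⟨c, rfl⟩ := Submodule.mem_span_singleton.1 hw
  exact ⟨t, ht, c, h.symm⟩

/-- Dual form: if `AA v' ω ∩ v^⊥` is contained in a subspace then its perp is close to `TD v' ω`. -/
theorem of_AA_le (hQ : (polarBilin Q).Nondegenerate) (hψ : ψ ≠ 1) {v v' : V} {ω : Z}
    {U : Submodule F V} (h : ∀ b ∈ AA (Q := Q) v' ω, polar Q v b = 0 → b ∈ U) :
    ∀ w ∈ perp Q U, ∃ t ∈ TD (Q := Q) ψ v' ω, ∃ c : F, w = t + c • v := by
  intro w hw
  have h1 : AA (Q := Q) v' ω ⊓ PV Q v ≤ U.toAddSubgroup := fun b hb => h b hb.1 (mem_PV.1 hb.2)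
  have h2 := dp_anti (ψ := ψ) (B := polarBilin Q) h1
  rw [dp_sub hψ, dp_AA_inf hQ hψ] at h2
  have h3 := h2 (show w ∈ (perp Q U).toAddSubgroup from hw)
  obtain ⟨t, ht, w', hw', h4⟩ := AddSubgroup.mem_sup.1 h3
  obtain ⟨c, rfl⟩ := Submodule.mem_span_singleton.1 hw'
  exact ⟨t, ht, c, h4.symm⟩

/-- The non-singular case produces a full dual fixator. -/
theorem exists_full_of_nonS (hQ : (polarBilin Q).Nondegenerate) (hn : 7 ≤ Module.finrank F V)
    (hψ : ψ ≠ 1) (hst : ∀ v, Q v = 0 → v ≠ 0 → Star Z ψ Q v) {v : V} (hv : Q v = 0) {ω : Z}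
    (h : NonS ψ Q v ω) : ∃ v', Q v' = 0 ∧ v' ≠ 0 ∧ Full ψ Q v' ω := by
  obtain ⟨y, hyT, hy, hT⟩ := h
  have hvy := TD_le hψ hv ω hyT
  have hyv : y ∉ Submodule.span F {v, v} := by
    intro h
    obtain ⟨α, β, rfl⟩ := Submodule.mem_span_pair.1 h
    apply hy
    rw [← add_smul, qsmul, hv, mul_zero]
  obtain ⟨v', hv', hvv, -, hyv'⟩ := exists_sing_perp_pair hQ hn hyv
  have hv'0 : v' ≠ 0 := by rintro rfl; exact hyv' (polar_zero_right Q y)
  refine ⟨v', hv', hv'0, ?_⟩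
  have h1 : ∀ b ∈ AA (Q := Q) v' ω, polar Q v b = 0 → b ∈ Submodule.span F {v, v'} := by
    intro b hb hvb
    obtain ⟨t, ht, c, h2⟩ := rel hQ hψ hv hv' hvv hyT hb hvb
    obtain ⟨α, β, rfl⟩ := Submodule.mem_span_pair.1 (hT t ht)
    have h3 : polar Q v' (polar Q y v' • b) = 0 := by rw [psr, hb.1, mul_zero]
    rw [h2, par, par, psr, psr, psr, pc Q v' v, hvv, pself, hv', pc Q v' y] at h3
    have hβ : β = 0 := by
      have : β * polar Q y v' = 0 := by linear_combination h3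
      exact (mul_eq_zero.1 this).resolve_right hyv'
    rw [hβ, zero_smul, add_zero] at h2
    rw [Submodule.mem_span_pair]
    refine ⟨(polar Q y v')⁻¹ * α, (polar Q y v')⁻¹ * c, ?_⟩
    rw [mul_smul, mul_smul, ← smul_add, ← h2, smul_smul, inv_mul_cancel₀ hyv', one_smul]
  have h2 := of_AA_le hQ hψ h1
  obtain ⟨w, hw, hvw, hv'w, -⟩ := exists_nonsing_triple hQ hn v v' v
  obtain ⟨w₂, hw₂, hw₂s⟩ : ∃ w₂ ∈ perp Q (Submodule.span F {v, v'}), w₂ ∉ Submodule.span F {v, v', w} := by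
    by_contra hcon
    push Not at hcon
    have h3 := Submodule.finrank_mono (show perp Q (Submodule.span F {v, v'}) ≤ Submodule.span F {v, v', w} from hcon)
    have h4 := finrank_perp hQ (Submodule.span F {v, v'})
    have h5 := finrank_span_triple_le (F := F) v v' w
    have h6 := finrank_span_pair_le (F := F) v v'
    omega
  obtain ⟨t₁, ht₁, c₁, h3⟩ := h2 w (mem_perp_pair.2 ⟨hvw, hv'w⟩)
  obtain ⟨t₂, ht₂, c₂, h4⟩ := h2 w₂ hw₂
  have e1 : t₁ = w - c₁ • v := by rw [h3]; abel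
  have e2 : t₂ = w₂ - c₂ • v := by rw [h4]; abel
  have hq1 : Q t₁ ≠ 0 := by
    rw [e1, qsub, qsmul, psr, hv, pc Q w v, hvw]
    simpa using hw
  refine full_of_star hQ hn hψ hv' hv'0 (hst v' hv' hv'0) (TD_le hψ hv' ω ht₁) hq1 ht₁ ht₂ ?_
  intro h5
  obtain ⟨α, β, h6⟩ := Submodule.mem_span_pair.1 h5
  apply hw₂s
  rw [h4, ← h6, e1]
  refine Submodule.mem_span_triple.2 ⟨c₂ - β * c₁, α, β, ?_⟩
  module

/-- Span of a set of mutually orthogonal singular vectors. -/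
theorem q_span_eq_zero {S : Set V} (h1 : ∀ s ∈ S, Q s = 0) (h2 : ∀ s ∈ S, ∀ t ∈ S, polar Q s t = 0) :
    ∀ x ∈ Submodule.span F S, Q x = 0 := by
  have h3 : ∀ s ∈ S, ∀ x ∈ Submodule.span F S, polar Q s x = 0 := by
    intro s hs x hx
    induction hx using Submodule.span_induction with
    | mem x hx => exact h2 s hs x hx
    | zero => exact polar_zero_right Q _
    | add x y _ _ hx hy => rw [par, hx, hy, add_zero]
    | smul a x _ hx => rw [psr, hx, mul_zero]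
  have h4 : ∀ x ∈ Submodule.span F S, ∀ y ∈ Submodule.span F S, polar Q x y = 0 := by
    intro x hx y hy
    induction hx using Submodule.span_induction with
    | mem x hx => exact h3 x hx y hy
    | zero => exact polar_zero_left Q _
    | add x z _ _ hx hz => rw [pal, hx, hz, add_zero]
    | smul a x _ hx => rw [psl, hx, mul_zero]
  intro x hx
  induction hx using Submodule.span_induction with
  | mem x hx => exact h1 x hx
  | zero => exact QuadraticMap.map_zero Q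
  | add x y hx' hy' hx hy => rw [qadd, hx, hy, h4 x hx' y hy']; ring
  | smul a x _ hx => rw [qsmul, hx, mul_zero]

omit [Finite F] [FiniteDimensional F V] in
theorem Sing.polar_eq {v : V} {ω : Z} (h : Sing ψ Q v ω) {x y : V} (hx : x ∈ TD (Q := Q) ψ v ω)
    (hy : y ∈ TD (Q := Q) ψ v ω) : polar Q x y = 0 := by
  have h1 := h _ (AddSubgroup.add_mem _ hx hy)
  rw [qadd, h x hx, h y hy] at h1
  simpa using h1

/-- The subspace attached to two orthogonal singular vectors. -/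
def UU (ψ : AddChar F ℂ) (Q : QuadraticForm F V) [MulAction (SGrp Q) Z] (v v' : V) (ω : Z) : Submodule F V :=
  Submodule.span F ({t | t ∈ TD (Q := Q) ψ v ω ∧ polar Q v' t = 0} ∪ {v'})

theorem UU_sing {v v' : V} (hv' : Q v' = 0) {ω : Z} (h : Sing ψ Q v ω) :
    ∀ x ∈ UU ψ Q v v' ω, Q x = 0 := by
  refine q_span_eq_zero ?_ ?_
  · rintro s (⟨hs, -⟩ | rfl)
    · exact h s hs
    · exact hv'
  · rintro s (⟨hs, hs'⟩ | rfl) t (⟨ht, ht'⟩ | rfl)
    · exact h.polar_eq hs ht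
    · rw [pc]; exact hs'
    · exact ht'
    · rw [pself, hv', mul_zero]

theorem AA_le_UU (hQ : (polarBilin Q).Nondegenerate) (hψ : ψ ≠ 1) {v v' x : V} (hv : Q v = 0)
    (hv' : Q v' = 0) (hvv : polar Q v v' = 0) {ω : Z} (hx : x ∈ TD (Q := Q) ψ v ω)
    (hxv' : polar Q x v' ≠ 0) : ∀ b ∈ AA (Q := Q) v' ω, polar Q v b = 0 → b ∈ UU ψ Q v v' ω := by
  intro b hb hvb
  obtain ⟨t, ht, c, h2⟩ := rel hQ hψ hv hv' hvv hx hb hvb
  have h3 : polar Q v' (polar Q x v' • b) = 0 := by rw [psr, hb.1, mul_zero]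
  rw [h2, par, psr, pself, hv', mul_zero, mul_zero, add_zero] at h3
  have h4 : b = (polar Q x v')⁻¹ • (t + c • v') := by
    rw [← h2, smul_smul, inv_mul_cancel₀ hxv', one_smul]
  rw [h4]
  refine Submodule.smul_mem _ _ (Submodule.add_mem _ ?_ (Submodule.smul_mem _ _ ?_))
  · exact Submodule.subset_span (Or.inl ⟨ht, h3⟩)
  · exact Submodule.subset_span (Or.inr rfl)

/-- The orthogonal complement of `UU` is close to the other dual fixator. -/
theorem perp_UU (hQ : (polarBilin Q).Nondegenerate) (hψ : ψ ≠ 1) {v v' x : V} (hv : Q v = 0)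
    (hv' : Q v' = 0) (hvv : polar Q v v' = 0) {ω : Z} (hx : x ∈ TD (Q := Q) ψ v ω)
    (hxv' : polar Q x v' ≠ 0) : ∀ w ∈ perp Q (UU ψ Q v v' ω),
      ∃ t ∈ TD (Q := Q) ψ v' ω, ∃ c : F, w = t + c • v ∧ polar Q v t = 0 := by
  intro w hw
  obtain ⟨t, ht, c, h⟩ := of_AA_le hQ hψ (AA_le_UU hQ hψ hv hv' hvv hx hxv') w hw
  refine ⟨t, ht, c, h, ?_⟩
  have h1 : polar Q v w = 0 := by
    refine hw v (Submodule.subset_span (Or.inl ⟨?_, by rw [pc, hvv]⟩))
    simpa using smul_self_mem_TD (Q := Q) (ψ := ψ) v 1 ω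
  rw [h, par, psr, pself, hv] at h1
  simpa using h1

theorem perp_UU_sing (hQ : (polarBilin Q).Nondegenerate) (hψ : ψ ≠ 1) {v v' x : V} (hv : Q v = 0)
    (hv' : Q v' = 0) (hvv : polar Q v v' = 0) {ω : Z} (hx : x ∈ TD (Q := Q) ψ v ω)
    (hxv' : polar Q x v' ≠ 0) (h' : Sing ψ Q v' ω) : ∀ w ∈ perp Q (UU ψ Q v v' ω), Q w = 0 := by
  intro w hw
  obtain ⟨t, ht, c, rfl, h2⟩ := perp_UU hQ hψ hv hv' hvv hx hxv' w hw
  rw [qadd, h' t ht, qsmul, hv, psr, pc Q t v, h2]; ring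

/-- A point fixed by all Siegel elements is fixed by the whole group. -/
theorem fixed_of_AA {ω : Z} (h : ∀ v b, Q v = 0 → polar Q v b = 0 → ee Q v b • ω = ω) (g : SGrp Q) :
    g • ω = ω := by
  obtain ⟨g, hg⟩ := g
  induction hg using Subgroup.closure_induction with
  | mem x hx =>
    obtain ⟨a, b, ha, hab, rfl⟩ := hx
    have h1 := h a b ha hab
    have h2 : ee Q a b = ⟨eich Q a b ha hab, Subgroup.subset_closure ⟨a, b, ha, hab, rfl⟩⟩ :=
      Subtype.ext (ee_coe ha hab)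
    rw [h2] at h1
    exact h1
  | one => exact one_smul _ ω
  | mul a b ha hb iha ihb =>
    have : (⟨a * b, Subgroup.mul_mem _ ha hb⟩ : SGrp Q) = ⟨a, ha⟩ * ⟨b, hb⟩ := rfl
    rw [this, mul_smul, ihb, iha]
  | inv a ha iha =>
    have : (⟨a⁻¹, Subgroup.inv_mem _ ha⟩ : SGrp Q) = (⟨a, ha⟩ : SGrp Q)⁻¹ := rfl
    rw [this, inv_smul_eq_iff, iha]

theorem AA_eq_of_TD_le (hQ : (polarBilin Q).Nondegenerate) (hψ : ψ ≠ 1) {v : V} {ω : Z}
    (h : ∀ x ∈ TD (Q := Q) ψ v ω, x ∈ Submodule.span F {v}) {b : V} (hb : polar Q v b = 0) :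
    b ∈ AA (Q := Q) v ω := by
  have : Finite V := Module.finite_of_finite F
  rw [mem_AA_iff hQ hψ]
  intro x hx
  obtain ⟨c, rfl⟩ := Submodule.mem_span_singleton.1 (h x hx)
  rw [psl, hb, mul_zero]; exact ψ.map_zero_eq_one

/-- Step R, when no totally singular subspace has a totally singular orthogonal complement. -/
theorem exists_full (hQ : (polarBilin Q).Nondegenerate) (hn : 7 ≤ Module.finrank F V)
    (hψ : ψ ≠ 1) (hst : ∀ v, Q v = 0 → v ≠ 0 → Star Z ψ Q v)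
    (hW : ∀ E : Submodule F V, (∀ x ∈ E, Q x = 0) → (∀ x ∈ perp Q E, Q x = 0) → False) (ω : Z)
    (hω : ∃ g : SGrp Q, g • ω ≠ ω) : ∃ v, Q v = 0 ∧ v ≠ 0 ∧ Full ψ Q v ω := by
  by_contra hcon
  push Not at hcon
  have hS : ∀ v, Q v = 0 → v ≠ 0 → Sing ψ Q v ω := by
    intro v hv hv0
    rcases trichotomy hQ hn hψ hv hv0 (hst v hv hv0) ω with h | h | h
    · exact absurd h (hcon v hv hv0)
    · exact h
    · obtain ⟨v', hv', hv'0, h'⟩ := exists_full_of_nonS hQ hn hψ hst hv h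
      exact absurd h' (hcon v' hv' hv'0)
  obtain ⟨g, hg⟩ := hω
  apply hg
  refine fixed_of_AA (fun v b hv hb => ?_) g
  by_cases hv0 : v = 0
  · have : ee Q v b = 1 := by
      apply ap_ext; intro x
      rw [ee_ap hv hb, ap_one, hv0]; simp
    rw [this, one_smul]
  refine (AA_eq_of_TD_le hQ hψ (fun x hx => ?_) hb).2
  by_contra hxs
  obtain ⟨v', hv', hvv, -, hxv'⟩ := exists_sing_perp_pair hQ hn (v := v) (y := v) (w := x)
    (by rwa [Set.pair_eq_singleton])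
  have hv'0 : v' ≠ 0 := by rintro rfl; exact hxv' (polar_zero_right Q x)
  exact hW _ (UU_sing hv' (hS v hv hv0)) (perp_UU_sing hQ hψ hv hv' hvv hx hxv' (hS v' hv' hv'0))

end Cfsg.Agent.Mdx.Ort
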