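import Cfsg.Agent.Mdx.O4

/-!
Counting over the orbits of a Siegel group.
-/

set_option autoImplicit false

namespace Cfsg.Agent.Mdx.Ort

open QuadraticMap Cfsg.Agent.Orth Cfsg.Agent.OMax Finset

variable {F V : Type*} [Field F] [AddCommGroup V] [Module F V] {Q : QuadraticForm F V}

variable {Z : Type*} [MulAction (SGrp Q) Z] {ψ : AddChar F ℂ}

section Sums

variable [Fintype F] [Fintype V] [FiniteDimensional F V] [Finite Z]

open Classical in
/-- Double counting of pairs (vector, orbit). -/
theorem sum_mm_filter (v : V) [Fintype (Ob Z Q v)] (P : V → Prop) :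
    ∑ x ∈ univ.filter P, mm Z ψ Q v x =
      ∑ O : Ob Z Q v, (univ.filter fun x : V => x ∈ TOb ψ v O ∧ P x).card := by
  have e1 : ∀ x, mm Z ψ Q v x = ∑ O : Ob Z Q v, if x ∈ TOb ψ v O then 1 else 0 := by
    intro x
    rw [mm, Nat.card_eq_fintype_card, Fintype.card_subtype, Finset.card_filter]
  have e2 : ∀ O : Ob Z Q v, (univ.filter fun x : V => x ∈ TOb ψ v O ∧ P x).card =
      ∑ x ∈ univ.filter P, if x ∈ TOb ψ v O then 1 else 0 := by
    intro O
    rw [← Finset.card_filter, Finset.filter_filter]
    congr 1
    ext x
    simp [and_comm]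
  rw [Finset.sum_congr rfl (fun x _ => e1 x), Finset.sum_congr rfl (fun O _ => e2 O), Finset.sum_comm]

open Classical in
theorem sum_card_TOb (hQ : (polarBilin Q).Nondegenerate) (hψ : ψ ≠ 1) {v : V} (hv : v ≠ 0)
    [Fintype (Ob Z Q v)] :
    ∑ O : Ob Z Q v, (univ.filter fun x : V => x ∈ TOb ψ v O).card = Fintype.card F * Nat.card Z := by
  rw [← sum_mm hQ hψ hv]
  have := sum_mm_filter (Z := Z) (ψ := ψ) (Q := Q) v (fun _ => True)
  simp only [and_true, Finset.filter_true] at this
  exact this.symm

open Classical in
/-- Size of a dual fixator contained in a plane. -/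
theorem card_plane {v y : V} (hv0 : v ≠ 0) {T : AddSubgroup V}
    (hvT : ∀ t : F, t • v ∈ T) (hT : ∀ x ∈ T, x ∈ Submodule.span F {v, y}) :
    (univ.filter fun x : V => x ∈ T).card ≤ Fintype.card F * Fintype.card F ∧
    (univ.filter fun x : V => x ∈ T ∧ x ∉ Submodule.span F {v}).card + Fintype.card F =
      (univ.filter fun x : V => x ∈ T).card := by
  constructor
  · have h1 : (univ.filter fun x : V => x ∈ T) ⊆
        (univ : Finset (F × F)).image (fun p => p.1 • v + p.2 • y) := by
      intro x hx
      rw [Finset.mem_filter] at hx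
      obtain ⟨a, b, h⟩ := Submodule.mem_span_pair.1 (hT x hx.2)
      exact Finset.mem_image.2 ⟨(a, b), Finset.mem_univ _, h⟩
    refine (Finset.card_le_card h1).trans (Finset.card_image_le.trans ?_)
    rw [Finset.card_univ, Fintype.card_prod]
  · have h2 : (univ.filter fun x : V => x ∈ T ∧ x ∈ Submodule.span F {v}).card = Fintype.card F := by
      have : (univ.filter fun x : V => x ∈ T ∧ x ∈ Submodule.span F {v}) =
          (univ : Finset F).image (fun t => t • v) := by
        ext x
        simp only [Finset.mem_filter, Finset.mem_univ, true_and, Finset.mem_image,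
          Submodule.mem_span_singleton]
        constructor
        · rintro ⟨_, h⟩; exact h
        · rintro ⟨t, rfl⟩; exact ⟨hvT t, t, rfl⟩
      rw [this, Finset.card_image_of_injective _ (fun a b h => smul_left_injective F hv0 h), Finset.card_univ]
    have h3 := Finset.card_filter_add_card_filter_not (s := univ.filter fun x : V => x ∈ T)
      (fun x => x ∈ Submodule.span F {v})
    rw [Finset.filter_filter, Finset.filter_filter] at h3
    omega

end Sums

end Cfsg.Agent.Mdx.Ort
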