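import Cfsg.Agent.Mdx.O6

/-!
Step C, continued.
-/

set_option autoImplicit false

namespace Cfsg.Agent.Mdx.Ort

open QuadraticMap Cfsg.Agent.Orth Cfsg.Agent.OMax Finset

variable {F V : Type*} [Field F] [AddCommGroup V] [Module F V] {Q : QuadraticForm F V}

variable {Z : Type*} [MulAction (SGrp Q) Z] {ψ : AddChar F ℂ}

section C

variable [Fintype F] [FiniteDimensional F V] [Finite Z] {Bd r P s K N₁ S : ℕ}

variable (hQ : (polarBilin Q).Nondegenerate) (hn : 7 ≤ Module.finrank F V) (hψ : ψ ≠ 1)
  (hst : ∀ v, Q v = 0 → v ≠ 0 → Star Z ψ Q v) (hnum : Num Q Bd r P s K N₁ S)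
  (hlt : Nat.card Z < Bd) (hfull : ∃ (v : V) (ω : Z), Q v = 0 ∧ v ≠ 0 ∧ Full ψ Q v ω)

include hQ hψ hnum hlt in
theorem card_full_points {v : V} (hv : Q v = 0) (hv0 : v ≠ 0) {ω₀ : Z} (h₀ : Full ψ Q v ω₀) :
    Fintype.card F * Nat.card {ω : Z // Full ψ Q v ω} = P := by
  classical
  have : Finite V := Module.finite_of_finite F
  have := Fintype.ofFinite V
  have h1 := card_TOb_mul (Z := Z) (ψ := ψ) hQ hψ hv0 ω₀
  have h2 : Nat.card (TD (Q := Q) ψ v ω₀) = P := by
    rw [← card_full_TD hnum hv hv0 hψ h₀, Nat.card_eq_fintype_card]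
    exact Fintype.card_subtype _
  rw [← h2, h1]
  congr 1
  refine Nat.card_congr (Equiv.subtypeEquivRight fun ω' => ?_)
  constructor
  · intro h
    exact full_unique hQ hψ hnum hlt hv hv0 h h₀
  · intro h u hu
    rw [full_iff_of_ob h]
    exact h₀ u hu

include hQ hn hψ hnum hlt hfull in
/-- The divisibility coming from double counting. -/
theorem count_full [MulAction.IsPretransitive (SGrp Q) Z] :
    ∃ d P₁ : ℕ, P = Fintype.card F * P₁ ∧ (N₁ + 1) * P₁ = Nat.card Z * d := by
  classical
  have : Finite V := Module.finite_of_finite F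
  have := Fintype.ofFinite V
  have := Fintype.ofFinite Z
  obtain ⟨v₀, ω₀, hv₀, hv₀0, h₀⟩ := hfull
  have hP := card_full_points hQ hψ hnum hlt hv₀ hv₀0 h₀
  set P₁ := Nat.card {ω : Z // Full ψ Q v₀ ω} with hP₁
  -- number of vectors for a point
  let D : Z → Set V := fun ω => {v | (Q v = 0 ∧ v ≠ 0) ∧ Full ψ Q v ω}
  have hD : ∀ ω ω' : Z, Nat.card (D ω) = Nat.card (D ω') := by
    intro ω ω'
    obtain ⟨g, rfl⟩ := MulAction.exists_smul_eq (SGrp Q) ω ω'
    refine Nat.card_congr ((apE g).toEquiv.subtypeEquiv fun v => ?_)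
    change ((Q v = 0 ∧ v ≠ 0) ∧ Full ψ Q v ω) ↔ ((Q (ap g v) = 0 ∧ ap g v ≠ 0) ∧ Full ψ Q (ap g v) (g • ω))
    rw [ap_q]
    have e1 : ap g v ≠ 0 ↔ v ≠ 0 := by
      rw [not_iff_not]
      constructor
      · intro h; exact ap_inj g (by rw [h, ap_zero])
      · rintro rfl; exact ap_zero g
    rw [e1]
    constructor
    · rintro ⟨h1, h2⟩; exact ⟨h1, h2.conj g⟩
    · rintro ⟨h1, h2⟩
      refine ⟨h1, ?_⟩
      have := h2.conj g⁻¹
      rwa [ap_inv_ap, inv_smul_smul] at this
  have hr1 : 1 ≤ r := by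
    have h7 := hnum.hr
    have h8 : 1 < Fintype.card F := Fintype.one_lt_card
    omega
  have hdvd : r ∣ Nat.card (D ω₀) := by
    have := dvd_card_of_smul (F := F) (D ω₀) (fun h => h.1.2 rfl) (by
      rintro x ⟨⟨h1, h2⟩, h3⟩ c hc
      exact ⟨⟨by rw [qsmul, h1, mul_zero], smul_ne_zero hc h2⟩, h3.smul hc⟩)
    rwa [hnum.hr, Nat.add_sub_cancel] at this
  obtain ⟨d, hd⟩ := hdvd
  refine ⟨d, P₁, hP.symm, ?_⟩
  -- double counting
  have h1 : Nat.card {p : {v : V // Q v = 0 ∧ v ≠ 0} × Z // Full ψ Q p.1.1 p.2} = (r * (N₁ + 1)) * P₁ := by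
    have e : {p : {v : V // Q v = 0 ∧ v ≠ 0} × Z // Full ψ Q p.1.1 p.2} ≃
        (Σ v : {v : V // Q v = 0 ∧ v ≠ 0}, {ω : Z // Full ψ Q v.1 ω}) :=
      { toFun := fun p => ⟨p.1.1, p.1.2, p.2⟩
        invFun := fun p => ⟨(p.1, p.2.1), p.2.2⟩
        left_inv := fun _ => rfl
        right_inv := fun _ => rfl }
    rw [Nat.card_congr e, Nat.card_sigma]
    have e2 : ∀ v : {v : V // Q v = 0 ∧ v ≠ 0}, Nat.card {ω : Z // Full ψ Q v.1 ω} = P₁ := by
      intro v
      obtain ⟨ω₁, h₁⟩ := exists_full_at hQ hn ⟨v₀, ω₀, hv₀, hv₀0, h₀⟩ v.2.1 v.2.2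
      have := card_full_points hQ hψ hnum hlt v.2.1 v.2.2 h₁
      rw [← hP] at this
      exact Nat.eq_of_mul_eq_mul_left Fintype.card_pos this
    rw [Finset.sum_congr rfl (fun v _ => e2 v), Finset.sum_const, Finset.card_univ, smul_eq_mul]
    rw [← hnum.hS, Nat.card_eq_fintype_card]
  have h2 : Nat.card {p : {v : V // Q v = 0 ∧ v ≠ 0} × Z // Full ψ Q p.1.1 p.2} = Nat.card Z * (r * d) := by
    have e : {p : {v : V // Q v = 0 ∧ v ≠ 0} × Z // Full ψ Q p.1.1 p.2} ≃ (Σ ω : Z, D ω) :=
      { toFun := fun p => ⟨p.1.2, p.1.1.1, p.1.1.2, p.2⟩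
        invFun := fun p => ⟨(⟨p.2.1, p.2.2.1⟩, p.1), p.2.2.2⟩
        left_inv := fun _ => rfl
        right_inv := fun _ => rfl }
    rw [Nat.card_congr e, Nat.card_sigma]
    rw [Finset.sum_congr rfl (fun ω _ => hD ω ω₀), Finset.sum_const, Finset.card_univ, smul_eq_mul, hd,
      Nat.card_eq_fintype_card]
  rw [h2] at h1
  have h3 : r * ((N₁ + 1) * P₁) = r * (Nat.card Z * d) := by
    calc r * ((N₁ + 1) * P₁) = r * (N₁ + 1) * P₁ := by ring
      _ = Nat.card Z * (r * d) := h1.symm
      _ = r * (Nat.card Z * d) := by ring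
  exact Nat.eq_of_mul_eq_mul_left hr1 h3

open Classical in
include hQ hn hψ hst hnum hlt hfull in
/-- Every dual fixator is full or trivial. -/
theorem full_or_trivial [MulAction.IsPretransitive (SGrp Q) Z] {v : V} (hv : Q v = 0) (hv0 : v ≠ 0)
    (ω : Z) : Full ψ Q v ω ∨ ∀ x ∈ TD (Q := Q) ψ v ω, x ∈ Submodule.span F {v} := by
  by_contra hcon
  push Not at hcon
  obtain ⟨hnf, x₁, hx₁, hx₁s⟩ := hcon
  have : Finite V := Module.finite_of_finite F
  have := Fintype.ofFinite V
  have := Fintype.ofFinite (Ob Z Q v)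
  obtain ⟨ω₀, h₀⟩ := exists_full_at hQ hn hfull hv hv0
  -- non-full orbits are singular
  have hsing : ∀ ω' : Z, ¬ Full ψ Q v ω' → Sing ψ Q v ω' := by
    intro ω' h'
    rcases trichotomy hQ hn hψ hv hv0 (hst v hv hv0) ω' with h | h | h
    · exact absurd h h'
    · exact h
    · exact absurd h (not_nonS hQ hn hψ hst hnum hlt hfull hv hv0 ω')
  have hvx₁ := TD_le hψ hv ω hx₁
  have hqx₁ := hsing ω hnf x₁ hx₁
  obtain ⟨X, hXdef⟩ : ∃ X : V → Prop, ∀ x, X x ↔ polar Q v x = 0 ∧ Q x = 0 ∧ x ∉ Submodule.span F {v} :=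
    ⟨_, fun _ => Iff.rfl⟩
  have hmmX : ∀ x, X x → mm Z ψ Q v x = mm Z ψ Q v x₁ := by
    intro x hx
    obtain ⟨h1, h2, h3⟩ := (hXdef x).1 hx
    exact mm_class hQ hn hv hv0 one_ne_zero hvx₁ h1 hx₁s h3 (by rw [h2, hqx₁]; ring)
  have hne : ob Q v ω ≠ ob Q v ω₀ := by
    intro h
    apply hnf
    intro u hu
    rw [full_iff_of_ob h]
    exact h₀ u hu
  have hm2 : 2 ≤ mm Z ψ Q v x₁ := by
    have hf : Function.Injective (fun i : Bool => (if i then ⟨ob Q v ω, by rw [TOb_ob]; exact hx₁⟩
        else ⟨ob Q v ω₀, by rw [TOb_ob]; exact h₀ x₁ hvx₁⟩ : {O : Ob Z Q v // x₁ ∈ TOb ψ v O})) := by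
      intro i j hij
      cases i <;> cases j
      · rfl
      · exact absurd (congrArg Subtype.val hij).symm hne
      · exact absurd (congrArg Subtype.val hij) hne
      · rfl
    have := Nat.card_le_card_of_injective _ hf
    rwa [Nat.card_eq_fintype_card, Fintype.card_bool] at this
  have hqpos : 0 < Fintype.card F := Fintype.card_pos
  have hltq : Fintype.card F * Nat.card Z < Fintype.card F * Bd := Nat.mul_lt_mul_of_pos_left hlt hqpos
  have hPc : (univ.filter fun x : V => polar Q v x = 0).card = P := by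
    rw [← hnum.hP v hv0, Nat.card_eq_fintype_card, Fintype.card_subtype]
  have hsc : (univ.filter fun x : V => polar Q v x = 0 ∧ Q x = 0).card = s := by
    rw [← hnum.hs v hv hv0, Nat.card_eq_fintype_card, Fintype.card_subtype]
  have hqc : (univ.filter fun x : V => x ∈ Submodule.span F {v}).card = Fintype.card F := by
    have : (univ.filter fun x : V => x ∈ Submodule.span F {v}) = (univ : Finset F).image (fun t => t • v) := by
      ext x
      simp only [Finset.mem_filter, Finset.mem_univ, true_and, Finset.mem_image,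
        Submodule.mem_span_singleton]
    rw [this, Finset.card_image_of_injective _ (fun a b h => smul_left_injective F hv0 h), Finset.card_univ]
  have hXc : (univ.filter X).card + Fintype.card F = s := by
    have h3 := Finset.card_filter_add_card_filter_not
      (s := univ.filter fun x : V => polar Q v x = 0 ∧ Q x = 0) (fun x => x ∈ Submodule.span F {v})
    rw [Finset.filter_filter, Finset.filter_filter, hsc] at h3
    have e1 : (univ.filter fun x : V => (polar Q v x = 0 ∧ Q x = 0) ∧ x ∈ Submodule.span F {v}) =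
        univ.filter fun x : V => x ∈ Submodule.span F {v} := by
      ext x
      simp only [mem_filter, mem_univ, true_and]
      constructor
      · exact fun h => h.2
      · intro h
        refine ⟨?_, h⟩
        obtain ⟨c, rfl⟩ := Submodule.mem_span_singleton.1 h
        exact ⟨by rw [psr, pself, hv, mul_zero, mul_zero], by rw [qsmul, hv, mul_zero]⟩
    have e2 : (univ.filter fun x : V => (polar Q v x = 0 ∧ Q x = 0) ∧ x ∉ Submodule.span F {v}) =
        univ.filter X := by
      ext x
      simp only [mem_filter, mem_univ, true_and]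
      rw [hXdef, and_assoc]
    rw [e1, e2, hqc] at h3
    omega
  rcases Nat.lt_or_ge 2 (mm Z ψ Q v x₁) with hm | hm
  · -- at least three orbits
    have h1 := sum_mm (Z := Z) (ψ := ψ) hQ hψ hv0
    have h2 : ∀ x : V, (if polar Q v x = 0 then 1 else 0) + (if polar Q v x = 0 ∧ Q x = 0 then 2 else 0) ≤
        mm Z ψ Q v x := by
      intro x
      by_cases hvx : polar Q v x = 0
      · by_cases hqx : Q x = 0
        · rw [if_pos hvx, if_pos ⟨hvx, hqx⟩]
          by_cases hxs : x ∈ Submodule.span F {v}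
          · obtain ⟨c, rfl⟩ := Submodule.mem_span_singleton.1 hxs
            have h3 : mm Z ψ Q v x₁ ≤ mm Z ψ Q v (c • v) := by
              unfold mm
              refine Nat.card_le_card_of_injective (fun O : {O : Ob Z Q v // x₁ ∈ TOb ψ v O} =>
                (⟨O.1, by
                  obtain ⟨ω', hω'⟩ := ob_surj v O.1
                  rw [← hω', TOb_ob]
                  exact smul_self_mem_TD v c ω'⟩ : {O : Ob Z Q v // c • v ∈ TOb ψ v O})) ?_
              intro O O' h
              have h' : O.1 = O'.1 := by simpa using h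
              exact Subtype.ext h'
            omega
          · rw [hmmX x ((hXdef x).2 ⟨hvx, hqx, hxs⟩)]
            omega
        · rw [if_pos hvx, if_neg (fun h => hqx h.2)]
          exact mm_pos (h₀ x hvx)
      · rw [if_neg hvx, if_neg (fun h => hvx h.1)]
        exact Nat.zero_le _
    have h3 := Finset.sum_le_sum (fun x (_ : x ∈ (univ : Finset V)) => h2 x)
    rw [h1, Finset.sum_add_distrib, ← Finset.sum_filter, ← Finset.sum_filter, Finset.sum_const,
      Finset.sum_const, hPc, hsc, smul_eq_mul, smul_eq_mul] at h3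
    have := hnum.h3
    omega
  · have hm' : mm Z ψ Q v x₁ = 2 := le_antisymm hm hm2
    -- planarity
    have hplane : ∀ (ω' : Z) (x : V), ¬ Full ψ Q v ω' → x ∈ TD (Q := Q) ψ v ω' → X x →
        ∀ z ∈ TD (Q := Q) ψ v ω', z ∈ Submodule.span F {v, x} := by
      intro ω' x hnf' hx hXx z hz
      by_contra hzs
      obtain ⟨hvx, hqx, hxs⟩ := (hXdef x).1 hXx
      obtain ⟨a, ha, hva, hxa, hza⟩ := exists_sing_perp_pair hQ hn hzs
      obtain ⟨b, hb, hvb, hxb, hab⟩ := exists_nonsing_triple hQ hn v x a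
      have hgv : ap (ee Q a b) v = v := by rw [ee_ap ha hab, hva, hvb]; simp
      have hgx : ap (ee Q a b) x = x := by rw [ee_ap ha hab, hxa, hxb]; simp
      have hnf'' : ¬ Full ψ Q v (ee Q a b • ω') := by
        intro h
        apply hnf'
        have := h.conj (ee Q a b)⁻¹
        rw [inv_smul_smul] at this
        have e : ap (ee Q a b)⁻¹ v = v := ap_inj (ee Q a b) (by rw [ap_ap_inv, hgv])
        rwa [e] at this
      have hx'' : x ∈ TD (Q := Q) ψ v (ee Q a b • ω') := by
        have := (TD_ap (ψ := ψ) hgv ω').2 hx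
        rwa [hgx] at this
      -- the two orbits coincide
      have hob : ob Q v (ee Q a b • ω') = ob Q v ω' := by
        by_contra hne'
        have hne1 : ob Q v ω' ≠ ob Q v ω₀ := by
          intro h
          apply hnf'
          intro u hu
          rw [full_iff_of_ob h]
          exact h₀ u hu
        have hne2 : ob Q v (ee Q a b • ω') ≠ ob Q v ω₀ := by
          intro h
          apply hnf''
          intro u hu
          rw [full_iff_of_ob h]
          exact h₀ u hu
        have hf : Function.Injective (fun i : Fin 3 => (![⟨ob Q v ω₀, by rw [TOb_ob]; exact h₀ x hvx⟩,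
            ⟨ob Q v ω', by rw [TOb_ob]; exact hx⟩,
            ⟨ob Q v (ee Q a b • ω'), by rw [TOb_ob]; exact hx''⟩] i : {O : Ob Z Q v // x ∈ TOb ψ v O})) := by
          intro i j hij
          fin_cases i <;> fin_cases j
          · rfl
          · exact absurd (congrArg Subtype.val hij).symm hne1
          · exact absurd (congrArg Subtype.val hij).symm hne2
          · exact absurd (congrArg Subtype.val hij) hne1
          · rfl
          · exact absurd (congrArg Subtype.val hij).symm hne'
          · exact absurd (congrArg Subtype.val hij) hne2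
          · exact absurd (congrArg Subtype.val hij) hne'
          · rfl
        have h5 := Nat.card_le_card_of_injective _ hf
        rw [Nat.card_eq_fintype_card, Fintype.card_fin] at h5
        have h6 := hmmX x hXx
        rw [hm'] at h6
        change mm Z ψ Q v x = 2 at h6
        unfold mm at h6
        omega
      have h1 := full_iff_of_ob (ψ := ψ) hob
      have h2 := (TD_ap (ψ := ψ) hgv ω').2 hz
      rw [h1] at h2
      have h3 := AddSubgroup.sub_mem _ h2 hz
      have h4 := hsing ω' hnf' _ h3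
      rw [ee_ap ha hab] at h4
      have e : z + polar Q z b • a - polar Q z a • b - (Q b * polar Q z a) • a - z =
          (polar Q z b - Q b * polar Q z a) • a - polar Q z a • b := by module
      rw [e, qsub, qsmul, qsmul, psl, psr, ha, hab] at h4
      have h5 : polar Q z a * polar Q z a * Q b = 0 := by linear_combination h4
      exact mul_ne_zero (mul_ne_zero hza hza) hb h5
    have hcount := sum_mm_filter (Z := Z) (ψ := ψ) (Q := Q) v X
    rw [Finset.sum_congr rfl (fun x hx => by rw [hmmX x (Finset.mem_filter.1 hx).2, hm']),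
      Finset.sum_const, smul_eq_mul] at hcount
    have hO₀ : (univ.filter fun x : V => x ∈ TOb ψ v (ob Q v ω₀) ∧ X x).card = (univ.filter X).card := by
      congr 1
      ext x
      simp only [mem_filter, mem_univ, true_and, TOb_ob]
      exact ⟨fun h => h.2, fun h => ⟨h₀ x ((hXdef x).1 h).1, h⟩⟩
    rw [← Finset.add_sum_erase _ _ (Finset.mem_univ (ob Q v ω₀)), hO₀] at hcount
    have hO : ∀ O ∈ (univ.erase (ob Q v ω₀)),
        Fintype.card F * (univ.filter fun x : V => x ∈ TOb ψ v O ∧ X x).card ≤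
          r * (univ.filter fun x : V => x ∈ TOb ψ v O).card := by
      intro O hO
      have hOne := (Finset.mem_erase.1 hO).1
      obtain ⟨ω', rfl⟩ := ob_surj v O
      simp only [TOb_ob]
      by_cases hex : ∃ x, x ∈ TD (Q := Q) ψ v ω' ∧ X x
      · obtain ⟨x, hx, hXx⟩ := hex
        have hnf' : ¬ Full ψ Q v ω' := fun h => hOne (full_unique hQ hψ hnum hlt hv hv0 h h₀)
        exact weight_plane hnum.hr hv0 (fun t => smul_self_mem_TD v t ω') (hplane ω' x hnf' hx hXx)
          (fun x hx => ((hXdef x).1 hx).2.2)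
      · rw [Finset.filter_false_of_mem (fun x _ h => hex ⟨x, h⟩), Finset.card_empty, mul_zero]
        exact Nat.zero_le _
    have h3 := Finset.sum_le_sum hO
    rw [← Finset.mul_sum, ← Finset.mul_sum] at h3
    have h4 := sum_card_TOb (Z := Z) (ψ := ψ) hQ hψ hv0
    rw [← Finset.add_sum_erase _ _ (Finset.mem_univ (ob Q v ω₀)), TOb_ob,
      card_full_TD hnum hv hv0 hψ h₀] at h4
    generalize (∑ x ∈ univ.erase (ob Q v ω₀), (univ.filter fun y : V => y ∈ TOb ψ v x ∧ X y).card) = A at *
    generalize (∑ x ∈ univ.erase (ob Q v ω₀), (univ.filter fun y : V => y ∈ TOb ψ v x).card) = B at *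
    have hX1 : 1 ≤ (univ.filter X).card :=
      Finset.card_pos.2 ⟨x₁, Finset.mem_filter.2 ⟨Finset.mem_univ _, (hXdef x₁).2 ⟨hvx₁, hqx₁, hx₁s⟩⟩⟩
    generalize (univ.filter X).card = k at *
    have hA : A = k := by omega
    subst hA
    have hr1 : 1 ≤ r := by
      have h7 := hnum.hr
      have h8 : 1 < Fintype.card F := Fintype.one_lt_card
      omega
    have hN := hnum.hN
    have h5 : r * (Fintype.card F * N₁) ≤ r * (Fintype.card F * Nat.card Z) := by
      rw [← h4, mul_add]
      have e : Fintype.card F * s = Fintype.card F * A + Fintype.card F * Fintype.card F := by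
        rw [← hXc]; ring
      omega
    have h6 : N₁ ≤ Nat.card Z :=
      Nat.le_of_mul_le_mul_left (Nat.le_of_mul_le_mul_left h5 hr1) hqpos
    have h7 := hnum.hB
    have h8 : Nat.card Z = N₁ := by omega
    obtain ⟨d, P₁, hP₁, hd⟩ := count_full hQ hn hψ hnum hlt hfull
    rw [h8] at hd
    have h9 : N₁ ∣ (N₁ + 1) * P₁ := ⟨d, hd⟩
    have h10 : N₁ ∣ P₁ := by
      have hc : Nat.Coprime N₁ (N₁ + 1) := by simp
      exact hc.dvd_of_dvd_mul_left h9
    have hP₁0 : 0 < P₁ := by
      rcases Nat.eq_zero_or_pos P₁ with h | h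
      · exfalso
        rw [h, mul_zero] at hP₁
        have : (0 : V) ∈ univ.filter fun x : V => polar Q v x = 0 := by
          rw [Finset.mem_filter]; exact ⟨Finset.mem_univ _, polar_zero_right Q v⟩
        have := Finset.card_pos.2 ⟨_, this⟩
        omega
      · exact h
    have h11 := Nat.le_of_dvd hP₁0 h10
    -- but `N₁ > P₁`
    have h12 : r * (Fintype.card F * N₁) ≤ r * P := by
      rw [hP₁]
      exact Nat.mul_le_mul_left _ (Nat.mul_le_mul_left _ h11)
    have e : Fintype.card F * s = Fintype.card F * A + Fintype.card F * Fintype.card F := by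
      rw [← hXc]; ring
    have h13 : 1 ≤ Fintype.card F * A := Nat.mul_pos hqpos hX1
    omega

end C

end Cfsg.Agent.Mdx.Ort
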