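import Cfsg.Agent.Mdx.O7

/-!
All dual fixators are full; the final contradiction over fields with at least four elements.
-/

set_option autoImplicit false

namespace Cfsg.Agent.Mdx.Ort

open QuadraticMap Cfsg.Agent.Orth Cfsg.Agent.OMax Finset

variable {F V : Type*} [Field F] [AddCommGroup V] [Module F V] {Q : QuadraticForm F V}

variable {Z : Type*} [MulAction (SGrp Q) Z] {ψ : AddChar F ℂ}

section Full

variable [Finite F] [FiniteDimensional F V]

theorem AA_of_full (hQ : (polarBilin Q).Nondegenerate) (hψ : ψ ≠ 1) {u : V} {ω : Z}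
    (h : Full ψ Q u ω) {b : V} (hb : b ∈ AA (Q := Q) u ω) : b ∈ Submodule.span F {u} := by
  have : Finite V := Module.finite_of_finite F
  have h1 : b ∈ dp ψ (polarBilin Q) (PV Q u) := by
    intro x hx
    have := (mem_AA_iff hQ hψ u b ω).1 hb x (h x (mem_PV.1 hx))
    rw [pbil, pc]; exact this
  rw [dp_PV hQ hψ] at h1
  exact h1

/-- Trivial dual fixator. -/
def Triv (ψ : AddChar F ℂ) (Q : QuadraticForm F V) [MulAction (SGrp Q) Z] (v : V) (ω : Z) : Prop :=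
  ∀ x ∈ TD (Q := Q) ψ v ω, x ∈ Submodule.span F {v}

omit [Finite F] [FiniteDimensional F V] in
theorem Triv.smul {v : V} {ω : Z} (h : Triv ψ Q v ω) {c : F} (hc : c ≠ 0) : Triv ψ Q (c • v) ω := by
  intro x hx
  rw [TD_smul ψ hc] at hx
  obtain ⟨t, ht⟩ := Submodule.mem_span_singleton.1 (h _ hx)
  rw [Submodule.mem_span_singleton]
  refine ⟨t, ?_⟩
  rw [smul_comm, ht, smul_smul, mul_inv_cancel₀ hc, one_smul]

/-- Triviality propagates to the whole group. -/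
theorem fixed_of_triv (hQ : (polarBilin Q).Nondegenerate) (hn : 7 ≤ Module.finrank F V) (hψ : ψ ≠ 1)
    {ω : Z} (hft : ∀ v, Q v = 0 → v ≠ 0 → Full ψ Q v ω ∨ Triv ψ Q v ω) {v : V} (hv : Q v = 0)
    (hv0 : v ≠ 0) (h : Triv ψ Q v ω) (g : SGrp Q) : g • ω = ω := by
  have step : ∀ v u, Q v = 0 → v ≠ 0 → Triv ψ Q v ω → Q u = 0 → u ≠ 0 → polar Q v u = 0 →
      Triv ψ Q u ω := by
    intro v u hv hv0 h hu hu0 hvu
    rcases hft u hu hu0 with h1 | h1
    · have h2 : u ∈ AA (Q := Q) v ω := AA_eq_of_TD_le hQ hψ h hvu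
      have h3 := AA_of_full hQ hψ h1 (AA_swap hv hu hvu h2)
      obtain ⟨c, rfl⟩ := Submodule.mem_span_singleton.1 h3
      have hc : c ≠ 0 := by rintro rfl; exact hv0 (zero_smul _ _)
      have h4 := h.smul (inv_ne_zero hc)
      rwa [smul_smul, inv_mul_cancel₀ hc, one_smul] at h4
    · exact h1
  have hall : ∀ u, Q u = 0 → u ≠ 0 → Triv ψ Q u ω := by
    intro u hu hu0
    obtain ⟨e, f, he, -, hef, hve, hue, -⟩ := exists_hyp_pair hQ hn v u
    have he0 : e ≠ 0 := by rintro rfl; rw [polar_zero_left] at hef; exact one_ne_zero hef.symm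
    have h1 := step v e hv hv0 h he he0 hve
    exact step e u he he0 h1 hu hu0 (by rw [pc]; exact hue)
  refine fixed_of_AA (fun u b hu hb => ?_) g
  by_cases hu0 : u = 0
  · have : ee Q u b = 1 := by
      apply ap_ext; intro x
      rw [ee_ap hu hb, ap_one, hu0]; simp
    rw [this, one_smul]
  · exact (AA_eq_of_TD_le hQ hψ (hall u hu hu0) hb).2

theorem hrot_sq_mem (hQ : (polarBilin Q).Nondegenerate) (hn : 7 ≤ Module.finrank F V) {a x : V} {d : F} (hd : d ≠ 0) (ha : Q a = 0)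
    (hx : Q x = 0) (hax : polar Q a x = 1) :
    hrot Q a x (d * d) (mul_ne_zero hd hd) ha hx hax ∈ SGrp Q := by
  rw [SGrp_eq_comm hQ hn]
  have h := mul_self_mem_commutator hQ (hrot Q a x d hd ha hx hax)
  have e : hrot Q a x d hd ha hx hax * hrot Q a x d hd ha hx hax =
      hrot Q a x (d * d) (mul_ne_zero hd hd) ha hx hax := OGrp_ext fun v => hrotMap_comp ha hx hax v
  rwa [e] at h

/-- Step F over fields with an element `d ≠ 0`, `d² ≠ 1`. -/
theorem not_all_full (hQ : (polarBilin Q).Nondegenerate) (hn : 7 ≤ Module.finrank F V) (hψ : ψ ≠ 1)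
    (hd : ∃ d : F, d ≠ 0 ∧ d * d ≠ 1) [Nonempty Z]
    (hall : ∀ (v : V) (ω : Z), Q v = 0 → v ≠ 0 → Full ψ Q v ω)
    (hone : ∀ (v : V) (ω ω' : Z), Q v = 0 → v ≠ 0 → ob Q v ω = ob Q v ω') : False := by
  obtain ⟨d, hd0, hd1⟩ := hd
  obtain ⟨v, w, hv, hw, hvw, -⟩ := exists_hyp_pair hQ hn (0 : V) 0
  have hv0 : v ≠ 0 := by rintro rfl; rw [polar_zero_left] at hvw; exact one_ne_zero hvw.symm
  obtain ⟨c, hc⟩ : ∃ c, c = d * d := ⟨_, rfl⟩
  have hc0 : d * d ≠ 0 := mul_ne_zero hd0 hd0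
  let h : SGrp Q := ⟨hrot Q v w (d * d) hc0 hv hw hvw, hrot_sq_mem hQ hn hd0 hv hw hvw⟩
  have hap : ∀ x, ap h x = x + ((d * d - 1) * polar Q x w) • v + (((d * d)⁻¹ - 1) * polar Q x v) • w := by
    intro x
    exact hrot_apply Q v w (d * d) hc0 hv hw hvw x
  have hvv : polar Q v v = 0 := by rw [pself, hv, mul_zero]
  have hhv : ap h v = c • v := by
    rw [hap, hvv, hvw, hc]; module
  have hhW : ∀ x, polar Q v x = 0 → polar Q w x = 0 → ap h x = x := by
    intro x h1 h2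
    rw [hap, pc Q x w, h2, pc Q x v, h1]; simp
  have hcc : c ≠ 0 := by rw [hc]; exact hc0
  have hc1 : c - 1 ≠ 0 := by rw [hc]; exact sub_ne_zero.2 hd1
  -- decomposition of vectors orthogonal to `v`
  have hdec : ∀ x, polar Q v x = 0 → ∃ (y : V) (t : F), x = y + t • v ∧ polar Q v y = 0 ∧ polar Q w y = 0 := by
    intro x hx
    refine ⟨x - polar Q w x • v, polar Q w x, by abel, ?_, ?_⟩
    · rw [pdr, psr, hx, hvv]; ring
    · rw [pdr, psr, pc Q w v, hvw]; ring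
  have heev : ∀ (y : V) (t : F), polar Q v y = 0 → ee Q v (y + t • v) = ee Q v y := by
    intro y t hy
    rw [ee_add hy (by rw [psr, hvv, mul_zero]), ee_smul_self, mul_one]
  have hhee : ∀ y ω, polar Q v y = 0 → polar Q w y = 0 → h • ee Q v y • (ω : Z) = ee Q v (c • y) • h • ω := by
    intro y ω h1 h2
    rw [smul_smul, smul_smul]
    congr 1
    rw [← mul_inv_eq_iff_eq_mul, ee_conj, hhv, hhW y h1 h2, ee_smul_left hcc]
  -- a fixed point of `h`
  obtain ⟨ω₁⟩ := ‹Nonempty Z›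
  obtain ⟨ω₀, hω₀⟩ : ∃ ω₀ : Z, h • ω₀ = ω₀ := by
    obtain ⟨d₁, hd₁, hd₁'⟩ := (ob_eq_iff v _ _).1 (hone v (h • ω₁) ω₁ hv hv0)
    obtain ⟨y, t, hyt, hvy, hwy⟩ := hdec d₁ hd₁
    refine ⟨ee Q v (-((c - 1)⁻¹ • y)) • ω₁, ?_⟩
    have h1 : polar Q v (-((c - 1)⁻¹ • y)) = 0 := by rw [polar_neg_right, psr, hvy, mul_zero, neg_zero]
    have h2 : polar Q w (-((c - 1)⁻¹ • y)) = 0 := by rw [polar_neg_right, psr, hwy, mul_zero, neg_zero]
    rw [hhee _ _ h1 h2, ← hd₁', hyt, heev y t hvy, ← mul_smul, ← ee_add (by rw [psr, h1, mul_zero]) hvy]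
    congr 2
    have e : (-((c - 1)⁻¹ • y) : V) = c • (-((c - 1)⁻¹ • y)) + ((c - 1) * (c - 1)⁻¹) • y := by module
    rw [mul_inv_cancel₀ hc1, one_smul] at e
    exact e.symm
  -- a commuting Siegel element
  obtain ⟨a, f, ha, -, haf, hva, hwa, -⟩ := exists_hyp_pair hQ hn v w
  have ha0 : a ≠ 0 := by rintro rfl; rw [polar_zero_left] at haf; exact one_ne_zero haf.symm
  obtain ⟨b, hb, hvb, hwb, hab⟩ := exists_nonsing_triple hQ hn v w a
  have hcomm : h * ee Q a b = ee Q a b * h := by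
    rw [← mul_inv_eq_iff_eq_mul, ee_conj, hhW a hva hwa, hhW b hvb hwb]
  have h1 : h • ee Q a b • ω₀ = ee Q a b • ω₀ := by
    rw [← mul_smul, hcomm, mul_smul, hω₀]
  have h2 : ee Q a b • ω₀ = ω₀ := by
    obtain ⟨x, hx, hx'⟩ := (ob_eq_iff v _ _).1 (hone v (ee Q a b • ω₀) ω₀ hv hv0)
    obtain ⟨y, t, hyt, hvy, hwy⟩ := hdec x hx
    rw [hyt, heev y t hvy] at hx'
    rw [← hx', hhee y ω₀ hvy hwy, hω₀] at h1
    have h3 : (c - 1) • y ∈ AA (Q := Q) v ω₀ := by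
      refine ⟨by rw [psr, hvy, mul_zero], ?_⟩
      have hny : polar Q v (-y) = 0 := by rw [polar_neg_right, hvy, neg_zero]
      have e : (c - 1) • y = -y + c • y := by module
      rw [e, ee_add hny (by rw [psr, hvy, mul_zero]), mul_smul, h1, ee_neg hvy, inv_smul_smul]
    have h4 := AA_of_full hQ hψ (hall v ω₀ hv hv0) h3
    obtain ⟨t', ht'⟩ := Submodule.mem_span_singleton.1 h4
    have h5 : t' = 0 := by
      have := congrArg (fun z => polar Q w z) ht'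
      simp only [psr, hwy, mul_zero, pc Q w v, hvw, mul_one] at this
      exact this
    rw [h5, zero_smul] at ht'
    have hy : y = 0 := (smul_eq_zero.1 ht'.symm).resolve_left hc1
    rw [← hx', hy, ee_zero, one_smul]
  have h3 := AA_of_full hQ hψ (hall a ω₀ ha ha0) (show b ∈ AA (Q := Q) a ω₀ from ⟨hab, h2⟩)
  obtain ⟨t, rfl⟩ := Submodule.mem_span_singleton.1 h3
  apply hb
  rw [qsmul, ha, mul_zero]

end Full

section Main

variable [Fintype F] [FiniteDimensional F V] [Finite Z] {Bd r P s K N₁ S : ℕ}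

variable (hQ : (polarBilin Q).Nondegenerate) (hn : 7 ≤ Module.finrank F V) (hψ : ψ ≠ 1)
  (hst : ∀ v, Q v = 0 → v ≠ 0 → Star Z ψ Q v) (hnum : Num Q Bd r P s K N₁ S)
  (hlt : Nat.card Z < Bd) (hfull : ∃ (v : V) (ω : Z), Q v = 0 ∧ v ≠ 0 ∧ Full ψ Q v ω)

include hQ hn hψ hst hnum hlt hfull in
theorem all_full [MulAction.IsPretransitive (SGrp Q) Z] (hmv : ∀ ω : Z, ∃ g : SGrp Q, g • ω ≠ ω)
    {v : V} (hv : Q v = 0) (hv0 : v ≠ 0) (ω : Z) : Full ψ Q v ω := by
  by_contra hnf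
  have hft : ∀ u, Q u = 0 → u ≠ 0 → Full ψ Q u ω ∨ Triv ψ Q u ω := fun u hu hu0 =>
    full_or_trivial hQ hn hψ hst hnum hlt hfull hu hu0 ω
  obtain ⟨g, hg⟩ := hmv ω
  exact hg (fixed_of_triv hQ hn hψ hft hv hv0 ((hft v hv hv0).resolve_left hnf) g)

include hQ hn hψ hst hnum hlt hfull in
/-- Final contradiction in the presence of a full dual fixator, at least four field elements. -/
theorem false_of_full [MulAction.IsPretransitive (SGrp Q) Z] (hmv : ∀ ω : Z, ∃ g : SGrp Q, g • ω ≠ ω)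
    (hd : ∃ d : F, d ≠ 0 ∧ d * d ≠ 1) : False := by
  have hne : Nonempty Z := by
    obtain ⟨v, ω, -⟩ := hfull
    exact ⟨ω⟩
  have h1 : ∀ (v : V) (ω : Z), Q v = 0 → v ≠ 0 → Full ψ Q v ω := fun v ω hv hv0 =>
    all_full hQ hn hψ hst hnum hlt hfull hmv hv hv0 ω
  exact not_all_full hQ hn hψ hd h1 (fun v ω ω' hv hv0 =>
    full_unique hQ hψ hnum hlt hv hv0 (h1 v ω hv hv0) (h1 v ω' hv hv0))

end Main

end Cfsg.Agent.Mdx.Ort
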