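import Cfsg.Agent.Mdx.O8

/-!
The final contradiction over the field with three elements.
-/

set_option autoImplicit false

namespace Cfsg.Agent.Mdx.Ort

open QuadraticMap Cfsg.Agent.Orth Cfsg.Agent.OMax Finset

variable {F V : Type*} [Field F] [AddCommGroup V] [Module F V] {Q : QuadraticForm F V}

variable {Z : Type*} [MulAction (SGrp Q) Z] {ψ : AddChar F ℂ}

section Refl

variable [Finite F] [FiniteDimensional F V]

/-- A product of two reflections in vectors of the same norm. -/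
theorem exists_rr (hQ : (polarBilin Q).Nondegenerate) (hn : 7 ≤ Module.finrank F V) {x y : V}
    (hx : Q x ≠ 0) (hxy : Q y = Q x) : ∃ g : SGrp Q, ∀ z, ap g z = z - ((Q x)⁻¹ * polar Q z y) • y -
      ((Q x)⁻¹ * (polar Q z x - (Q x)⁻¹ * polar Q z y * polar Q y x)) • x := by
  have hy : Q y ≠ 0 := by rw [hxy]; exact hx
  have h := reflProd_mem_commutator hQ (l := [⟨x, hx⟩, ⟨y, hy⟩]) ⟨1, rfl⟩
    ⟨Q x, by rw [nrm_cons, nrm_cons, nrm_nil, mul_one, hxy]⟩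
  rw [reflProd_cons, reflProd_cons, reflProd_nil, mul_one] at h
  refine ⟨⟨refl Q x hx * refl Q y hy, by rw [SGrp_eq_comm hQ hn]; exact h⟩, fun z => ?_⟩
  rw [ap_def]
  change (refl Q x hx : V ≃ₗ[F] V) ((refl Q y hy : V ≃ₗ[F] V) z) = _
  rw [refl_apply, refl_apply, hxy, pdl, psl]

end Refl

section Ext

variable [FiniteDimensional F V]

theorem exists_nonsing_perp (hQ : (polarBilin Q).Nondegenerate) (S : Submodule F V)
    (hS : S ⊓ perp Q S = ⊥) (hd : Module.finrank F S < Module.finrank F V) :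
    ∃ z ∈ perp Q S, Q z ≠ 0 := by
  by_contra hcon
  push Not at hcon
  have h1 : perp Q S ≤ S := by
    intro x hx
    rw [← perp_perp hQ S]
    intro y hy
    have h2 := hcon _ (Submodule.add_mem _ hy hx)
    rw [qadd, hcon y hy, hcon x hx] at h2
    simpa using h2
  have h3 : perp Q S = ⊥ := by
    rw [inf_eq_right.2 h1] at hS
    exact hS
  have h4 := finrank_perp hQ S
  rw [h3, finrank_bot] at h4
  omega

omit [FiniteDimensional F V] in
theorem ext_sup {S T : Submodule F V} (hS : S ⊓ perp Q S = ⊥) (hT : T ⊓ perp Q T = ⊥)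
    (hTS : T ≤ perp Q S) : (S ⊔ T) ⊓ perp Q (S ⊔ T) = ⊥ := by
  rw [eq_bot_iff]
  rintro x ⟨hx, hx'⟩
  obtain ⟨s, hs, t, ht, rfl⟩ := Submodule.mem_sup.1 hx
  have h1 : t ∈ T ⊓ perp Q T := by
    refine ⟨ht, fun t' ht' => ?_⟩
    have h2 := hx' t' (Submodule.mem_sup_right ht')
    change polar Q t' (s + t) = 0 at h2
    have h3 : polar Q t' s = 0 := by
      rw [pc]; exact hTS ht' s hs
    rwa [par, h3, zero_add] at h2
  rw [hT] at h1
  have h0 : t = 0 := by simpa using h1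
  subst h0
  rw [add_zero] at hx' ⊢
  have h2 : s ∈ S ⊓ perp Q S := ⟨hs, fun s' hs' => hx' s' (Submodule.mem_sup_left hs')⟩
  rwa [hS] at h2

omit [FiniteDimensional F V] in
theorem nd_one {z : V} (hz : polar Q z z ≠ 0) :
    (Submodule.span F {z}) ⊓ perp Q (Submodule.span F {z}) = ⊥ := by
  rw [eq_bot_iff]
  rintro x ⟨hx, hx'⟩
  obtain ⟨c, rfl⟩ := Submodule.mem_span_singleton.1 hx
  have h1 : polar Q z (c • z) = 0 := hx' z (Submodule.mem_span_singleton_self z)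
  rw [psr] at h1
  rw [(mul_eq_zero.1 h1).resolve_right hz]
  simp

omit [FiniteDimensional F V] in
theorem nd_two {z z' : V} (hz : polar Q z z * polar Q z' z' - polar Q z z' * polar Q z z' ≠ 0) :
    (Submodule.span F {z, z'}) ⊓ perp Q (Submodule.span F {z, z'}) = ⊥ := by
  rw [eq_bot_iff]
  rintro x ⟨hx, hx'⟩
  obtain ⟨c, d, rfl⟩ := Submodule.mem_span_pair.1 hx
  obtain ⟨h1, h2⟩ := mem_perp_pair.1 hx'
  rw [par, psr, psr] at h1 h2
  rw [pc Q z' z] at h2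
  have h3 : c * (polar Q z z * polar Q z' z' - polar Q z z' * polar Q z z') = 0 := by
    linear_combination polar Q z' z' * h1 - polar Q z z' * h2
  have h4 : d * (polar Q z z * polar Q z' z' - polar Q z z' * polar Q z z') = 0 := by
    linear_combination polar Q z z * h2 - polar Q z z' * h1
  rw [(mul_eq_zero.1 h3).resolve_right hz, (mul_eq_zero.1 h4).resolve_right hz]
  simp

end Ext

section Aff

variable [Finite F] [FiniteDimensional F V]

variable (hQ : (polarBilin Q).Nondegenerate) (hψ : ψ ≠ 1)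
    (hall : ∀ (v : V) (ω : Z), Q v = 0 → v ≠ 0 → Full ψ Q v ω)
    (hone : ∀ (v : V) (ω ω' : Z), Q v = 0 → v ≠ 0 → ob Q v ω = ob Q v ω')

include hQ hψ hall in
theorem span_of_fixed {v b : V} (hv : Q v = 0) (hv0 : v ≠ 0) (hb : polar Q v b = 0) {ω : Z}
    (h : ee Q v b • ω = ω) : b ∈ Submodule.span F {v} :=
  AA_of_full hQ hψ (hall v ω hv hv0) ⟨hb, h⟩

include hone in
omit [Finite F] [FiniteDimensional F V] in
theorem aff_ex {v w : V} (hv : Q v = 0) (hv0 : v ≠ 0) (hvw : polar Q v w = 1) (ω ω' : Z) :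
    ∃ x, polar Q v x = 0 ∧ polar Q w x = 0 ∧ ω' = ee Q v x • ω := by
  obtain ⟨d, hd, hd'⟩ := (ob_eq_iff v _ _).1 (hone v ω' ω hv hv0)
  have hvv : polar Q v v = 0 := by rw [pself, hv, mul_zero]
  have h1 : polar Q v (d - polar Q w d • v) = 0 := by rw [pdr, psr, hd, hvv]; ring
  refine ⟨d - polar Q w d • v, h1, by rw [pdr, psr, pc Q w v, hvw]; ring, ?_⟩
  rw [← hd']
  have e : d = (d - polar Q w d • v) + polar Q w d • v := by abel
  conv_lhs => rw [e]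
  rw [ee_add h1 (by rw [psr, hvv, mul_zero]), ee_smul_self, mul_one]

include hQ hψ hall in
theorem aff_uniq {v w : V} (hv : Q v = 0) (hv0 : v ≠ 0) (hvw : polar Q v w = 1) {ω : Z} {x x' : V}
    (hx : polar Q v x = 0) (hwx : polar Q w x = 0) (hx' : polar Q v x' = 0) (hwx' : polar Q w x' = 0)
    (h : ee Q v x • ω = ee Q v x' • ω) : x = x' := by
  have hn : polar Q v (-x') = 0 := by rw [polar_neg_right, hx', neg_zero]
  have h1 : ee Q v (-x' + x) • ω = ω := by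
    rw [ee_add hn hx, mul_smul, h, ee_neg hx', inv_smul_smul]
  have h2 := span_of_fixed hQ hψ hall hv hv0 (by rw [par, hn, hx, add_zero]) h1
  obtain ⟨c, hc⟩ := Submodule.mem_span_singleton.1 h2
  have h3 : c = 0 := by
    have := congrArg (fun z => polar Q w z) hc
    simp only [psr, par, polar_neg_right, hwx, hwx', pc Q w v, hvw] at this
    simpa using this
  rw [h3, zero_smul] at hc
  have : x - x' = 0 := by rw [hc]; abel
  exact sub_eq_zero.1 this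

omit [Finite F] [FiniteDimensional F V] in
theorem aff_act {g : SGrp Q} {v : V} (hg : ap g v = v) (x : V) (ω : Z) :
    g • ee Q v x • ω = ee Q v (ap g x) • g • ω := by
  rw [smul_smul, smul_smul]
  congr 1
  rw [← mul_inv_eq_iff_eq_mul, ee_conj, hg]

omit [Finite F] [FiniteDimensional F V] in
theorem aff_add {v x y : V} (hx : polar Q v x = 0) (hy : polar Q v y = 0) (ω : Z) :
    ee Q v x • ee Q v y • ω = ee Q v (x + y) • ω := by
  rw [ee_add hx hy, mul_smul]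

end Aff

/-- `g` acts as a product of the reflections in orthogonal vectors `x`, `y` of norm `e`. -/
def Rr (g : SGrp Q) (x y : V) (e : F) : Prop :=
  ∀ z, ap g z = z - (e⁻¹ * polar Q z x) • x - (e⁻¹ * polar Q z y) • y

theorem exists_Rr [Finite F] [FiniteDimensional F V] (hQ : (polarBilin Q).Nondegenerate)
    (hn : 7 ≤ Module.finrank F V) {x y : V} {e : F}
    (he : e ≠ 0) (hx : Q x = e) (hy : Q y = e) (hxy : polar Q x y = 0) : ∃ g : SGrp Q, Rr g x y e := by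
  obtain ⟨g, hg⟩ := exists_rr hQ hn (x := x) (y := y) (by rw [hx]; exact he) (by rw [hx, hy])
  refine ⟨g, fun z => ?_⟩
  rw [hg, hx, pc Q y x, hxy]
  module

theorem Rr.fix {g : SGrp Q} {x y z : V} {e : F} (h : Rr g x y e) (hx : polar Q z x = 0)
    (hy : polar Q z y = 0) : ap g z = z := by
  rw [h z, hx, hy]; simp

theorem Rr.conj {g : SGrp Q} {x y : V} {e : F} (h : Rr g x y e) (t : SGrp Q) (z : V) :
    ap t (ap g z) = ap t z - (e⁻¹ * polar Q (ap t z) (ap t x)) • ap t x -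
      (e⁻¹ * polar Q (ap t z) (ap t y)) • ap t y := by
  rw [h z, ap_sub, ap_sub, ap_smul, ap_smul, ap_polar, ap_polar]

theorem Rr.invol {g : SGrp Q} {x y : V} {e : F} (h : Rr g x y e) (he : e ≠ 0) (hx : Q x = e) (hy : Q y = e)
    (hxy : polar Q x y = 0) (z : V) : ap g (ap g z) = z := by
  have h1 : polar Q (ap g z) x = - polar Q z x := by
    rw [h z, pdl, pdl, psl, psl, pself, hx, pc Q y x, hxy]; field_simp; ring
  have h2 : polar Q (ap g z) y = - polar Q z y := by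
    rw [h z, pdl, pdl, psl, psl, pself, hy, hxy]; field_simp; ring
  rw [h (ap g z), h1, h2, h z]
  module

theorem Rr.polar_left {g : SGrp Q} {x y z : V} {e : F} (h : Rr g x y e) (he : e ≠ 0) (h2 : (2 : F) ≠ 0)
    (hx : Q x = e) (hxy : polar Q x y = 0) (hz : ap g z = z) : polar Q z x = 0 := by
  have h1 := h z
  rw [hz] at h1
  have h3 : (e⁻¹ * polar Q z x) • x + (e⁻¹ * polar Q z y) • y = 0 := by
    have : z - (e⁻¹ * polar Q z x) • x - (e⁻¹ * polar Q z y) • y - z = 0 := by rw [← h1, sub_self]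
    linear_combination (norm := module) -this
  have h4 := congrArg (fun u => polar Q u x) h3
  simp only [pal, psl, pself, hx, pc Q y x, hxy, polar_zero_left, mul_zero, add_zero] at h4
  have h5 : e⁻¹ * polar Q z x * (2 * e) = 2 * polar Q z x := by field_simp
  rw [h5] at h4
  exact (mul_eq_zero.1 h4).resolve_left h2

theorem Rr.symm {g : SGrp Q} {x y : V} {e : F} (h : Rr g x y e) : Rr g y x e := by
  intro z
  rw [h z]; abel

section Three

variable [Finite F] [FiniteDimensional F V]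

/-- A non-degenerate subspace of codimension at least two has a vector of given norm orthogonal to it
(three field elements). -/
theorem exists_norm_perp (hQ : (polarBilin Q).Nondegenerate) (hF : ∀ c : F, c = 0 ∨ c = 1 ∨ c = -1)
    (h3 : (3 : F) = 0) (S : Submodule F V) (hS : S ⊓ perp Q S = ⊥)
    (hd : Module.finrank F S + 2 ≤ Module.finrank F V) {e : F} (he : e ≠ 0) :
    ∃ z ∈ perp Q S, Q z = e ∧ (S ⊔ Submodule.span F {z}) ⊓ perp Q (S ⊔ Submodule.span F {z}) = ⊥ ∧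
      Module.finrank F ↥(S ⊔ Submodule.span F {z}) ≤ Module.finrank F S + 1 := by
  have h2 : (2 : F) ≠ 0 := by
    intro h
    apply one_ne_zero (α := F)
    linear_combination h3 - h
  have he' : ∀ c : F, c ≠ 0 → c = e ∨ c = -e := by
    intro c hc
    rcases hF c with h | h | h <;> rcases hF e with h' | h' | h' <;> first | exact absurd h hc | exact absurd h' he | skip
    · left; rw [h, h']
    · right; rw [h, h', neg_neg]
    · right; rw [h, h']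
    · left; rw [h, h']
  have hpp : ∀ z, Q z ≠ 0 → polar Q z z ≠ 0 := fun z hz => by rw [pself]; exact mul_ne_zero h2 hz
  have hfr : ∀ z, Module.finrank F ↥(S ⊔ Submodule.span F {z}) ≤ Module.finrank F S + 1 := by
    intro z
    refine (Submodule.finrank_add_le_finrank_add_finrank _ _).trans ?_
    have : Module.finrank F (Submodule.span F {z}) ≤ 1 := finrank_span_one_le z
    omega
  have hext : ∀ z, z ∈ perp Q S → Q z ≠ 0 →
      (S ⊔ Submodule.span F {z}) ⊓ perp Q (S ⊔ Submodule.span F {z}) = ⊥ := by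
    intro z hz hz0
    refine ext_sup hS (nd_one (hpp z hz0)) ?_
    rw [Submodule.span_singleton_le_iff_mem]
    exact hz
  obtain ⟨z, hz, hz0⟩ := exists_nonsing_perp hQ S hS (by omega)
  rcases he' _ hz0 with h | h
  · exact ⟨z, hz, h, hext z hz hz0, hfr z⟩
  obtain ⟨z', hz', hz0'⟩ := exists_nonsing_perp hQ _ (hext z hz hz0) (by have := hfr z; omega)
  have hz'S : z' ∈ perp Q S := fun u hu => hz' u (Submodule.mem_sup_left hu)
  have hzz' : polar Q z z' = 0 := hz' z (Submodule.mem_sup_right (Submodule.mem_span_singleton_self z))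
  rcases he' _ hz0' with h' | h'
  · exact ⟨z', hz'S, h', hext z' hz'S hz0', hfr z'⟩
  have h4 : Q (z + z') = e := by
    rw [qadd, h, h', hzz']
    linear_combination -e * h3
  exact ⟨z + z', Submodule.add_mem _ hz hz'S, h4, hext _ (Submodule.add_mem _ hz hz'S) (by rw [h4]; exact he), hfr _⟩

/-- Orthogonal configuration used over the field with three elements. -/
structure Cfg3 (Q : QuadraticForm F V) (v w x₁ x₂ x₃ z₁ z₂ : V) (e : F) : Prop where
  hv : Q v = 0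
  hw : Q w = 0
  hvw : polar Q v w = 1
  he : e ≠ 0
  h₁ : Q x₁ = e
  h₂ : Q x₂ = e
  h₃ : Q x₃ = e
  k₁ : Q z₁ = 1
  k₂ : Q z₂ = 1
  v₁ : polar Q v x₁ = 0
  v₂ : polar Q v x₂ = 0
  v₃ : polar Q v x₃ = 0
  vz₁ : polar Q v z₁ = 0
  vz₂ : polar Q v z₂ = 0
  w₁ : polar Q w x₁ = 0
  w₂ : polar Q w x₂ = 0
  w₃ : polar Q w x₃ = 0
  wz₁ : polar Q w z₁ = 0
  wz₂ : polar Q w z₂ = 0
  x₁₂ : polar Q x₁ x₂ = 0
  x₁₃ : polar Q x₁ x₃ = 0
  x₂₃ : polar Q x₂ x₃ = 0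
  z₁₂ : polar Q z₁ z₂ = 0
  x₁z₁ : polar Q x₁ z₁ = 0
  x₁z₂ : polar Q x₁ z₂ = 0
  x₂z₁ : polar Q x₂ z₁ = 0
  x₂z₂ : polar Q x₂ z₂ = 0
  x₃z₁ : polar Q x₃ z₁ = 0
  x₃z₂ : polar Q x₃ z₂ = 0

theorem exists_cfg3 (hQ : (polarBilin Q).Nondegenerate) (hn : 7 ≤ Module.finrank F V)
    (hF : ∀ c : F, c = 0 ∨ c = 1 ∨ c = -1) (h3 : (3 : F) = 0) :
    ∃ (v w x₁ x₂ x₃ z₁ z₂ : V) (e : F), Cfg3 Q v w x₁ x₂ x₃ z₁ z₂ e := by
  have h2 : (2 : F) ≠ 0 := by
    intro h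
    apply one_ne_zero (α := F)
    linear_combination h3 - h
  obtain ⟨v, w, hv, hw, hvw, -⟩ := exists_hyp_pair hQ hn (0 : V) 0
  have hS0 : (Submodule.span F {v, w}) ⊓ perp Q (Submodule.span F {v, w}) = ⊥ := by
    refine nd_two ?_
    rw [pself, pself, hv, hw, hvw]; simp
  have hd0 := finrank_span_pair_le (F := F) v w
  obtain ⟨z₁, hz₁, kz₁, hS1, hd1⟩ := exists_norm_perp hQ hF h3 _ hS0 (by omega) (one_ne_zero (α := F))
  obtain ⟨z₂, hz₂, kz₂, hS2, hd2⟩ := exists_norm_perp hQ hF h3 _ hS1 (by omega) (one_ne_zero (α := F))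
  obtain ⟨a, ha, ka, hS3, hd3⟩ := exists_norm_perp hQ hF h3 _ hS2 (by omega) (one_ne_zero (α := F))
  obtain ⟨b, hb, kb, hS4, hd4⟩ := exists_norm_perp hQ hF h3 _ hS3 (by omega) (one_ne_zero (α := F))
  obtain ⟨c, hc, kc⟩ := exists_nonsing_perp hQ _ hS4 (by omega)
  obtain ⟨S0, hS0d⟩ : ∃ S0, S0 = Submodule.span F {v, w} := ⟨_, rfl⟩
  obtain ⟨S1, hS1d⟩ : ∃ S1, S1 = S0 ⊔ Submodule.span F {z₁} := ⟨_, rfl⟩
  obtain ⟨S2, hS2d⟩ : ∃ S2, S2 = S1 ⊔ Submodule.span F {z₂} := ⟨_, rfl⟩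
  obtain ⟨S3, hS3d⟩ : ∃ S3, S3 = S2 ⊔ Submodule.span F {a} := ⟨_, rfl⟩
  obtain ⟨S4, hS4d⟩ : ∃ S4, S4 = S3 ⊔ Submodule.span F {b} := ⟨_, rfl⟩
  rw [← hS0d] at hz₁ hz₂ ha hb hc
  rw [← hS1d] at hz₂ ha hb hc
  rw [← hS2d] at ha hb hc
  rw [← hS3d] at hb hc
  rw [← hS4d] at hc
  have m01 : S0 ≤ S1 := by rw [hS1d]; exact le_sup_left
  have m12 : S1 ≤ S2 := by rw [hS2d]; exact le_sup_left
  have m23 : S2 ≤ S3 := by rw [hS3d]; exact le_sup_left
  have m34 : S3 ≤ S4 := by rw [hS4d]; exact le_sup_left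
  have iv : v ∈ S0 := by rw [hS0d]; exact Submodule.subset_span (by simp)
  have iw : w ∈ S0 := by rw [hS0d]; exact Submodule.subset_span (by simp)
  have iz₁ : z₁ ∈ S1 := by rw [hS1d]; exact Submodule.mem_sup_right (Submodule.mem_span_singleton_self _)
  have iz₂ : z₂ ∈ S2 := by rw [hS2d]; exact Submodule.mem_sup_right (Submodule.mem_span_singleton_self _)
  have ia : a ∈ S3 := by rw [hS3d]; exact Submodule.mem_sup_right (Submodule.mem_span_singleton_self _)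
  have ib : b ∈ S4 := by rw [hS4d]; exact Submodule.mem_sup_right (Submodule.mem_span_singleton_self _)
  have vz₁ : polar Q v z₁ = 0 := hz₁ v iv
  have wz₁ : polar Q w z₁ = 0 := hz₁ w iw
  have vz₂ : polar Q v z₂ = 0 := hz₂ v (m01 iv)
  have wz₂ : polar Q w z₂ = 0 := hz₂ w (m01 iw)
  have zz : polar Q z₁ z₂ = 0 := hz₂ z₁ iz₁
  have va : polar Q v a = 0 := ha v (m12 (m01 iv))
  have wa : polar Q w a = 0 := ha w (m12 (m01 iw))
  have za : polar Q z₁ a = 0 := ha z₁ (m12 iz₁)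
  have za' : polar Q z₂ a = 0 := ha z₂ iz₂
  have vb : polar Q v b = 0 := hb v (m23 (m12 (m01 iv)))
  have wb : polar Q w b = 0 := hb w (m23 (m12 (m01 iw)))
  have zb : polar Q z₁ b = 0 := hb z₁ (m23 (m12 iz₁))
  have zb' : polar Q z₂ b = 0 := hb z₂ (m23 iz₂)
  have ab : polar Q a b = 0 := hb a ia
  have vc : polar Q v c = 0 := hc v (m34 (m23 (m12 (m01 iv))))
  have wc : polar Q w c = 0 := hc w (m34 (m23 (m12 (m01 iw))))
  have zc : polar Q z₁ c = 0 := hc z₁ (m34 (m23 (m12 iz₁)))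
  have zc' : polar Q z₂ c = 0 := hc z₂ (m34 (m23 iz₂))
  have ac : polar Q a c = 0 := hc a (m34 ia)
  have bc : polar Q b c = 0 := hc b ib
  have az : polar Q a z₁ = 0 := by rw [pc]; exact za
  have az' : polar Q a z₂ = 0 := by rw [pc]; exact za'
  have bz : polar Q b z₁ = 0 := by rw [pc]; exact zb
  have bz' : polar Q b z₂ = 0 := by rw [pc]; exact zb'
  have cz : polar Q c z₁ = 0 := by rw [pc]; exact zc
  have cz' : polar Q c z₂ = 0 := by rw [pc]; exact zc'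
  rcases hF (Q c) with h | h | h
  · exact absurd h kc
  · exact ⟨v, w, a, b, c, z₁, z₂, 1, ⟨hv, hw, hvw, one_ne_zero, ka, kb, h, kz₁, kz₂, va, vb, vc, vz₁, vz₂,
      wa, wb, wc, wz₁, wz₂, ab, ac, bc, zz, az, az', bz, bz', cz, cz'⟩⟩
  · refine ⟨v, w, a + b, a - b, c, z₁, z₂, -1, ⟨hv, hw, hvw, neg_ne_zero.2 one_ne_zero, ?_, ?_, h, kz₁, kz₂,
      ?_, ?_, vc, vz₁, vz₂, ?_, ?_, wc, wz₁, wz₂, ?_, ?_, ?_, zz, ?_, ?_, ?_, ?_, cz, cz'⟩⟩
    · rw [qadd, ka, kb, ab]; linear_combination h3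
    · rw [qsub, ka, kb, ab]; linear_combination h3
    · rw [par, va, vb, add_zero]
    · rw [pdr, va, vb, sub_zero]
    · rw [par, wa, wb, add_zero]
    · rw [pdr, wa, wb, sub_zero]
    · rw [pal, pdr, pdr, pself, pself, ka, kb, ab, pc Q b a, ab]; ring
    · rw [pal, ac, bc, add_zero]
    · rw [pdl, ac, bc, sub_zero]
    · rw [pal, az, bz, add_zero]
    · rw [pal, az', bz', add_zero]
    · rw [pdl, az, bz, sub_zero]
    · rw [pdl, az', bz', sub_zero]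

/-- Adjusting a point to be fixed by an involution. -/
theorem fix_invol (hQ : (polarBilin Q).Nondegenerate) (hψ : ψ ≠ 1)
    (hall : ∀ (v : V) (ω : Z), Q v = 0 → v ≠ 0 → Full ψ Q v ω)
    (hone : ∀ (v : V) (ω ω' : Z), Q v = 0 → v ≠ 0 → ob Q v ω = ob Q v ω')
    (h2 : (2 : F) ≠ 0) {v w : V} (hv : Q v = 0) (hv0 : v ≠ 0) (hvw : polar Q v w = 1) {k : SGrp Q}
    (hkv : ap k v = v) (hkw : ap k w = w) (hkk : ∀ z, ap k (ap k z) = z) (ω : Z) :
    ∃ x, polar Q v x = 0 ∧ polar Q w x = 0 ∧ k • ee Q v x • ω = ee Q v x • ω ∧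
      ∀ g : SGrp Q, (∀ z, ap g (ap k z) = ap k (ap g z)) → ap g v = v → ap g w = w → g • ω = ω →
        ap g x = x := by
  obtain ⟨δ, hvδ, hwδ, hδ⟩ := aff_ex hone hv hv0 hvw ω (k • ω)
  have hvk : ∀ z, polar Q v (ap k z) = polar Q v z := fun z => by
    rw [← ap_polar k v z, hkv]
  have hwk : ∀ z, polar Q w (ap k z) = polar Q w z := fun z => by
    rw [← ap_polar k w z, hkw]
  have h1 : ap k δ + δ = 0 := by
    refine aff_uniq hQ hψ hall hv hv0 hvw (ω := ω) (by rw [par, hvk, hvδ, add_zero])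
      (by rw [par, hwk, hwδ, add_zero]) (polar_zero_right Q _) (polar_zero_right Q _) ?_
    rw [← aff_add (by rw [hvk, hvδ]) hvδ, ← hδ, ← aff_act hkv, ← hδ, ee_zero, one_smul, ← mul_smul]
    have : k * k = 1 := ap_ext fun z => hkk z
    rw [this, one_smul]
  have hx : δ = (2 : F) • ((2 : F)⁻¹ • δ) := by rw [smul_smul, mul_inv_cancel₀ h2, one_smul]
  have hkx : ap k ((2 : F)⁻¹ • δ) + δ = (2 : F)⁻¹ • δ := by
    rw [ap_smul]
    have h3 : ap k δ = -δ := eq_neg_of_add_eq_zero_left h1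
    rw [h3]
    have key : (2 : F)⁻¹ * 2 = 1 := inv_mul_cancel₀ h2
    linear_combination (norm := module) (-key) • δ
  refine ⟨(2 : F)⁻¹ • δ, by rw [psr, hvδ, mul_zero], by rw [psr, hwδ, mul_zero], ?_, ?_⟩
  · rw [aff_act hkv, hδ, aff_add (by rw [hvk, psr, hvδ, mul_zero]) hvδ, hkx]
  · intro g hgk hgv hgw hgω
    rw [ap_smul]
    congr 1
    have hvg : ∀ z, polar Q v (ap g z) = polar Q v z := fun z => by
      rw [← ap_polar g v z, hgv]
    have hwg : ∀ z, polar Q w (ap g z) = polar Q w z := fun z => by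
      rw [← ap_polar g w z, hgw]
    refine aff_uniq hQ hψ hall hv hv0 hvw (ω := ω) (by rw [hvg, hvδ]) (by rw [hwg, hwδ]) hvδ hwδ ?_
    have h4 : g • k • ω = k • ω := by
      have : g * k = k * g := ap_ext fun z => hgk z
      rw [← mul_smul, this, mul_smul, hgω]
    rw [hδ, aff_act hgv, hgω] at h4
    exact h4

/-- Step F over the field with three elements. -/
theorem not_all_full_three (hQ : (polarBilin Q).Nondegenerate) (hn : 7 ≤ Module.finrank F V) (hψ : ψ ≠ 1)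
    (hF : ∀ c : F, c = 0 ∨ c = 1 ∨ c = -1) (h3 : (3 : F) = 0) [Nonempty Z]
    (hall : ∀ (v : V) (ω : Z), Q v = 0 → v ≠ 0 → Full ψ Q v ω)
    (hone : ∀ (v : V) (ω ω' : Z), Q v = 0 → v ≠ 0 → ob Q v ω = ob Q v ω') : False := by
  have h2 : (2 : F) ≠ 0 := by
    intro h
    apply one_ne_zero (α := F)
    linear_combination h3 - h
  obtain ⟨v, w, x₁, x₂, x₃, z₁, z₂, e, C⟩ := exists_cfg3 hQ hn hF h3
  have hv0 : v ≠ 0 := by
    rintro rfl
    have := C.hvw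
    rw [polar_zero_left] at this
    exact one_ne_zero this.symm
  have he := C.he
  have hvv : polar Q v v = 0 := by rw [pself, C.hv, mul_zero]
  obtain ⟨k₁, hk₁⟩ := exists_Rr hQ hn he C.h₁ C.h₂ C.x₁₂
  obtain ⟨k₂, hk₂⟩ := exists_Rr hQ hn he C.h₂ C.h₃ C.x₂₃
  have hk₁v : ap k₁ v = v := hk₁.fix C.v₁ C.v₂
  have hk₁w : ap k₁ w = w := hk₁.fix C.w₁ C.w₂
  have hk₂v : ap k₂ v = v := hk₂.fix C.v₂ C.v₃
  have hk₂w : ap k₂ w = w := hk₂.fix C.w₂ C.w₃
  have hkk : ∀ z, ap k₁ (ap k₂ z) = ap k₂ (ap k₁ z) := by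
    intro z
    have e1 : ap k₁ x₃ = x₃ := hk₁.fix (by rw [pc]; exact C.x₁₃) (by rw [pc]; exact C.x₂₃)
    have e2 : ap k₁ x₂ = -x₂ := by
      rw [hk₁ x₂, pself, C.h₂, pc Q x₂ x₁, C.x₁₂]
      have : e⁻¹ * (2 * e) = 2 := by field_simp
      rw [this]; module
    rw [hk₂.conj k₁ z, e1, e2, hk₂ (ap k₁ z), polar_neg_right]
    module
  -- the common fixed point
  obtain ⟨ω₂⟩ := ‹Nonempty Z›
  obtain ⟨y₁, hvy₁, hwy₁, hky₁, -⟩ := fix_invol hQ hψ hall hone h2 C.hv hv0 C.hvw hk₁v hk₁w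
    (hk₁.invol he C.h₁ C.h₂ C.x₁₂) ω₂
  obtain ⟨y₂, hvy₂, hwy₂, hky₂, hg⟩ := fix_invol hQ hψ hall hone h2 C.hv hv0 C.hvw hk₂v hk₂w
    (hk₂.invol he C.h₂ C.h₃ C.x₂₃) (ee Q v y₁ • ω₂)
  obtain ⟨ω₀, hω₀⟩ : ∃ ω₀, ω₀ = ee Q v y₂ • ee Q v y₁ • ω₂ := ⟨_, rfl⟩
  have hkω₂ : k₂ • ω₀ = ω₀ := by rw [hω₀]; exact hky₂
  have hkω₁ : k₁ • ω₀ = ω₀ := by
    have := hg k₁ hkk hk₁v hk₁w hky₁
    rw [hω₀, aff_act hk₁v, this, hky₁]
  -- points fixed by `k₁`, `k₂`
  have hfix : ∀ (g : SGrp Q) (δ : V), polar Q v δ = 0 → polar Q w δ = 0 → g • ω₀ = ee Q v δ • ω₀ →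
      k₁ • g • ω₀ = g • ω₀ → k₂ • g • ω₀ = g • ω₀ →
      polar Q δ x₁ = 0 ∧ polar Q δ x₂ = 0 ∧ polar Q δ x₃ = 0 := by
    intro g δ hvδ hwδ hg h1 h2'
    have e1 : ap k₁ δ = δ := by
      refine aff_uniq hQ hψ hall C.hv hv0 C.hvw (ω := ω₀) ?_ ?_ hvδ hwδ ?_
      · rw [← hvδ]; conv_lhs => rw [← hk₁v]
        rw [ap_polar]
      · rw [← hwδ]; conv_lhs => rw [← hk₁w]
        rw [ap_polar]
      · rw [hg, aff_act hk₁v, hkω₁] at h1; exact h1
    have e2 : ap k₂ δ = δ := by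
      refine aff_uniq hQ hψ hall C.hv hv0 C.hvw (ω := ω₀) ?_ ?_ hvδ hwδ ?_
      · rw [← hvδ]; conv_lhs => rw [← hk₂v]
        rw [ap_polar]
      · rw [← hwδ]; conv_lhs => rw [← hk₂w]
        rw [ap_polar]
      · rw [hg, aff_act hk₂v, hkω₂] at h2'; exact h2'
    exact ⟨hk₁.polar_left he h2 C.h₁ C.x₁₂ e1,
      hk₁.symm.polar_left he h2 C.h₂ (by rw [pc]; exact C.x₁₂) e1,
      hk₂.symm.polar_left he h2 C.h₃ (by rw [pc]; exact C.x₂₃) e2⟩
  -- the Siegel element of order three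
  obtain ⟨a, ha⟩ : ∃ a, a = x₁ + x₂ + x₃ := ⟨_, rfl⟩
  obtain ⟨b, hb⟩ : ∃ b, b = e⁻¹ • (x₂ - x₁) := ⟨_, rfl⟩
  have hQa : Q a = 0 := by
    rw [ha, qadd, qadd, C.h₁, C.h₂, C.h₃, pal, C.x₁₂, C.x₁₃, C.x₂₃]
    linear_combination e * h3
  have hab : polar Q a b = 0 := by
    rw [ha, hb, psr, pdr, pal, pal, pal, pal, pself, pself, C.h₁, C.h₂, pc Q x₂ x₁, pc Q x₃ x₁,
      pc Q x₃ x₂, C.x₁₂, C.x₁₃, C.x₂₃]
    ring
  have hQb : Q b = - e⁻¹ := by
    rw [hb, qsmul, qsub, C.h₁, C.h₂, pc Q x₂ x₁, C.x₁₂]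
    have : e⁻¹ * e = 1 := inv_mul_cancel₀ he
    linear_combination 2 * e⁻¹ * this + e⁻¹ * h3
  have ht : ∀ z, ap (ee Q a b) z = z + (e⁻¹ * (polar Q z x₂ - polar Q z x₁)) • a -
      (polar Q z x₁ + polar Q z x₂ + polar Q z x₃) • b +
      (e⁻¹ * (polar Q z x₁ + polar Q z x₂ + polar Q z x₃)) • a := by
    intro z
    have e1 : polar Q z b = e⁻¹ * (polar Q z x₂ - polar Q z x₁) := by rw [hb, psr, pdr]
    have e2 : polar Q z a = polar Q z x₁ + polar Q z x₂ + polar Q z x₃ := by rw [ha, par, par]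
    rw [ee_ap hQa hab, e1, e2, hQb]
    module
  have hee : e⁻¹ * (2 * e) = 2 := by field_simp
  have hee' : (2 * e) * e⁻¹ = 2 := by field_simp
  have ht1 : ap (ee Q a b) x₁ = x₂ := by
    rw [ht, pself, C.h₁, C.x₁₂, C.x₁₃, ha, hb, add_zero, add_zero, zero_sub, mul_neg, hee, smul_smul, hee']
    linear_combination (norm := module) h3 • x₁ - h3 • x₂
  have ht2 : ap (ee Q a b) x₂ = x₃ := by
    rw [ht, pself, C.h₂, pc Q x₂ x₁, C.x₁₂, C.x₂₃, ha, hb, add_zero, zero_add, sub_zero, hee, smul_smul, hee']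
    linear_combination (norm := module) (2 : F) • h3 • x₁ + h3 • x₂ + h3 • x₃
  have ht3 : ap (ee Q a b) x₃ = x₁ := by
    rw [ht, pself, C.h₃, pc Q x₃ x₁, pc Q x₃ x₂, C.x₁₃, C.x₂₃, ha, hb, add_zero, zero_add, sub_zero, hee,
      smul_smul, hee']
    linear_combination (norm := module) h3 • x₁ + h3 • x₃
  obtain ⟨t, htd⟩ : ∃ t, t = ee Q a b := ⟨_, rfl⟩
  rw [← htd] at ht1 ht2 ht3
  have hpt : ∀ z, polar Q (ap t z) x₂ = polar Q z x₁ ∧ polar Q (ap t z) x₃ = polar Q z x₂ ∧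
      polar Q (ap t z) x₁ = polar Q z x₃ := by
    intro z
    refine ⟨?_, ?_, ?_⟩
    · conv_lhs => rw [← ht1]
      rw [ap_polar]
    · conv_lhs => rw [← ht2]
      rw [ap_polar]
    · conv_lhs => rw [← ht3]
      rw [ap_polar]
  have htk₂ : k₂ * t = t * k₁ := by
    apply ap_ext; intro z
    rw [ap_mul, ap_mul, hk₁.conj t z, ht1, ht2, hk₂ (ap t z)]
  have htk₁ : k₁ * t = t * (k₁ * k₂) := by
    apply ap_ext; intro z
    have e1 : ap k₁ x₃ = x₃ := hk₁.fix (by rw [pc]; exact C.x₁₃) (by rw [pc]; exact C.x₂₃)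
    have e5 : ap k₁ x₂ = -x₂ := by
      rw [hk₁ x₂, pself, C.h₂, pc Q x₂ x₁, C.x₁₂, hee]
      module
    rw [ap_mul, ap_mul, ap_mul, hk₁ (ap t z), hk₂ z]
    simp only [ap_sub, ap_smul, e1, e5, ap_neg]
    rw [hk₁ z]
    simp only [ap_sub, ap_smul, ht1, ht2, ht3]
    obtain ⟨e2, e3, e4⟩ := hpt z
    rw [e2, e4]
    module
  -- `t` acts on the fixed points as a translation
  have htω₂ : k₂ • t • ω₀ = t • ω₀ := by rw [← mul_smul, htk₂, mul_smul, hkω₁]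
  have htω₁ : k₁ • t • ω₀ = t • ω₀ := by rw [← mul_smul, htk₁, mul_smul, mul_smul, hkω₂, hkω₁]
  obtain ⟨τ, hvτ, hwτ, hτ⟩ := aff_ex hone C.hv hv0 C.hvw ω₀ (t • ω₀)
  obtain ⟨hτ1, hτ2, hτ3⟩ := hfix t τ hvτ hwτ hτ htω₁ htω₂
  have hta : ∀ z, polar Q z x₁ = 0 → polar Q z x₂ = 0 → polar Q z x₃ = 0 → ap t z = z := by
    intro z h1 h2' h3'
    rw [htd, ht, h1, h2', h3']; simp
  have htv : ap t v = v := hta v C.v₁ C.v₂ C.v₃
  -- Claim A
  have hA : ∀ (z z' : V) (f : F), f ≠ 0 → Q z = f → Q z' = f → polar Q z z' = 0 →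
      polar Q v z = 0 → polar Q w z = 0 → polar Q x₁ z = 0 → polar Q x₂ z = 0 → polar Q x₃ z = 0 →
      polar Q v z' = 0 → polar Q w z' = 0 → polar Q x₁ z' = 0 → polar Q x₂ z' = 0 → polar Q x₃ z' = 0 →
      polar Q τ z = 0 := by
    intro z z' f hf hz hz' hzz' a1 a2 a3 a4 a5 b1 b2 b3 b4 b5
    obtain ⟨g, hg⟩ := exists_Rr hQ hn hf hz hz' hzz'
    have gv : ap g v = v := hg.fix a1 b1
    have gw : ap g w = w := hg.fix a2 b2
    have g1 : ap g x₁ = x₁ := hg.fix a3 b3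
    have g2 : ap g x₂ = x₂ := hg.fix a4 b4
    have g3 : ap g x₃ = x₃ := hg.fix a5 b5
    have gk₁ : g * k₁ = k₁ * g := by
      apply ap_ext; intro y
      rw [ap_mul, ap_mul, hk₁.conj g y, g1, g2, hk₁ (ap g y)]
    have gk₂ : g * k₂ = k₂ * g := by
      apply ap_ext; intro y
      rw [ap_mul, ap_mul, hk₂.conj g y, g2, g3, hk₂ (ap g y)]
    have gt : g * t = t * g := by
      rw [htd, ← mul_inv_eq_iff_eq_mul, ee_conj, ha, hb, ap_add, ap_add, ap_smul, ap_sub, g1, g2, g3]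
    obtain ⟨δ, hvδ, hwδ, hδ⟩ := aff_ex hone C.hv hv0 C.hvw ω₀ (g • ω₀)
    obtain ⟨hδ1, hδ2, hδ3⟩ := hfix g δ hvδ hwδ hδ
      (by rw [← mul_smul, ← gk₁, mul_smul, hkω₁]) (by rw [← mul_smul, ← gk₂, mul_smul, hkω₂])
    have h5 : g • t • ω₀ = t • g • ω₀ := by rw [← mul_smul, gt, mul_smul]
    have hvg : ∀ y, polar Q v (ap g y) = polar Q v y := fun y => by rw [← ap_polar g v y, gv]
    have hwg : ∀ y, polar Q w (ap g y) = polar Q w y := fun y => by rw [← ap_polar g w y, gw]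
    rw [hτ, hδ, aff_act gv, aff_act htv, hδ, hτ, aff_add (by rw [hvg, hvτ]) hvδ, hta δ hδ1 hδ2 hδ3,
      aff_add hvδ hvτ] at h5
    have h6 := aff_uniq hQ hψ hall C.hv hv0 C.hvw (by rw [par, hvg, hvτ, hvδ, add_zero])
      (by rw [par, hwg, hwτ, hwδ, add_zero]) (by rw [par, hvδ, hvτ, add_zero])
      (by rw [par, hwδ, hwτ, add_zero]) h5
    have h7 : ap g τ = τ := by
      rw [add_comm δ τ] at h6
      exact add_right_cancel h6
    exact hg.polar_left hf h2 hz hzz' h7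
  -- Claim B
  have hτz1 : polar Q τ z₁ = 0 := hA z₁ z₂ 1 one_ne_zero C.k₁ C.k₂ C.z₁₂ C.vz₁ C.wz₁ C.x₁z₁ C.x₂z₁ C.x₃z₁
    C.vz₂ C.wz₂ C.x₁z₂ C.x₂z₂ C.x₃z₂
  have hτz2 : polar Q τ z₂ = 0 := hA z₂ z₁ 1 one_ne_zero C.k₂ C.k₁ (by rw [pc]; exact C.z₁₂)
    C.vz₂ C.wz₂ C.x₁z₂ C.x₂z₂ C.x₃z₂ C.vz₁ C.wz₁ C.x₁z₁ C.x₂z₁ C.x₃z₁
  have hτ0 : τ = 0 := by
    apply hQ.1 τ
    intro u
    change polar Q τ u = 0
    obtain ⟨u', hu'⟩ : ∃ u', u' = u - polar Q w u • v - polar Q v u • w + (e⁻¹ * polar Q x₁ u) • x₁ +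
      (e⁻¹ * polar Q x₂ u) • x₂ + (e⁻¹ * polar Q x₃ u) • x₃ + polar Q z₁ u • z₁ + polar Q z₂ u • z₂ := ⟨_, rfl⟩
    have hwv : polar Q w v = 1 := by rw [pc]; exact C.hvw
    have hww : polar Q w w = 0 := by rw [pself, C.hw, mul_zero]
    have q1 : polar Q x₁ v = 0 := by rw [pc]; exact C.v₁
    have q2 : polar Q x₂ v = 0 := by rw [pc]; exact C.v₂
    have q3 : polar Q x₃ v = 0 := by rw [pc]; exact C.v₃
    have q4 : polar Q x₁ w = 0 := by rw [pc]; exact C.w₁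
    have q5 : polar Q x₂ w = 0 := by rw [pc]; exact C.w₂
    have q6 : polar Q x₃ w = 0 := by rw [pc]; exact C.w₃
    have q7 : polar Q x₂ x₁ = 0 := by rw [pc]; exact C.x₁₂
    have q8 : polar Q x₃ x₁ = 0 := by rw [pc]; exact C.x₁₃
    have q9 : polar Q x₃ x₂ = 0 := by rw [pc]; exact C.x₂₃
    have p1 : polar Q z₁ v = 0 := by rw [pc]; exact C.vz₁
    have p2 : polar Q z₂ v = 0 := by rw [pc]; exact C.vz₂
    have p3 : polar Q z₁ w = 0 := by rw [pc]; exact C.wz₁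
    have p4 : polar Q z₂ w = 0 := by rw [pc]; exact C.wz₂
    have p5 : polar Q z₁ x₁ = 0 := by rw [pc]; exact C.x₁z₁
    have p6 : polar Q z₁ x₂ = 0 := by rw [pc]; exact C.x₂z₁
    have p7 : polar Q z₁ x₃ = 0 := by rw [pc]; exact C.x₃z₁
    have p8 : polar Q z₂ x₁ = 0 := by rw [pc]; exact C.x₁z₂
    have p9 : polar Q z₂ x₂ = 0 := by rw [pc]; exact C.x₂z₂
    have p10 : polar Q z₂ x₃ = 0 := by rw [pc]; exact C.x₃z₂
    have p11 : polar Q z₂ z₁ = 0 := by rw [pc]; exact C.z₁₂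
    have hie : e⁻¹ * e = 1 := inv_mul_cancel₀ he
    have o1 : polar Q v u' = 0 := by
      rw [hu']
      simp only [par, pdr, psr, hvv, C.hvw, C.v₁, C.v₂, C.v₃, C.vz₁, C.vz₂]
      ring
    have o2 : polar Q w u' = 0 := by
      rw [hu']
      simp only [par, pdr, psr, hwv, hww, C.w₁, C.w₂, C.w₃, C.wz₁, C.wz₂]
      ring
    have o3 : polar Q x₁ u' = 0 := by
      rw [hu']
      simp only [par, pdr, psr, q1, q4, pself, C.h₁, C.x₁₂, C.x₁₃, C.x₁z₁, C.x₁z₂]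
      linear_combination polar Q x₁ u * h3 + 2 * polar Q x₁ u * hie
    have o4 : polar Q x₂ u' = 0 := by
      rw [hu']
      simp only [par, pdr, psr, q2, q5, q7, pself, C.h₂, C.x₂₃, C.x₂z₁, C.x₂z₂]
      linear_combination polar Q x₂ u * h3 + 2 * polar Q x₂ u * hie
    have o5 : polar Q x₃ u' = 0 := by
      rw [hu']
      simp only [par, pdr, psr, q3, q6, q8, q9, pself, C.h₃, C.x₃z₁, C.x₃z₂]
      linear_combination polar Q x₃ u * h3 + 2 * polar Q x₃ u * hie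
    have o6 : polar Q z₁ u' = 0 := by
      rw [hu']
      simp only [par, pdr, psr, p1, p3, p5, p6, p7, pself, C.k₁, C.z₁₂]
      linear_combination polar Q z₁ u * h3
    have o7 : polar Q z₂ u' = 0 := by
      rw [hu']
      simp only [par, pdr, psr, p2, p4, p8, p9, p10, p11, pself, C.k₂]
      linear_combination polar Q z₂ u * h3
    have hτu : polar Q τ u = polar Q τ u' := by
      rw [hu']
      simp only [par, pdr, psr, hτ1, hτ2, hτ3, hτz1, hτz2, pc Q τ v, hvτ, pc Q τ w, hwτ]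
      ring
    rw [hτu]
    rcases hF (Q u') with h | h | h
    · have h5 := hA (z₁ + u') z₂ 1 one_ne_zero (by rw [qadd, C.k₁, h, o6]; ring) C.k₂
        (by rw [pal, C.z₁₂, pc Q u' z₂, o7, add_zero]) (by rw [par, C.vz₁, o1, add_zero])
        (by rw [par, C.wz₁, o2, add_zero]) (by rw [par, C.x₁z₁, o3, add_zero])
        (by rw [par, C.x₂z₁, o4, add_zero]) (by rw [par, C.x₃z₁, o5, add_zero])
        C.vz₂ C.wz₂ C.x₁z₂ C.x₂z₂ C.x₃z₂
      rwa [par, hτz1, zero_add] at h5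
    · exact hA u' z₁ 1 one_ne_zero h C.k₁ (by rw [pc]; exact o6) o1 o2 o3 o4 o5
        C.vz₁ C.wz₁ C.x₁z₁ C.x₂z₁ C.x₃z₁
    · exact hA u' (z₁ + z₂) (-1) (neg_ne_zero.2 one_ne_zero) h
        (by rw [qadd, C.k₁, C.k₂, C.z₁₂]; linear_combination h3)
        (by rw [par, pc Q u' z₁, pc Q u' z₂, o6, o7, add_zero]) o1 o2 o3 o4 o5
        (by rw [par, C.vz₁, C.vz₂, add_zero]) (by rw [par, C.wz₁, C.wz₂, add_zero])
        (by rw [par, C.x₁z₁, C.x₁z₂, add_zero]) (by rw [par, C.x₂z₁, C.x₂z₂, add_zero])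
        (by rw [par, C.x₃z₁, C.x₃z₂, add_zero])
  rw [hτ0, ee_zero, one_smul, htd] at hτ
  have ha0 : a ≠ 0 := by
    intro h
    have h5 : polar Q a x₃ = 2 * e := by
      rw [ha, pal, pal, C.x₁₃, C.x₂₃, pself, C.h₃]; ring
    rw [h, polar_zero_left] at h5
    exact mul_ne_zero h2 he h5.symm
  have h5 := span_of_fixed hQ hψ hall hQa ha0 hab hτ
  obtain ⟨c, hc⟩ := Submodule.mem_span_singleton.1 h5
  have h6 := congrArg (fun y => polar Q y x₃) hc
  have h7 := congrArg (fun y => polar Q y x₂) hc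
  simp only [psl, ha, hb, pal, pdl, C.x₁₃, C.x₂₃, C.x₁₂, pself, C.h₃, C.h₂, pc Q x₃ x₂] at h6 h7
  have h8 : c = 0 := by
    have : c * (2 * e) = 0 := by linear_combination h6
    exact (mul_eq_zero.1 this).resolve_right (mul_ne_zero h2 he)
  rw [h8] at h7
  apply h2
  linear_combination -h7 - 2 * (inv_mul_cancel₀ he)

end Three

end Cfsg.Agent.Mdx.Ort
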