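import Cfsg.Agent.Mdx.O3
import Cfsg.Agent.Orth.Bridge

/-!
Transport to the projective group `POmega`; stabilisers of lines.
-/

set_option autoImplicit false

namespace Cfsg.Agent.Mdx.Ort

open QuadraticMap Cfsg.Agent.Orth Cfsg.Agent.OMax Finset

variable {F V : Type*} [Field F] [AddCommGroup V] [Module F V] {Q : QuadraticForm F V}

section Line

/-- The action of `SGrp Q` on vectors. -/
@[reducible] def actV (Q : QuadraticForm F V) : MulAction (SGrp Q) V where
  smul g v := ap g v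
  one_smul := ap_one
  mul_smul := ap_mul

/-- Stabiliser of a line. -/
def lineStab (Q : QuadraticForm F V) (y : V) : Subgroup (SGrp Q) where
  carrier := {g | ∃ c : F, c ≠ 0 ∧ ap g y = c • y}
  one_mem' := ⟨1, one_ne_zero, by rw [ap_one, one_smul]⟩
  mul_mem' := by
    rintro g h ⟨c, hc, hg⟩ ⟨d, hd, hh⟩
    exact ⟨d * c, mul_ne_zero hd hc, by rw [ap_mul, hh, ap_smul, hg, smul_smul]⟩
  inv_mem' := by
    rintro g ⟨c, hc, hg⟩
    refine ⟨c⁻¹, inv_ne_zero hc, ?_⟩
    apply ap_inj g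
    rw [ap_ap_inv, ap_smul, hg, smul_smul, inv_mul_cancel₀ hc, one_smul]

theorem mem_lineStab {y : V} {g : SGrp Q} : g ∈ lineStab Q y ↔ ∃ c : F, c ≠ 0 ∧ ap g y = c • y := Iff.rfl

theorem lineStab_index [Finite F] [FiniteDimensional F V] (hQ : (polarBilin Q).Nondegenerate)
    (hn : 7 ≤ Module.finrank F V) {y : V} (hy : y ≠ 0) :
    Nat.card {c : F // c ≠ 0 ∧ Q (c • y) = Q y} * (lineStab Q y).index =
      Nat.card {x : V // x ≠ 0 ∧ Q x = Q y} := by
  have : Finite V := Module.finite_of_finite F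
  let _ := actV Q
  have h1 : (MulAction.stabilizer (SGrp Q) y).index = Nat.card {x : V // x ≠ 0 ∧ Q x = Q y} := by
    rw [MulAction.index_stabilizer]
    refine Nat.card_congr (Equiv.subtypeEquivRight fun x => ?_)
    constructor
    · rintro ⟨g, rfl⟩
      refine ⟨fun h => hy ?_, ap_q g y⟩
      apply ap_inj g
      rw [ap_zero]; exact h
    · rintro ⟨hx, hxq⟩
      obtain ⟨g, hg⟩ := exists_ap_single hQ hn hy hx hxq.symm
      exact ⟨g, hg⟩
  have hle : MulAction.stabilizer (SGrp Q) y ≤ lineStab Q y := by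
    intro g hg
    exact ⟨1, one_ne_zero, by rw [one_smul]; exact hg⟩
  have h2 : (MulAction.stabilizer (SGrp Q) y).relIndex (lineStab Q y) =
      Nat.card {c : F // c ≠ 0 ∧ Q (c • y) = Q y} := by
    have e : (MulAction.stabilizer (SGrp Q) y).subgroupOf (lineStab Q y) =
        MulAction.stabilizer (lineStab Q y) y := by
      ext g
      rfl
    rw [Subgroup.relIndex, e, MulAction.index_stabilizer]
    have h3 : ∀ x : V, x ∈ MulAction.orbit (lineStab Q y) y ↔ ∃ c : F, (c ≠ 0 ∧ Q (c • y) = Q y) ∧ c • y = x := by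
      intro x
      constructor
      · rintro ⟨⟨g, c, hc, hg⟩, rfl⟩
        exact ⟨c, ⟨hc, by rw [← hg, ap_q]⟩, hg.symm⟩
      · rintro ⟨c, ⟨hc, hq⟩, rfl⟩
        obtain ⟨g, hg⟩ := exists_ap_single hQ hn hy (smul_ne_zero hc hy) hq.symm
        exact ⟨⟨g, c, hc, hg⟩, hg⟩
    refine (Nat.card_congr (Equiv.ofBijective (fun c : {c : F // c ≠ 0 ∧ Q (c • y) = Q y} =>
      (⟨c.1 • y, (h3 _).2 ⟨c.1, c.2, rfl⟩⟩ : MulAction.orbit (lineStab Q y) y)) ⟨?_, ?_⟩)).symm
    · intro c c' h
      exact Subtype.ext (smul_left_injective F hy (congrArg Subtype.val h))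
    · rintro ⟨x, hx⟩
      obtain ⟨c, hc, rfl⟩ := (h3 x).1 hx
      exact ⟨⟨c, hc⟩, rfl⟩
  rw [← h1, ← h2]
  exact Subgroup.relIndex_mul_index hle

variable [Finite F] [FiniteDimensional F V]

theorem center_span (hQ : (polarBilin Q).Nondegenerate) {g : SGrp Q} (hg : ∀ h : SGrp Q, g * h = h * g)
    {v b : V} (hv : Q v = 0) (hv0 : v ≠ 0) (hb : polar Q v b = 0) (hbv : b ∉ Submodule.span F {v}) :
    ap g b ∈ Submodule.span F {v, b} := by
  obtain ⟨x, -, hx⟩ := exists_ortho_not hQ (⊥ : Submodule F V) (x := v) (by simpa using hv0)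
  obtain ⟨x', hx', hx'b⟩ := exists_ortho_not hQ _ hbv
  have hvx' : polar Q x' v = 0 := hx' v (Submodule.mem_span_singleton_self v)
  -- the image of `ee v b - 1`
  have h1 : ∀ z, ap (ee Q v b) z - z ∈ Submodule.span F {v, b} := by
    intro z
    rw [ee_ap hv hb]
    refine Submodule.mem_span_pair.2 ⟨polar Q z b - Q b * polar Q z v, - polar Q z v, ?_⟩
    module
  have h2 : ∀ z, ap g (ap (ee Q v b) z - z) ∈ Submodule.span F {v, b} := by
    intro z
    rw [ap_sub, ← ap_mul, hg, ap_mul]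
    exact h1 _
  -- `v` lies in the image
  have h3 : ap g v ∈ Submodule.span F {v, b} := by
    have := h2 x'
    rw [ee_ap hv hb, hvx', hx'b] at this
    have e : x' + (1 : F) • v - (0 : F) • b - (Q b * 0) • v - x' = v := by module
    rwa [e] at this
  have h4 := h2 x
  rw [ee_ap hv hb, hx] at h4
  have e : x + polar Q x b • v - (1 : F) • b - (Q b * 1) • v - x = (polar Q x b - Q b) • v - b := by module
  rw [e, ap_sub, ap_smul] at h4
  have h5 := Submodule.sub_mem _ (Submodule.smul_mem _ (polar Q x b - Q b) h3) h4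
  rwa [sub_sub_cancel] at h5

theorem center_scalar (hQ : (polarBilin Q).Nondegenerate) (hn : 7 ≤ Module.finrank F V) {g : SGrp Q}
    (hg : ∀ h : SGrp Q, g * h = h * g) (y : V) : ∃ c : F, ap g y = c • y := by
  by_cases hy : y = 0
  · exact ⟨0, by rw [hy, ap_zero, smul_zero]⟩
  obtain ⟨e, f, he, -, hef, hye, -, -, -, hey⟩ := exists_hyp_pair hQ hn y y
  have he0 : e ≠ 0 := by rintro rfl; exact hey (Submodule.zero_mem _)
  obtain ⟨e', f', he', -, hef', hye', hee', -, -, hey'⟩ := exists_hyp_pair hQ hn y e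
  have he0' : e' ≠ 0 := by rintro rfl; exact hey' (Submodule.zero_mem _)
  have h1 := center_span hQ hg he he0 (by rw [pc]; exact hye) (b := y) (by
    intro h
    obtain ⟨c, hc⟩ := Submodule.mem_span_singleton.1 h
    have hc0 : c ≠ 0 := by rintro rfl; rw [zero_smul] at hc; exact hy hc.symm
    apply hey
    rw [Submodule.mem_span_pair]
    exact ⟨c⁻¹, 0, by rw [← hc, smul_smul, inv_mul_cancel₀ hc0]; module⟩)
  have h2 := center_span hQ hg he' he0' (by rw [pc]; exact hye') (b := y) (by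
    intro h
    obtain ⟨c, hc⟩ := Submodule.mem_span_singleton.1 h
    have hc0 : c ≠ 0 := by rintro rfl; rw [zero_smul] at hc; exact hy hc.symm
    apply hey'
    rw [Submodule.mem_span_pair]
    exact ⟨c⁻¹, 0, by rw [← hc, smul_smul, inv_mul_cancel₀ hc0]; module⟩)
  obtain ⟨α, β, h1'⟩ := Submodule.mem_span_pair.1 h1
  obtain ⟨α', β', h2'⟩ := Submodule.mem_span_pair.1 h2
  have hα : α' = 0 := by
    by_contra h
    apply hey'
    refine Submodule.mem_span_pair.2 ⟨α'⁻¹ * (β - β'), α'⁻¹ * α, ?_⟩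
    have h3 : (β - β') • y + α • e = α' • e' := by
      have : α' • e' + β' • y = α • e + β • y := h2'.trans h1'.symm
      linear_combination (norm := module) -this
    rw [mul_smul, mul_smul, ← smul_add, h3, smul_smul, inv_mul_cancel₀ h, one_smul]
  exact ⟨β', by rw [← h2', hα]; module⟩

theorem center_le_lineStab (hQ : (polarBilin Q).Nondegenerate) (hn : 7 ≤ Module.finrank F V) {y : V}
    (hy : y ≠ 0) : Subgroup.center (SGrp Q) ≤ lineStab Q y := by
  intro g hg
  obtain ⟨c, hc⟩ := center_scalar hQ hn (fun h => (Subgroup.mem_center_iff.1 hg h).symm) y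
  refine ⟨c, ?_, hc⟩
  rintro rfl
  apply hy
  apply ap_inj g
  rw [hc, zero_smul, ap_zero]

end Line

/-! ### Transport -/

section Transport

variable {ι : Type} [Fintype ι] [DecidableEq ι]

/-- The group of Siegel transformations maps onto `POmega`. -/
theorem exists_surj [Finite F] {Q : QuadraticForm F (ι → F)} (hQ : (polarBilin Q).Nondegenerate)
    (hn : 7 ≤ Fintype.card ι) : ∃ φ : SGrp Q →* Cfsg.POmega F ⇑Q, Function.Surjective φ ∧
      φ.ker = Subgroup.center (SGrp Q) := by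
  have hn' : 7 ≤ Module.finrank F (ι → F) := by rwa [Module.finrank_fintype_fun_eq_card]
  have h1 : (Cfsg.Omega F ⇑Q).map (bridge Q : ↥(Cfsg.isometryGroup F ⇑Q) →* ↥(OGrp Q)) = SGrp Q := by
    rw [SGrp_eq_comm hQ hn']
    ext g
    rw [Subgroup.mem_map]
    constructor
    · rintro ⟨h, hh, rfl⟩
      exact (mem_Omega_iff Q h).1 hh
    · intro hg
      refine ⟨(bridge Q).symm g, (mem_Omega_iff Q _).2 (by rwa [MulEquiv.apply_symm_apply]), ?_⟩
      exact MulEquiv.apply_symm_apply _ g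
  let e : ↥(Cfsg.Omega F ⇑Q) ≃* SGrp Q :=
    ((bridge Q).subgroupMap (Cfsg.Omega F ⇑Q)).trans (MulEquiv.subgroupCongr h1)
  refine ⟨(QuotientGroup.mk' (Subgroup.center ↥(Cfsg.Omega F ⇑Q))).comp e.symm.toMonoidHom, ?_, ?_⟩
  · exact (QuotientGroup.mk'_surjective _).comp e.symm.surjective
  · ext g
    rw [MonoidHom.mem_ker, MonoidHom.comp_apply, QuotientGroup.mk'_apply, QuotientGroup.eq_one_iff]
    rw [Subgroup.mem_center_iff, Subgroup.mem_center_iff]
    constructor
    · intro h x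
      apply e.symm.injective
      rw [map_mul, map_mul]
      exact h (e.symm x)
    · intro h x
      apply e.injective
      rw [map_mul, map_mul]
      change e x * e (e.symm g) = e (e.symm g) * e x
      rw [MulEquiv.apply_symm_apply]
      exact h (e x)

theorem index_ge [Finite F] {Q : QuadraticForm F (ι → F)} (hQ : (polarBilin Q).Nondegenerate)
    (hn : 7 ≤ Fintype.card ι) {N : ℕ} (h : ∀ K : Subgroup (SGrp Q), K ≠ ⊤ → N ≤ K.index)
    (H : Subgroup (Cfsg.POmega F ⇑Q)) (hH : H ≠ ⊤) : N ≤ H.index := by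
  obtain ⟨φ, hφ, -⟩ := exists_surj hQ hn
  rw [← Subgroup.index_comap_of_surjective H hφ]
  apply h
  intro h'
  apply hH
  rw [← Subgroup.map_comap_eq_self_of_surjective hφ H, h', Subgroup.map_top_of_surjective φ hφ]

theorem exists_index [Finite F] {Q : QuadraticForm F (ι → F)} (hQ : (polarBilin Q).Nondegenerate)
    (hn : 7 ≤ Fintype.card ι) {N : ℕ} {y : ι → F} (hy : y ≠ 0) (h : (lineStab Q y).index = N) :
    ∃ H : Subgroup (Cfsg.POmega F ⇑Q), H.index = N := by
  have hn' : 7 ≤ Module.finrank F (ι → F) := by rwa [Module.finrank_fintype_fun_eq_card]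
  obtain ⟨φ, hφ, hk⟩ := exists_surj hQ hn
  refine ⟨(lineStab Q y).map φ, ?_⟩
  rw [Subgroup.index_map_eq _ hφ (by rw [hk]; exact center_le_lineStab hQ hn' hy), h]

end Transport

end Cfsg.Agent.Mdx.Ort
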