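import Cfsg.Agent.Mdx.ONum
import Cfsg.Agent.Mdx.OAtt

/-!
The bound on the index of a proper subgroup from the numerical data.
-/

set_option autoImplicit false

namespace Cfsg.Agent.Mdx.Ort

open QuadraticMap Cfsg.Agent.Orth Cfsg.Agent.OMax Finset

variable {F V : Type*} [Field F] [AddCommGroup V] [Module F V] {Q : QuadraticForm F V}

variable [Fintype F] [FiniteDimensional F V] {Bd r P s K N₁ S : ℕ}

section Star

variable {Z : Type*} [MulAction (SGrp Q) Z] {ψ : AddChar F ℂ} [Finite Z]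

/-- Bound for the multiplicity of a non-singular vector. -/
theorem mm_bound (hQ : (polarBilin Q).Nondegenerate) (hn : 7 ≤ Module.finrank F V) (hψ : ψ ≠ 1)
    (hnum : Num Q Bd r P s K N₁ S) (hlt : Nat.card Z < Bd) {v y : V} (hv : Q v = 0) (hv0 : v ≠ 0)
    (hvy : polar Q v y = 0) (hy : Q y ≠ 0) : mm Z ψ Q v y * K < Fintype.card F * Bd := by
  classical
  have : Finite V := Module.finite_of_finite F
  have := Fintype.ofFinite V
  obtain ⟨X, hXdef⟩ : ∃ X : V → Prop, ∀ x, X x ↔ polar Q v x = 0 ∧ ∃ d : F, d ≠ 0 ∧ Q x = d * d * Q y :=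
    ⟨_, fun _ => Iff.rfl⟩
  have hXs : ∀ x, X x → x ∉ Submodule.span F {v} := by
    intro x hXx h
    obtain ⟨-, d, hd, hx⟩ := (hXdef x).1 hXx
    obtain ⟨c, rfl⟩ := Submodule.mem_span_singleton.1 h
    rw [qsmul, hv, mul_zero] at hx
    exact mul_ne_zero (mul_ne_zero hd hd) hy hx.symm
  have hys : y ∉ Submodule.span F {v} := hXs y ((hXdef y).2 ⟨hvy, 1, one_ne_zero, by ring⟩)
  have hmm : ∀ x, X x → mm Z ψ Q v x = mm Z ψ Q v y := by
    intro x hx
    obtain ⟨hvx, d, hd, hq⟩ := (hXdef x).1 hx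
    exact mm_class hQ hn hv hv0 hd hvy hvx hys (hXs x hx) hq
  have hK : K ≤ (univ.filter X).card := by
    have := hnum.hK v (Q y) hv hv0 hy
    rw [Nat.card_eq_fintype_card, Fintype.card_subtype] at this
    refine this.trans (Finset.card_le_card fun x hx => ?_)
    rw [Finset.mem_filter] at hx ⊢
    exact ⟨hx.1, (hXdef x).2 hx.2⟩
  have h1 : ∑ x ∈ univ.filter X, mm Z ψ Q v x ≤ ∑ x : V, mm Z ψ Q v x :=
    Finset.sum_le_sum_of_subset (Finset.filter_subset _ _)
  rw [Finset.sum_congr rfl (fun x hx => hmm x (Finset.mem_filter.1 hx).2), Finset.sum_const,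
    smul_eq_mul, sum_mm hQ hψ hv0, mul_comm] at h1
  have h2 : mm Z ψ Q v y * K ≤ mm Z ψ Q v y * (univ.filter X).card := Nat.mul_le_mul_left _ hK
  have h3 : Fintype.card F * Nat.card Z < Fintype.card F * Bd :=
    Nat.mul_lt_mul_of_pos_left hlt Fintype.card_pos
  omega

theorem star_of_num (hQ : (polarBilin Q).Nondegenerate) (hn : 7 ≤ Module.finrank F V) (hψ : ψ ≠ 1)
    (hnum : Num Q Bd r P s K N₁ S) (hlt : Nat.card Z < Bd) (p : ℕ) [hp : Fact p.Prime] [CharP F p]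
    (hpK : Fintype.card F * Bd ≤ p * K) : ∀ v, Q v = 0 → v ≠ 0 → Star Z ψ Q v := by
  intro v hv hv0
  refine star_of_lt hQ hn p fun y hvy hy => ?_
  refine lt_of_le_of_lt (SY_le_mm v y) ?_
  have h := (mm_bound hQ hn hψ hnum hlt hv hv0 hvy hy).trans_le hpK
  exact Nat.lt_of_mul_lt_mul_right h

end Star

omit [FiniteDimensional F V] in
theorem exists_psi : ∃ ψ : AddChar F ℂ, ψ ≠ 1 := by
  obtain ⟨ψ, hψ⟩ := AddChar.exists_apply_ne_zero.2 (one_ne_zero (α := F))
  exact ⟨ψ, fun h => hψ (by rw [h]; rfl)⟩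

/-- The bound, at least four field elements. -/
theorem le_index_of_num (hQ : (polarBilin Q).Nondegenerate) (hn : 7 ≤ Module.finrank F V)
    (hnum : Num Q Bd r P s K N₁ S) (p : ℕ) [hp : Fact p.Prime] [CharP F p]
    (hpK : Fintype.card F * Bd ≤ p * K)
    (hW : ∀ E : Submodule F V, (∀ x ∈ E, Q x = 0) → (∀ x ∈ perp Q E, Q x = 0) → False)
    (hd : ∃ d : F, d ≠ 0 ∧ d * d ≠ 1) (H : Subgroup (SGrp Q)) (hH : H ≠ ⊤) : Bd ≤ H.index := by
  by_contra hcon
  push Not at hcon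
  obtain ⟨ψ, hψ⟩ := exists_psi (F := F)
  have : Finite V := Module.finite_of_finite F
  have : Finite (V ≃ₗ[F] V) := Finite.of_injective (fun g => (g : V → V)) (fun g h H => by
    ext x; exact congrFun H x)
  have : Finite (SGrp Q ⧸ H) := inferInstance
  have hlt : Nat.card (SGrp Q ⧸ H) < Bd := hcon
  have hst := star_of_num (Z := SGrp Q ⧸ H) hQ hn hψ hnum hlt p hpK
  have hmv : ∀ ω : SGrp Q ⧸ H, ∃ g : SGrp Q, g • ω ≠ ω := by
    intro ω
    by_contra h
    push Not at h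
    obtain ⟨k, rfl⟩ := QuotientGroup.mk_surjective ω
    apply hH
    rw [eq_top_iff]
    intro g _
    have h1 := h (k * g * k⁻¹)
    rw [MulAction.Quotient.smul_mk, QuotientGroup.eq] at h1
    simp only [smul_eq_mul, mul_inv_rev, inv_inv] at h1
    have h2 : k⁻¹ * (k * g * k⁻¹ * k) ∈ H := by
      have := H.inv_mem h1
      simpa [mul_assoc] using this
    simpa [mul_assoc] using h2
  have hfull : ∃ (v : V) (ω : SGrp Q ⧸ H), Q v = 0 ∧ v ≠ 0 ∧ Full ψ Q v ω := by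
    obtain ⟨v, h⟩ := exists_full hQ hn hψ hst hW ((1 : SGrp Q) : SGrp Q ⧸ H) (hmv _)
    exact ⟨v, _, h⟩
  exact false_of_full hQ hn hψ hst hnum hlt hfull hmv hd

end Cfsg.Agent.Mdx.Ort
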