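import Cfsg.Agent.Mdx.OMain
import Cfsg.Agent.OrthCount.Binary
import Cfsg.Agent.Orth.MinusTS

/-!
The numbers for the orthogonal groups of minus type.
-/

set_option autoImplicit false

namespace Cfsg.Agent.Mdx.Ort

open QuadraticMap Cfsg.Agent.Orth Cfsg.Agent.OMax Finset

section Minus

variable {F : Type*} [Field F] [Fintype F]

theorem card_binary [DecidableEq F] {a b : F} (hab : ∀ z₁ z₂ : F, z₁ ^ 2 + a * z₁ * z₂ + b * z₂ ^ 2 = 0 → z₁ = 0 ∧ z₂ = 0)
    (c : F) : Nat.card {w : Fin 2 → F // (w 0 ^ 2 + a * w 0 * w 1 + b * w 1 ^ 2) - c = 0} =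
      if c = 0 then 1 else Fintype.card F + 1 := by
  classical
  have hab' : ∀ z : F × F, Cfsg.Agent.OrthCount.bin a b z = 0 → z = 0 := by
    intro z hz
    rw [Cfsg.Agent.OrthCount.bin_apply] at hz
    obtain ⟨h1, h2⟩ := hab _ _ hz
    exact Prod.ext h1 h2
  have e : Nat.card {w : Fin 2 → F // (w 0 ^ 2 + a * w 0 * w 1 + b * w 1 ^ 2) - c = 0} =
      Nat.card {z : F × F // Cfsg.Agent.OrthCount.bin a b z = c} := by
    refine Nat.card_congr (Equiv.subtypeEquiv (finTwoArrowEquiv F) fun w => ?_)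
    rw [Cfsg.Agent.OrthCount.bin_apply]
    simp only [finTwoArrowEquiv_apply]
    exact sub_eq_zero
  rw [e]
  split_ifs with hc
  · subst hc
    rw [Nat.card_eq_one_iff_unique]
    exact ⟨⟨fun z w => Subtype.ext ((hab' _ z.2).trans (hab' _ w.2).symm)⟩,
      ⟨⟨0, by rw [Cfsg.Agent.OrthCount.bin_apply]; simp⟩⟩⟩
  · rw [Cfsg.Agent.OrthCount.card_bin_eq hab' hc, Cfsg.Agent.OrthCount.card_norm_one hab',
      Nat.card_eq_fintype_card]

theorem card_qfMinus (m : ℕ) {a b : F}
    (hab : ∀ z₁ z₂ : F, z₁ ^ 2 + a * z₁ * z₂ + b * z₂ ^ 2 = 0 → z₁ = 0 ∧ z₂ = 0) (c : F) [DecidableEq F] :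
    Fintype.card F * Nat.card {v // qfMinus m F a b v = c} + Fintype.card F ^ m * (Fintype.card F * Fintype.card F) =
      Fintype.card F ^ (m + 1) * (if c = 0 then 1 else Fintype.card F + 1) +
        Fintype.card F ^ (2 * m) * (Fintype.card F * Fintype.card F) := by
  have h := card_hf (F := F) (fun w : Fin 2 → F => (w 0 ^ 2 + a * w 0 * w 1 + b * w 1 ^ 2) - c) m
  have e : Nat.card {v // qfMinus m F a b v = c} =
      Nat.card {v // hf m (fun w : Fin 2 → F => (w 0 ^ 2 + a * w 0 * w 1 + b * w 1 ^ 2) - c) v = 0} := by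
    refine Nat.card_congr (Equiv.subtypeEquiv
      (Equiv.sumArrowEquivProdArrow (Fin m ⊕ Fin m) (Fin 2) F) fun v => ?_)
    rw [qfMinus_apply]
    unfold hf
    change _ ↔ (∑ i : Fin m, v (.inl (.inl i)) * v (.inl (.inr i))) +
      ((v (.inr 0) ^ 2 + a * v (.inr 0) * v (.inr 1) + b * v (.inr 1) ^ 2) - c) = 0
    constructor
    · intro h; rw [← h]; ring
    · intro h; linear_combination h
  have e2 : Nat.card (Fin 2 → F) = Fintype.card F * Fintype.card F := by
    rw [Nat.card_eq_fintype_card, Fintype.card_fun, Fintype.card_fin, pow_two]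
  rw [card_binary hab, e2] at h
  simp only [Nat.card_eq_fintype_card (α := F)] at h
  rw [e]
  exact h

theorem card_zeros_minus (m : ℕ) {a b : F}
    (hab : ∀ z₁ z₂ : F, z₁ ^ 2 + a * z₁ * z₂ + b * z₂ ^ 2 = 0 → z₁ = 0 ∧ z₂ = 0) {x : ℕ}
    (hx : Fintype.card F ^ m = x) :
    Nat.card {v // qfMinus m F a b v = 0} + Fintype.card F * x = x + Fintype.card F * (x * x) := by
  classical
  have h := card_qfMinus m hab 0
  rw [if_pos rfl, mul_one, two_mul, pow_add _ m m, pow_succ _ m, hx] at h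
  apply Nat.eq_of_mul_eq_mul_left (Fintype.card_pos (α := F))
  linarith

theorem card_value_minus (m : ℕ) {a b : F}
    (hab : ∀ z₁ z₂ : F, z₁ ^ 2 + a * z₁ * z₂ + b * z₂ ^ 2 = 0 → z₁ = 0 ∧ z₂ = 0) {x : ℕ}
    (hx : Fintype.card F ^ m = x) {c : F} (hc : c ≠ 0) :
    Nat.card {v // qfMinus m F a b v = c} = x + Fintype.card F * (x * x) := by
  classical
  have h := card_qfMinus m hab c
  rw [if_neg hc, two_mul, pow_add _ m m, pow_succ _ m, hx] at h
  apply Nat.eq_of_mul_eq_mul_left (Fintype.card_pos (α := F))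
  linarith

theorem card_space_minus (m : ℕ) {x : ℕ} (hx : Fintype.card F ^ m = x) :
    Nat.card ((Fin m ⊕ Fin m) ⊕ Fin 2 → F) = Fintype.card F * (Fintype.card F * (x * x)) := by
  rw [Nat.card_eq_fintype_card, Fintype.card_fun]
  simp only [Fintype.card_sum, Fintype.card_fin]
  rw [pow_add, pow_add, hx]
  ring

theorem finrank_minus (m : ℕ) : Module.finrank F ((Fin m ⊕ Fin m) ⊕ Fin 2 → F) = 2 * m + 2 := by
  rw [Module.finrank_fintype_fun_eq_card]
  simp only [Fintype.card_sum, Fintype.card_fin]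
  omega

/-- No subspace is totally singular together with its orthogonal complement. -/
theorem hW_minus (m : ℕ) {a b : F}
    (hab : ∀ z₁ z₂ : F, z₁ ^ 2 + a * z₁ * z₂ + b * z₂ ^ 2 = 0 → z₁ = 0 ∧ z₂ = 0)
    (E : Submodule F ((Fin m ⊕ Fin m) ⊕ Fin 2 → F)) (hE : ∀ x ∈ E, qfMinus m F a b x = 0)
    (hE' : ∀ x ∈ perp (qfMinus m F a b) E, qfMinus m F a b x = 0) : False := by
  have hd := disc_ne_zero_of_aniso hab
  have h1 := TS.finrank_le_minus (U := E) hd hab hE
  have h2 := TS.finrank_le_minus (U := perp (qfMinus m F a b) E) hd hab hE'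
  have h3 := finrank_perp (qfMinus_nondegenerate m F hd) E
  rw [finrank_minus] at h3
  omega

/-- Numerical data for the orthogonal groups of minus type. -/
theorem num_minus (m : ℕ) {a b : F}
    (hab : ∀ z₁ z₂ : F, z₁ ^ 2 + a * z₁ * z₂ + b * z₂ ^ 2 = 0 → z₁ = 0 ∧ z₂ = 0) {r σ x y B : ℕ}
    (hr : Fintype.card F = r + 1) (hr0 : 1 ≤ r)
    (hσ : 2 * σ ≤ r ∨ (CharP F 2 ∧ σ ≤ r)) (hσ1 : 1 ≤ σ) (hx : Fintype.card F ^ m = x)
    (hxr : x = r + y) (hB : r * B = (Fintype.card F * x + 1) * (x - 1)) (hB1 : 1 ≤ B) :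
    Num (qfMinus m F a b) B r (Fintype.card F * (x * x)) (x * y)
      (σ * (x * x + x)) (B - 1) (r * (B - 1 + 1)) := by
  have hd := disc_ne_zero_of_aniso hab
  have hQ := qfMinus_nondegenerate m F hd
  have e1 : B - 1 + 1 = B := by omega
  have hz := card_zeros_minus m hab hx
  have hval := fun c (hc : c ≠ 0) => card_value_minus m hab hx (c := c) hc
  have hsp := card_space_minus (F := F) m hx
  have hx0 : 0 < x := by rw [← hx]; exact pow_pos Fintype.card_pos m
  obtain ⟨x', hx'⟩ : ∃ x', x = x' + 1 := ⟨x - 1, by omega⟩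
  have hB' : r * B + r * x + 1 = (r + 1) * (x * x) := by
    rw [hB, hr]
    have : x - 1 = x' := by omega
    rw [this, hx']; ring
  refine num_of hQ hr hsp ?_ ?_ ?_ hσ ?_ ?_ ?_ ?_
  · rw [e1]
    rw [hr] at hz
    nlinarith
  · have hz' : Fintype.card F * (Nat.card {v // qfMinus m F a b v = 0} + Fintype.card F * x) =
        Fintype.card F * (x + Fintype.card F * (x * x)) := by rw [hz]
    rw [hr] at hz' ⊢
    rw [hxr] at hz' ⊢
    nlinarith
  · intro c hc
    rw [hval c hc, hr]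
    nlinarith
  · have : r * (Fintype.card F * B) ≤ r * (2 * (Fintype.card F * (x * x))) := by
      have e : r * (Fintype.card F * B) + (r + 1) * (r * x + 1) = (r + 1) * ((r + 1) * (x * x)) := by
        rw [← hB', hr]; ring
      rw [hr] at e ⊢
      have h5 : (r + 1) * ((r + 1) * (x * x)) ≤ r * (2 * ((r + 1) * (x * x))) := by
        have : r + 1 ≤ 2 * r := by omega
        calc (r + 1) * ((r + 1) * (x * x)) ≤ (2 * r) * ((r + 1) * (x * x)) := Nat.mul_le_mul_right _ this
          _ = _ := by ring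
      omega
    exact Nat.le_of_mul_le_mul_left this (by omega)
  · have e : r * (Fintype.card F * B) + (r + 1) * (r * x + 1) = (r + 1) * ((r + 1) * (x * x)) := by
      rw [← hB', hr]; ring
    have h5 : (r + 1) * (1 * (x * x + x)) ≤ (r + 1) * (σ * (x * x + x)) :=
      Nat.mul_le_mul_left _ (Nat.mul_le_mul_right _ hσ1)
    rw [hr] at e ⊢
    have e6 : (r + 1) * ((r + 1) * (x * x)) + (r + 1) * x = r * ((r + 1) * (x * x)) + (r + 1) * (1 * (x * x + x)) := by
      ring
    omega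
  · have e : r * (Fintype.card F * B) + (r + 1) * (r * x + 1) = (r + 1) * ((r + 1) * (x * x)) := by
      rw [← hB', hr]; ring
    have h6 : r * (Fintype.card F * B) ≤ r * (Fintype.card F * (x * x) + 2 * (x * y)) := by
      rw [hr] at e ⊢
      obtain ⟨r', hr'⟩ : ∃ r', r = r' + 1 := ⟨r - 1, by omega⟩
      have e7 : r * ((r + 1) * (x * x) + 2 * (x * y)) + (r + 1) * (r * x + 1) =
          (r + 1) * ((r + 1) * (x * x)) + r' * (x * y) + (r + 1) := by
        rw [hxr, hr']; ring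
      omega
    exact Nat.le_of_mul_le_mul_left h6 (by omega)
  · omega

end Minus

end Cfsg.Agent.Mdx.Ort
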