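import Cfsg.Agent.Mdx.OMain

/-!
The numbers for the odd-dimensional orthogonal groups.
-/

set_option autoImplicit false

namespace Cfsg.Agent.Mdx.Ort

open QuadraticMap Cfsg.Agent.Orth Cfsg.Agent.OMax Finset

section Att

variable {F V : Type*} [Field F] [AddCommGroup V] [Module F V] {Q : QuadraticForm F V}
variable [Fintype F] [FiniteDimensional F V]

theorem exists_lineStab_sing (hQ : (polarBilin Q).Nondegenerate) (hn : 7 ≤ Module.finrank F V) {r N : ℕ}
    (hr : Fintype.card F = r + 1) (hr0 : 0 < r)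
    (h : Nat.card {v : V // Q v = 0 ∧ v ≠ 0} = r * (N + 1)) :
    ∃ y : V, y ≠ 0 ∧ (lineStab Q y).index = N + 1 := by
  classical
  have hpos : 0 < Nat.card {v : V // Q v = 0 ∧ v ≠ 0} := by
    rw [h]; positivity
  obtain ⟨⟨y, hy, hy0⟩⟩ := (Nat.card_pos_iff.1 hpos).1
  refine ⟨y, hy0, ?_⟩
  have h1 := lineStab_index hQ hn hy0
  have h2 : Nat.card {c : F // c ≠ 0 ∧ Q (c • y) = Q y} = r := by
    have e : Nat.card {c : F // c ≠ 0 ∧ Q (c • y) = Q y} = Nat.card {c : F // c ≠ 0} := by
      refine Nat.card_congr (Equiv.subtypeEquivRight fun c => ?_)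
      rw [qsmul, hy, mul_zero]; simp
    rw [e, Nat.card_eq_fintype_card, Fintype.card_subtype_compl, Fintype.card_subtype_eq, hr]
    rfl
  have h3 : Nat.card {x : V // x ≠ 0 ∧ Q x = Q y} = Nat.card {v : V // Q v = 0 ∧ v ≠ 0} := by
    refine Nat.card_congr (Equiv.subtypeEquivRight fun x => ?_)
    rw [hy]; exact and_comm
  rw [h2, h3, h] at h1
  exact Nat.eq_of_mul_eq_mul_left hr0 h1

end Att

section Odd

variable {F : Type*} [Field F] [Fintype F]

theorem card_qfOdd (m : ℕ) (c : F) :
    Fintype.card F * Nat.card {v // qfOdd m F v = c} + Fintype.card F ^ (m + 1) =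
      Fintype.card F ^ (m + 1) * Nat.card {w : F // w ^ 2 - c = 0} + Fintype.card F ^ (2 * m + 1) := by
  have h := card_hf (F := F) (fun w : F => w ^ 2 - c) m
  have e : Nat.card {v // qfOdd m F v = c} = Nat.card {v // hf m (fun w : F => w ^ 2 - c) v = 0} := by
    refine Nat.card_congr (Equiv.subtypeEquiv
      (((Equiv.sumArrowEquivProdArrow Unit (Fin m ⊕ Fin m) F).trans (Equiv.prodComm _ _)).trans
        (Equiv.prodCongr (Equiv.refl _) (Equiv.funUnique Unit F))) fun v => ?_)
    rw [qfOdd_apply]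
    unfold hf
    simp only [Equiv.trans_apply, Equiv.prodCongr_apply, Equiv.prodComm_apply]
    rw [show (∑ i : Fin m, (Prod.map (Equiv.refl (Fin m ⊕ Fin m → F)) (Equiv.funUnique Unit F)
      (((Equiv.sumArrowEquivProdArrow Unit (Fin m ⊕ Fin m) F) v).swap)).1 (Sum.inl i) *
      (Prod.map (Equiv.refl (Fin m ⊕ Fin m → F)) (Equiv.funUnique Unit F)
      (((Equiv.sumArrowEquivProdArrow Unit (Fin m ⊕ Fin m) F) v).swap)).1 (Sum.inr i)) =
      ∑ i : Fin m, v (.inr (.inl i)) * v (.inr (.inr i)) from rfl,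
      show (Prod.map (Equiv.refl (Fin m ⊕ Fin m → F)) (Equiv.funUnique Unit F)
      (((Equiv.sumArrowEquivProdArrow Unit (Fin m ⊕ Fin m) F) v).swap)).2 = v (.inl ()) from rfl]
    constructor
    · intro h; rw [← h]; ring
    · intro h; linear_combination h
  rw [e]
  simp only [Nat.card_eq_fintype_card (α := F)] at h
  rw [pow_succ, pow_succ (Fintype.card F) (2 * m)]
  rw [pow_succ] at h
  exact h

theorem card_zeros_odd (m : ℕ) : Nat.card {v // qfOdd m F v = 0} = Fintype.card F ^ (2 * m) := by
  have h := card_qfOdd (F := F) m 0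
  have e : Nat.card {w : F // w ^ 2 - 0 = 0} = 1 := by
    rw [Nat.card_eq_one_iff_unique]
    refine ⟨⟨fun a b => Subtype.ext ?_⟩, ⟨⟨0, by simp⟩⟩⟩
    have ha := a.2
    have hb := b.2
    simp only [sub_zero] at ha hb
    rw [pow_eq_zero_iff two_ne_zero] at ha hb
    rw [ha, hb]
  rw [e, mul_one, add_comm, pow_succ (Fintype.card F) (2 * m), mul_comm (Fintype.card F ^ (2 * m))] at h
  exact Nat.eq_of_mul_eq_mul_left Fintype.card_pos (Nat.add_left_cancel h)

theorem le_card_value_odd (m : ℕ) (c : F) : Fintype.card F ^ (2 * m + 1) ≤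
    Fintype.card F * Nat.card {v // qfOdd m F v = c} + Fintype.card F ^ (m + 1) := by
  rw [card_qfOdd (F := F) m c]
  exact Nat.le_add_left _ _

theorem card_space_odd (m : ℕ) : Nat.card (Unit ⊕ (Fin m ⊕ Fin m) → F) =
    Fintype.card F * Fintype.card F ^ (2 * m) := by
  rw [Nat.card_eq_fintype_card, Fintype.card_fun]
  simp only [Fintype.card_sum, Fintype.card_unit, Fintype.card_fin]
  rw [pow_add, pow_one, two_mul]

theorem finrank_odd (m : ℕ) : Module.finrank F (Unit ⊕ (Fin m ⊕ Fin m) → F) = 2 * m + 1 := by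
  rw [Module.finrank_fintype_fun_eq_card]
  simp only [Fintype.card_sum, Fintype.card_unit, Fintype.card_fin]
  omega

/-- Numerical data for the odd-dimensional orthogonal groups over a field with at least five elements. -/
theorem num_odd (h2 : (2 : F) ≠ 0) {r σ a B m : ℕ} (hr : Fintype.card F = r + 1) (hσ : r = 2 * σ) (hσ2 : 2 ≤ σ)
    (ha : Fintype.card F ^ m = Fintype.card F * a) (ha2 : 2 ≤ a) (hB : Fintype.card F ^ (2 * m) = r * B + 1)
    (hB1 : 1 ≤ B) :
    Num (qfOdd m F) B r (Fintype.card F ^ (2 * m)) (Fintype.card F * (a * a))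
      (σ * (Fintype.card F * (a * a) - Fintype.card F * a)) (B - 1) (r * (B - 1 + 1)) := by
  have hQ := qfOdd_nondegenerate m F h2
  obtain ⟨P, hP⟩ : ∃ P, P = Fintype.card F ^ (2 * m) := ⟨_, rfl⟩
  have hP2 : P = Fintype.card F * (Fintype.card F * (a * a)) := by
    rw [hP, two_mul, pow_add, ha]; ring
  have e1 : B - 1 + 1 = B := by omega
  have hq : 5 ≤ Fintype.card F := by omega
  have hcl := fun c => le_card_value_odd (F := F) m c
  have hz := card_zeros_odd (F := F) m
  have hsp := card_space_odd (F := F) m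
  rw [← hP] at hB hz hsp ⊢
  have hc' : ∀ c : F, Fintype.card F * P ≤ Fintype.card F * Nat.card {v // qfOdd m F v = c} +
      Fintype.card F * (Fintype.card F * a) := by
    intro c
    have := hcl c
    rw [pow_succ, ← hP, pow_succ, ha] at this
    linarith
  obtain ⟨q, hq'⟩ : ∃ q, q = Fintype.card F := ⟨_, rfl⟩
  have haa : a ≤ a * a := Nat.le_mul_self a
  obtain ⟨k, hk⟩ : ∃ k, a * a = a + k := ⟨a * a - a, by omega⟩
  have hk0 : Fintype.card F * (a * a) - Fintype.card F * a = Fintype.card F * k := by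
    rw [hk, mul_add]; omega
  have hk2 : a ≤ k := by nlinarith
  rw [hk0]
  refine num_of hQ hr hsp ?_ ?_ ?_ (Or.inl (by omega)) ?_ ?_ ?_ ?_
  · rw [hz, e1, hB]
  · rw [hz, hr, ← hr, ← hP2, hr]; ring
  · intro c _
    have h1 := hc' c
    rw [← hq'] at h1 hr hP2 hq ⊢
    subst hr
    generalize Nat.card {v // qfOdd m F v = c} = N at *
    have e2 : (r + 1) * ((r + 1) * k) + (r + 1) * ((r + 1) * a) = P := by
      rw [hP2, hk]; ring
    nlinarith
  · -- h1
    have : r * (Fintype.card F * B) ≤ r * (2 * P) := by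
      have e : r * (Fintype.card F * B) + Fintype.card F = Fintype.card F * P := by rw [hB]; ring
      rw [hr] at e ⊢
      nlinarith
    exact Nat.le_of_mul_le_mul_left this (by omega)
  · -- h2
    have e : r * (Fintype.card F * B) + Fintype.card F = Fintype.card F * P := by rw [hB]; ring
    have e3 : P ≤ Fintype.card F * (σ * (Fintype.card F * k)) := by
      rw [hP2]
      refine Nat.mul_le_mul_left _ ?_
      have e6 : a * a ≤ σ * k := by rw [hk]; nlinarith
      calc Fintype.card F * (a * a) ≤ Fintype.card F * (σ * k) := Nat.mul_le_mul_left _ e6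
        _ = _ := by ring
    have e4 : Fintype.card F * P = r * P + P := by rw [hr]; ring
    omega
  · -- h3
    have e : r * (Fintype.card F * B) + Fintype.card F = Fintype.card F * P := by rw [hB]; ring
    have : r * (Fintype.card F * B) ≤ r * (P + 2 * (Fintype.card F * (a * a))) := by
      have e4 : Fintype.card F * P = r * P + P := by rw [hr]; ring
      have e5 : P ≤ r * (2 * (Fintype.card F * (a * a))) := by
        rw [hP2]
        have : Fintype.card F ≤ 2 * r := by omega
        calc Fintype.card F * (Fintype.card F * (a * a)) ≤ (2 * r) * (Fintype.card F * (a * a)) :=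
              Nat.mul_le_mul_right _ this
          _ = _ := by ring
      rw [mul_add]
      omega
    exact Nat.le_of_mul_le_mul_left this (by omega)
  · omega

end Odd

end Cfsg.Agent.Mdx.Ort
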