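import Cfsg.Agent.Mdx.OMinus
import Cfsg.Agent.Mdx.OOdd
import Cfsg.Agent.Mdx.O13

/-!
The minimal index for the orthogonal groups of minus type.
-/

set_option autoImplicit false

namespace Cfsg.Agent.Mdx.Ort

open QuadraticMap Cfsg.Agent.Orth Cfsg.Agent.OMax Finset

/-- Size of the field, of the set of non-zero squares and the characteristic. -/
theorem field_sizes {F : Type*} [Field F] [Fintype F] : ∃ (p r σ : ℕ), p.Prime ∧ CharP F p ∧
    Fintype.card F = r + 1 ∧ 1 ≤ r ∧ 1 ≤ σ ∧ (2 * σ ≤ r ∨ (CharP F 2 ∧ σ ≤ r)) ∧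
    ((r = 1 ∧ σ = 1 ∧ p = 2) ∨ (r = 2 ∧ σ = 1 ∧ p = 3) ∨ (3 ≤ r ∧ (r + 1) * (r + 1) ≤ r * (p * σ))) := by
  obtain ⟨p, hchar⟩ := CharP.exists F
  obtain ⟨n, hp, hpn⟩ := FiniteField.card F p
  have h1 : 1 < Fintype.card F := Fintype.one_lt_card
  obtain ⟨r, hr⟩ : ∃ r, Fintype.card F = r + 1 := ⟨Fintype.card F - 1, by omega⟩
  have hn := n.pos
  by_cases hp2 : p = 2
  · subst hp2
    refine ⟨2, r, r, hp, hchar, hr, by omega, by omega, Or.inr ⟨hchar, le_refl r⟩, ?_⟩
    by_cases hn1 : (n : ℕ) = 1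
    · left
      rw [hn1] at hpn
      exact ⟨by omega, by omega, rfl⟩
    · right; right
      have h4 : 2 ^ 2 ≤ 2 ^ (n : ℕ) := Nat.pow_le_pow_right (by norm_num) (by omega)
      have h3 : 3 ≤ r := by omega
      refine ⟨h3, ?_⟩
      nlinarith
  · have hodd : Odd (Fintype.card F) := by
      rw [hpn]
      exact (hp.odd_of_ne_two hp2).pow
    obtain ⟨σ, hσ⟩ : ∃ σ, r = 2 * σ := by
      obtain ⟨k, hk⟩ := hodd
      exact ⟨k, by omega⟩
    refine ⟨p, r, σ, hp, hchar, hr, by omega, by omega, Or.inl (by omega), ?_⟩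
    by_cases hr2 : r = 2
    · right; left
      have hpF : p ≤ Fintype.card F := by rw [hpn]; exact Nat.le_self_pow (by omega) p
      have := hp.two_le
      exact ⟨hr2, by omega, by omega⟩
    · right; right
      refine ⟨by omega, ?_⟩
      have hσ2 : 2 ≤ σ := by omega
      by_cases h3 : p = 3
      · subst h3
        have hn2 : 2 ≤ (n : ℕ) := by
          by_contra h
          have hn1 : (n : ℕ) = 1 := by omega
          rw [hn1] at hpn
          omega
        have h9 : 3 ^ 2 ≤ 3 ^ (n : ℕ) := Nat.pow_le_pow_right (by norm_num) hn2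
        have hσ4 : 4 ≤ σ := by omega
        rw [hσ]
        nlinarith
      · have hp5 : 5 ≤ p := by
          have := hp.two_le
          have h4 : p ≠ 4 := by rintro rfl; exact absurd hp (by norm_num)
          omega
        have h5 : r * (5 * σ) ≤ r * (p * σ) := Nat.mul_le_mul_left _ (Nat.mul_le_mul_right _ hp5)
        refine le_trans ?_ h5
        rw [hσ]
        nlinarith

section Minus

variable {F : Type*} [Field F] [Fintype F]

theorem main_minus (m : ℕ) (hm : 3 ≤ m) {a b : F}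
    (hab : ∀ z₁ z₂ : F, z₁ ^ 2 + a * z₁ * z₂ + b * z₂ ^ 2 = 0 → z₁ = 0 ∧ z₂ = 0) {r x B : ℕ}
    (hr : Fintype.card F = r + 1) (hx : Fintype.card F ^ m = x)
    (hB : r * B = (Fintype.card F * x + 1) * (x - 1)) :
    (∀ H : Subgroup (Cfsg.POmega F (Cfsg.quadFormMinus m F a b)), H ≠ ⊤ → B ≤ H.index) ∧
    (∃ H : Subgroup (Cfsg.POmega F (Cfsg.quadFormMinus m F a b)), H.index = B) := by
  obtain ⟨p, r', σ, hp, hchar, hr', hr1, hσ1, hσ, hcase⟩ := field_sizes (F := F)
  have hrr : r' = r := by omega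
  subst hrr
  have : Fact p.Prime := ⟨hp⟩
  have h1 : 1 < Fintype.card F := Fintype.one_lt_card
  have hxq : Fintype.card F ≤ x := by rw [← hx]; exact Nat.le_self_pow (by omega) _
  obtain ⟨y, hy⟩ : ∃ y, x = r' + y := ⟨x - r', by omega⟩
  have hB1 : 1 ≤ B := by
    by_contra h
    have h0 : B = 0 := by omega
    rw [h0, mul_zero] at hB
    have h2 : 0 < (Fintype.card F * x + 1) * (x - 1) := Nat.mul_pos (by omega) (by omega)
    omega
  have hnum := num_minus m hab hr hr1 hσ hσ1 hx hy hB hB1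
  have hd := disc_ne_zero_of_aniso hab
  have hQ := qfMinus_nondegenerate m F hd
  have hn : 7 ≤ Fintype.card ((Fin m ⊕ Fin m) ⊕ Fin 2) := by
    simp only [Fintype.card_sum, Fintype.card_fin]
    omega
  have hn' : 7 ≤ Module.finrank F ((Fin m ⊕ Fin m) ⊕ Fin 2 → F) := by
    rwa [Module.finrank_fintype_fun_eq_card]
  have e1 : B - 1 + 1 = B := by omega
  have hB' : r' * B + r' * x + 1 = (r' + 1) * (x * x) := by
    obtain ⟨x', hx'⟩ : ∃ x', x = x' + 1 := ⟨x - 1, by omega⟩
    rw [hB, hr]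
    have : x - 1 = x' := by omega
    rw [this, hx']; ring
  constructor
  · refine index_ge (Q := qfMinus m F a b) hQ hn ?_
    intro K hK
    refine le_index_W hQ hn' hnum p ?_ (hW_minus m hab) K hK
    rcases hcase with ⟨e2, e3, e4⟩ | ⟨e2, e3, e4⟩ | ⟨e2, e3⟩
    · right; right
      rw [e2] at hr hB'
      refine ⟨hr, ?_⟩
      rw [e3, hr]
      omega
    · right; left
      rw [e2] at hr hB'
      refine ⟨hr, ?_⟩
      rw [e3, hr]
      omega
    · left
      have h2 : r' * (Fintype.card F * B) ≤ r' * (p * (σ * (x * x + x))) := by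
        calc r' * (Fintype.card F * B) = (r' + 1) * (r' * B) := by rw [hr]; ring
          _ ≤ (r' + 1) * ((r' + 1) * (x * x)) := Nat.mul_le_mul_left _ (by omega)
          _ = (r' + 1) * (r' + 1) * (x * x) := by ring
          _ ≤ r' * (p * σ) * (x * x) := Nat.mul_le_mul_right _ e3
          _ ≤ r' * (p * σ) * (x * x + x) := Nat.mul_le_mul_left _ (by omega)
          _ = r' * (p * (σ * (x * x + x))) := by ring
      exact Nat.le_of_mul_le_mul_left h2 (by omega)
  · obtain ⟨y, hy, h⟩ := exists_lineStab_sing hQ hn' hr (by omega) hnum.hS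
    rw [e1] at h
    exact exists_index (Q := qfMinus m F a b) hQ hn hy h

end Minus

end Cfsg.Agent.Mdx.Ort
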