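import Cfsg.Agent.Mdx.O8
import Cfsg.Agent.OrthCount.Forms

/-!
Counting vectors of given value in the hyperplane orthogonal to a singular vector; the numerical data
for the orthogonal groups.
-/

set_option autoImplicit false

namespace Cfsg.Agent.Mdx.Ort

open QuadraticMap Cfsg.Agent.Orth Cfsg.Agent.OMax Finset

variable {F V : Type*} [Field F] [AddCommGroup V] [Module F V] {Q : QuadraticForm F V}

section Count

variable [Fintype F] [FiniteDimensional F V]

theorem card_level {v : V} (hv : Q v = 0) (c : F) {r P : ℕ} (hr : Fintype.card F = r + 1)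
    (hV : Nat.card V = Fintype.card F * P) (hP : Nat.card {x // polar Q v x = 0} = P) :
    Fintype.card F * Nat.card {x // polar Q v x = 0 ∧ Q x = c} + r * P =
      Fintype.card F * Nat.card {x // Q x = c} := by
  classical
  have : Finite V := Module.finite_of_finite F
  have := Fintype.ofFinite V
  let e : {x // ¬ polar Q v x = 0 ∧ Q x = c} × F ≃ {x // ¬ polar Q v x = 0} :=
    { toFun := fun p => ⟨p.1.1 + p.2 • v, by
        rw [par, psr, pself, hv]; simpa using p.1.2.1⟩
      invFun := fun x => (⟨x.1 - ((Q x.1 - c) / polar Q v x.1) • v, by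
        rw [pdr, psr, pself, hv]; simpa using x.2, by
        rw [qsub, qsmul, hv, psr, pc Q x.1 v]
        have := x.2
        field_simp
        ring⟩, (Q x.1 - c) / polar Q v x.1)
      left_inv := by
        rintro ⟨⟨x, hx, hx'⟩, t⟩
        have e1 : (Q (x + t • v) - c) / polar Q v (x + t • v) = t := by
          rw [par, psr, pself, hv, qadd, qsmul, hv, psr, pc Q x v, hx']
          have e2 : c + t * t * 0 + t * polar Q v x - c = t * polar Q v x := by ring
          have e3 : polar Q v x + t * (2 * 0) = polar Q v x := by ring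
          rw [e2, e3, mul_div_assoc, div_self hx, mul_one]
        simp only [Prod.mk.injEq, Subtype.mk.injEq]
        rw [e1]
        exact ⟨by abel, rfl⟩
      right_inv := by
        rintro ⟨x, hx⟩
        simp }
  have h1 := Nat.card_congr e
  rw [Nat.card_prod, Nat.card_eq_fintype_card (α := F)] at h1
  have h2 : Nat.card V = Nat.card {x // polar Q v x = 0} + Nat.card {x // ¬ polar Q v x = 0} := by
    rw [Nat.card_eq_fintype_card, Nat.card_eq_fintype_card, Nat.card_eq_fintype_card, Fintype.card_subtype_compl]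
    have := Fintype.card_subtype_le (fun x => polar Q v x = 0)
    omega
  have h3 : Nat.card {x // Q x = c} = Nat.card {x // polar Q v x = 0 ∧ Q x = c} +
      Nat.card {x // ¬ polar Q v x = 0 ∧ Q x = c} := by
    rw [Nat.card_eq_fintype_card, Nat.card_eq_fintype_card, Nat.card_eq_fintype_card,
      Fintype.card_subtype, Fintype.card_subtype, Fintype.card_subtype]
    have := Finset.card_filter_add_card_filter_not (s := univ.filter fun x : V => Q x = c)
      (fun x => polar Q v x = 0)
    rw [Finset.filter_filter, Finset.filter_filter] at this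
    rw [← this]
    congr 2 <;> (ext x; simp [and_comm])
  rw [hV, hP, ← h1] at h2
  rw [h3, mul_add]
  generalize Nat.card {x // ¬ polar Q v x = 0 ∧ Q x = c} = A at *
  generalize Nat.card {x // polar Q v x = 0 ∧ Q x = c} = B at *
  have h4 : Fintype.card F * P = r * P + P := by rw [hr]; ring
  rw [mul_comm A] at h2
  omega

/-- Number of the non-zero square multiples of `c`. -/
theorem card_sq_mul {c : F} (hc : c ≠ 0) {r : ℕ} (hr : Fintype.card F = r + 1) [DecidableEq F]
    (S : Finset F) (hS : ∀ e, e ∈ S ↔ ∃ d : F, d ≠ 0 ∧ e = d * d * c) : r ≤ 2 * S.card := by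
  have h1 : (univ.erase (0 : F)).card = r := by
    rw [Finset.card_erase_of_mem (Finset.mem_univ _), Finset.card_univ, hr]; rfl
  have h2 : ∀ d ∈ univ.erase (0 : F), d * d * c ∈ S := by
    intro d hd
    exact (hS _).2 ⟨d, (Finset.mem_erase.1 hd).1, rfl⟩
  have h3 := Finset.card_eq_sum_card_fiberwise h2
  rw [h1] at h3
  rw [h3]
  have h4 : ∀ e ∈ S, ((univ.erase (0 : F)).filter fun d => d * d * c = e).card ≤ 2 := by
    intro e he
    obtain ⟨d, hd, rfl⟩ := (hS e).1 he
    have : ((univ.erase (0 : F)).filter fun d' => d' * d' * c = d * d * c) ⊆ {d, -d} := by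
      intro d' hd'
      rw [Finset.mem_filter] at hd'
      have h5 := mul_right_cancel₀ hc hd'.2
      rw [Finset.mem_insert, Finset.mem_singleton]
      exact mul_self_eq_mul_self_iff.1 h5
    exact (Finset.card_le_card this).trans Finset.card_le_two
  have := Finset.sum_le_sum h4
  rw [Finset.sum_const, smul_eq_mul, mul_comm] at this
  exact this

theorem card_sq_mul_two [CharP F 2] {c : F} (hc : c ≠ 0) {r : ℕ} (hr : Fintype.card F = r + 1) [DecidableEq F]
    (S : Finset F) (hS : ∀ e, e ∈ S ↔ ∃ d : F, d ≠ 0 ∧ e = d * d * c) : r ≤ S.card := by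
  have h1 : (univ.erase (0 : F)).card = r := by
    rw [Finset.card_erase_of_mem (Finset.mem_univ _), Finset.card_univ, hr]; rfl
  rw [← h1]
  refine Finset.card_le_card_of_injOn (fun d => d * d * c) ?_ ?_
  · intro d hd
    exact (hS _).2 ⟨d, (Finset.mem_erase.1 hd).1, rfl⟩
  · intro d _ d' _ h
    have h5 := mul_right_cancel₀ hc h
    rcases mul_self_eq_mul_self_iff.1 h5 with h | h
    · exact h
    · rw [h, CharTwo.neg_eq]

/-- Vectors orthogonal to `v` whose value is a non-zero square multiple of `c`. -/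
theorem le_card_class {v : V} {c : F} {σ k0 : ℕ} [DecidableEq F]
    (S : Finset F) (hS : ∀ e, e ∈ S ↔ ∃ d : F, d ≠ 0 ∧ e = d * d * c) (hσ : σ ≤ S.card)
    (hk : ∀ e ∈ S, k0 ≤ Nat.card {x // polar Q v x = 0 ∧ Q x = e}) :
    σ * k0 ≤ Nat.card {x // polar Q v x = 0 ∧ ∃ d : F, d ≠ 0 ∧ Q x = d * d * c} := by
  classical
  have : Finite V := Module.finite_of_finite F
  have := Fintype.ofFinite V
  rw [Nat.card_eq_fintype_card, Fintype.card_subtype]
  have h2 : ∀ x ∈ univ.filter (fun x : V => polar Q v x = 0 ∧ ∃ d : F, d ≠ 0 ∧ Q x = d * d * c), Q x ∈ S := by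
    intro x hx
    exact (hS _).2 (Finset.mem_filter.1 hx).2.2
  rw [Finset.card_eq_sum_card_fiberwise h2]
  have h3 : ∀ e ∈ S, k0 ≤ ((univ.filter (fun x : V => polar Q v x = 0 ∧ ∃ d : F, d ≠ 0 ∧ Q x = d * d * c)).filter
      fun x => Q x = e).card := by
    intro e he
    have := hk e he
    rw [Nat.card_eq_fintype_card, Fintype.card_subtype] at this
    refine this.trans (Finset.card_le_card fun x hx => ?_)
    rw [Finset.mem_filter] at hx
    rw [Finset.mem_filter, Finset.mem_filter]
    exact ⟨⟨Finset.mem_univ _, hx.2.1, by rw [hx.2.2]; exact (hS e).1 he⟩, hx.2.2⟩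
  calc σ * k0 ≤ S.card * k0 := Nat.mul_le_mul_right _ hσ
    _ = ∑ e ∈ S, k0 := by rw [Finset.sum_const, smul_eq_mul]
    _ ≤ _ := Finset.sum_le_sum h3

/-- The numerical data from the numbers of vectors of given value. -/
theorem num_of (hQ : (polarBilin Q).Nondegenerate) {Bd r P s σ k0 N₁ : ℕ}
    (hr : Fintype.card F = r + 1) (hV : Nat.card V = Fintype.card F * P)
    (h0 : Nat.card {x : V // Q x = 0} = r * (N₁ + 1) + 1)
    (hs : Fintype.card F * s + r * P = Fintype.card F * Nat.card {x : V // Q x = 0})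
    (hk0 : ∀ c : F, c ≠ 0 → Fintype.card F * k0 + r * P ≤ Fintype.card F * Nat.card {x : V // Q x = c})
    (hσ : (2 * σ ≤ r) ∨ (CharP F 2 ∧ σ ≤ r))
    (h1 : Fintype.card F * Bd ≤ 2 * P)
    (h2 : r * (Fintype.card F * Bd) ≤ r * P + Fintype.card F * (σ * k0))
    (h3 : Fintype.card F * Bd ≤ P + 2 * s)
    (hB : Bd ≤ N₁ + 1) : Num Q Bd r P s (σ * k0) N₁ (r * (N₁ + 1)) := by
  classical
  have hfin : Finite V := Module.finite_of_finite F
  have hfin' : Fintype V := Fintype.ofFinite V
  have hP : ∀ v : V, v ≠ 0 → Nat.card {x // polar Q v x = 0} = P := by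
    intro v hv
    have h := card_PV hQ hv
    have h' : Nat.card {x // polar Q v x = 0} = Nat.card (PV Q v) :=
      Nat.card_congr (Equiv.subtypeEquivRight fun x => mem_PV.symm)
    rw [h']
    rw [hV] at h
    exact Nat.eq_of_mul_eq_mul_left Fintype.card_pos h
  refine ⟨hr, hP, ?_, ?_, ?_, h1, h2, h3, ?_, hB⟩
  · intro v hv hv0
    have h := card_level hv 0 hr hV (hP v hv0)
    rw [← hs] at h
    exact Nat.eq_of_mul_eq_mul_left Fintype.card_pos (Nat.add_right_cancel h)
  · intro v c hv hv0 hc
    have hS : ∀ e, e ∈ univ.filter (fun e : F => ∃ d : F, d ≠ 0 ∧ e = d * d * c) ↔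
        ∃ d : F, d ≠ 0 ∧ e = d * d * c := by intro e; simp
    refine le_card_class _ hS ?_ ?_
    · rcases hσ with h | ⟨h, h'⟩
      · have := card_sq_mul hc hr _ hS
        omega
      · exact h'.trans (card_sq_mul_two hc hr _ hS)
    · intro e he
      obtain ⟨d, hd, rfl⟩ := (hS _).1 he
      have h := card_level hv (d * d * c) hr hV (hP v hv0)
      have h' := hk0 (d * d * c) (mul_ne_zero (mul_ne_zero hd hd) hc)
      rw [← h] at h'
      exact Nat.le_of_mul_le_mul_left (Nat.le_of_add_le_add_right h') Fintype.card_pos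
  · have e : Nat.card {x : V // Q x = 0} = Nat.card {v : V // Q v = 0 ∧ v ≠ 0} + 1 := by
      have := Fintype.ofFinite V
      rw [Nat.card_eq_fintype_card, Nat.card_eq_fintype_card, Fintype.card_subtype, Fintype.card_subtype]
      have h : (univ.filter fun x : V => Q x = 0) = insert 0 (univ.filter fun x : V => Q x = 0 ∧ x ≠ 0) := by
        ext x
        simp only [Finset.mem_filter, Finset.mem_univ, true_and, Finset.mem_insert]
        constructor
        · intro h
          by_cases hx : x = 0
          · exact Or.inl hx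
          · exact Or.inr ⟨h, hx⟩
        · rintro (h | h)
          · rw [h, map_zero]
          · exact h.1
      rw [h, Finset.card_insert_of_notMem (by simp)]
    rw [h0] at e
    omega
  · rw [h0] at hs
    rw [add_comm (r * P), hs, hr]
    ring

end Count

/-! ### Zeros of `x₁ y₁ + ⋯ + xₘ yₘ + f(w)` -/

section Zeros

open Cfsg.Agent.OrthCount

variable {W : Type*} [Finite W] [AddCommGroup W] [Module F W]

/-- The function `x₁ y₁ + ⋯ + xₘ yₘ + f(w)`. -/
def hf (m : ℕ) (f : W → F) (p : (Fin m ⊕ Fin m → F) × W) : F :=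
  ∑ i : Fin m, p.1 (.inl i) * p.1 (.inr i) + f p.2

theorem card_hf_succ [Finite F] (m : ℕ) (f : W → F) :
    Nat.card {v // hf (m + 1) f v = 0} + Nat.card F ^ (2 * m) * Nat.card W =
      Nat.card F * Nat.card {v // hf m f v = 0} +
      Nat.card F * (Nat.card F ^ (2 * m) * Nat.card W) := by
  have h1 : Nat.card {v // hf (m + 1) f v = 0} =
      Nat.card {p : (F × F) × ((Fin m ⊕ Fin m → F) × W) // p.1.1 * p.1.2 + hf m f p.2 = 0} := by
    refine Nat.card_congr (Equiv.subtypeEquiv (splitEquiv m).toEquiv fun v => ?_)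
    have : hf (m + 1) f v = (splitEquiv m v).1.1 * (splitEquiv m v).1.2 + hf m f (splitEquiv m v).2 := by
      unfold hf
      rw [Fin.sum_univ_succ]
      simp [splitEquiv]
      ring
    rw [this]
    rfl
  rw [h1, ← card_space (F := F) (W := W) m, ← card_zeros_hyp (V := (Fin m ⊕ Fin m → F) × W) (hf m f)]

theorem card_hf [Finite F] (f : W → F) (m : ℕ) :
    Nat.card F * Nat.card {v // hf m f v = 0} + Nat.card F ^ m * Nat.card W =
      Nat.card F ^ (m + 1) * Nat.card {w // f w = 0} + Nat.card F ^ (2 * m) * Nat.card W := by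
  induction m with
  | zero =>
    have h1 : Nat.card {v // hf 0 f v = 0} = Nat.card {w // f w = 0} := by
      refine Nat.card_congr (Equiv.subtypeEquiv (zeroEquiv (F := F) (W := W)).toEquiv fun v => ?_)
      have : hf 0 f v = f (zeroEquiv (F := F) (W := W) v) := by
        unfold hf
        simp [zeroEquiv]
      rw [this]
      rfl
    rw [h1]
    simp
  | succ m ih =>
    have h := card_hf_succ m f
    generalize Nat.card F = q at *
    generalize Nat.card {v // hf m f v = 0} = Z at *
    generalize Nat.card {v // hf (m + 1) f v = 0} = Z' at *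
    generalize Nat.card W = w at *
    generalize Nat.card {w // f w = 0} = z at *
    have h1 : q * (Z' + q ^ (2 * m) * w) = q * (q * Z + q * (q ^ (2 * m) * w)) := by rw [h]
    have h2 : q * (q * Z + q ^ m * w) = q * (q ^ (m + 1) * z + q ^ (2 * m) * w) := by rw [ih]
    have e1 : q ^ (m + 1) * w = q * (q ^ m * w) := by ring
    have e2 : q ^ (2 * (m + 1)) * w = q * (q * (q ^ (2 * m) * w)) := by ring
    have e3 : q ^ (m + 1 + 1) * z = q * (q ^ (m + 1) * z) := by ring
    rw [e1, e2, e3]
    simp only [mul_add] at h1 h2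
    omega

end Zeros

end Cfsg.Agent.Mdx.Ort
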