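import Cfsg.Agent.Mdx.O8

/-!
Totally singular dual fixators: they are trivial or maximal totally singular subspaces.
-/

set_option autoImplicit false

namespace Cfsg.Agent.Mdx.Ort

open QuadraticMap Cfsg.Agent.Orth Cfsg.Agent.OMax Finset

variable {F V : Type*} [Field F] [AddCommGroup V] [Module F V] {Q : QuadraticForm F V}

variable {Z : Type*} [MulAction (SGrp Q) Z] {ψ : AddChar F ℂ}

/-- The dual fixator is a subspace equal to its orthogonal complement. -/
structure MaxT (ψ : AddChar F ℂ) (Q : QuadraticForm F V) [MulAction (SGrp Q) Z] (v : V) (ω : Z) : Prop where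
  smul : ∀ x ∈ TD (Q := Q) ψ v ω, ∀ c : F, c • x ∈ TD (Q := Q) ψ v ω
  sing : ∀ x ∈ TD (Q := Q) ψ v ω, Q x = 0
  max : ∀ w, (∀ x ∈ TD (Q := Q) ψ v ω, polar Q x w = 0) → w ∈ TD (Q := Q) ψ v ω

theorem self_perp [Finite F] [FiniteDimensional F V] (hQ : (polarBilin Q).Nondegenerate) {E : Submodule F V}
    (hE : ∀ x ∈ E, Q x = 0) (hE' : ∀ x ∈ perp Q E, Q x = 0) : perp Q E = E := by
  apply le_antisymm
  · intro x hx
    rw [← perp_perp hQ E]
    intro y hy
    have h8 := hE' _ (Submodule.add_mem _ hy hx)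
    rw [qadd, hE' x hx, hE' y hy] at h8
    simpa using h8
  · intro x hx y hy
    have h8 := hE _ (Submodule.add_mem _ hy hx)
    rw [qadd, hE x hx, hE y hy] at h8
    simpa using h8

section Str

variable [Finite F] [FiniteDimensional F V]

variable (hQ : (polarBilin Q).Nondegenerate) (hn : 7 ≤ Module.finrank F V) (hψ : ψ ≠ 1) {ω : Z}
  (hS : ∀ v, Q v = 0 → v ≠ 0 → Sing ψ Q v ω)

include hQ hψ in
/-- Symmetry of the non-orthogonality relation. -/
theorem exists_not_ortho {v v' x : V} (hv : Q v = 0) (hv' : Q v' = 0) (hvv : polar Q v v' = 0)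
    (hx : x ∈ TD (Q := Q) ψ v ω) (hxv : polar Q x v' ≠ 0) :
    ∃ x' ∈ TD (Q := Q) ψ v' ω, polar Q x' v ≠ 0 := by
  by_contra hcon
  push Not at hcon
  have : Finite V := Module.finite_of_finite F
  have h1 : ∀ c : F, c • v' ∈ AA (Q := Q) v ω := by
    intro c
    by_cases hc : c = 0
    · rw [hc, zero_smul]; exact AddSubgroup.zero_mem _
    have h2 : v ∈ AA (Q := Q) (c • v') ω := by
      rw [mem_AA_iff hQ hψ]
      intro y hy
      rw [TD_smul ψ hc] at hy
      have h3 := hcon _ hy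
      rw [psl] at h3
      have h4 : polar Q y v = 0 := (mul_eq_zero.1 h3).resolve_left (inv_ne_zero hc)
      rw [h4]; exact ψ.map_zero_eq_one
    exact AA_swap (by rw [qsmul, hv', mul_zero]) hv (by rw [psl, pc Q v' v, hvv, mul_zero]) h2
  apply hψ
  apply AddChar.ext
  intro a
  have h5 := (mem_AA_iff hQ hψ v _ ω).1 (h1 (a / polar Q x v')) x hx
  rw [psr, div_mul_cancel₀ a hxv] at h5
  rw [h5]; rfl

include hQ hψ hS in
/-- The main step. -/
theorem UU_facts {v v' x : V} (hv : Q v = 0) (hv0 : v ≠ 0) (hv' : Q v' = 0) (hv'0 : v' ≠ 0)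
    (hvv : polar Q v v' = 0)
    (hx : x ∈ TD (Q := Q) ψ v ω) (hxv : polar Q x v' ≠ 0) :
    perp Q (UU ψ Q v v' ω) = UU ψ Q v v' ω ∧
    (∀ w ∈ UU ψ Q v v' ω, ∃ t ∈ TD (Q := Q) ψ v ω, ∃ c : F, w = t + c • v' ∧ polar Q v' t = 0) := by
  obtain ⟨x', hx', hx'v⟩ := exists_not_ortho hQ hψ hv hv' hvv hx hxv
  have hvv' : polar Q v' v = 0 := by rw [pc]; exact hvv
  have h1 := self_perp hQ (UU_sing hv' (hS v hv hv0)) (perp_UU_sing hQ hψ hv hv' hvv hx hxv (hS v' hv' hv'0))
  have h2 := self_perp hQ (UU_sing hv (hS v' hv' hv'0)) (perp_UU_sing hQ hψ hv' hv hvv' hx' hx'v (hS v hv hv0))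
  have h3 : UU ψ Q v v' ω ≤ UU ψ Q v' v ω := by
    intro w hw
    rw [← h1] at hw
    obtain ⟨t, ht, c, rfl, h4⟩ := perp_UU hQ hψ hv hv' hvv hx hxv w hw
    refine Submodule.add_mem _ (Submodule.subset_span (Or.inl ⟨ht, h4⟩)) (Submodule.smul_mem _ _ ?_)
    exact Submodule.subset_span (Or.inr rfl)
  refine ⟨h1, fun w hw => ?_⟩
  have hw' := h3 hw
  rw [← h2] at hw'
  exact perp_UU hQ hψ hv' hv hvv' hx' hx'v w hw'

include hQ hψ hS in
theorem smul_mem_of_ortho {v v' x : V} (hv : Q v = 0) (hv0 : v ≠ 0) (hv' : Q v' = 0) (hv'0 : v' ≠ 0)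
    (hvv : polar Q v v' = 0)
    (hx : x ∈ TD (Q := Q) ψ v ω) (hxv : polar Q x v' ≠ 0) {t : V} (ht : t ∈ TD (Q := Q) ψ v ω)
    (htv : polar Q v' t = 0) (α : F) : α • t ∈ TD (Q := Q) ψ v ω := by
  obtain ⟨-, h2⟩ := UU_facts hQ hψ hS hv hv0 hv' hv'0 hvv hx hxv
  obtain ⟨t', ht', c, h3, -⟩ := h2 (α • t) (Submodule.smul_mem _ _ (Submodule.subset_span (Or.inl ⟨ht, htv⟩)))
  have hs := hS v hv hv0
  have h4 := congrArg (fun z => polar Q x z) h3
  simp only [par, psr, hs.polar_eq hx ht, hs.polar_eq hx ht', mul_zero, zero_add] at h4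
  have h5 : c = 0 := (mul_eq_zero.1 h4.symm).resolve_right hxv
  rw [h3, h5, zero_smul, add_zero]
  exact ht'

include hQ hn hψ hS in
/-- Dual fixators are trivial or maximal. -/
theorem triv_or_max {v : V} (hv : Q v = 0) (hv0 : v ≠ 0) : Triv ψ Q v ω ∨ MaxT ψ Q v ω := by
  by_cases htr : Triv ψ Q v ω
  · exact Or.inl htr
  right
  have hs := hS v hv hv0
  have hsmul : ∀ t ∈ TD (Q := Q) ψ v ω, ∀ c : F, c • t ∈ TD (Q := Q) ψ v ω := by
    intro t ht c
    by_cases htv : t ∈ Submodule.span F {v}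
    · obtain ⟨d, rfl⟩ := Submodule.mem_span_singleton.1 htv
      rw [smul_smul]
      exact smul_self_mem_TD v _ ω
    obtain ⟨x₂, hx₂, hx₂s⟩ : ∃ x₂ ∈ TD (Q := Q) ψ v ω, x₂ ∉ Submodule.span F {v, t} := by
      by_contra hcon
      push Not at hcon
      obtain ⟨v', hv', hvv, -, htv'⟩ := exists_sing_perp_pair hQ hn (v := v) (y := v) (w := t)
        (by rwa [Set.pair_eq_singleton])
      have hv'0 : v' ≠ 0 := by rintro rfl; exact htv' (polar_zero_right Q t)
      obtain ⟨h1, -⟩ := UU_facts hQ hψ hS hv hv0 hv' hv'0 hvv ht htv'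
      have h2 : UU ψ Q v v' ω ≤ Submodule.span F {v, v'} := by
        unfold UU
        rw [Submodule.span_le]
        rintro u (⟨hu, hu'⟩ | rfl)
        · obtain ⟨α, β, rfl⟩ := Submodule.mem_span_pair.1 (hcon u hu)
          rw [par, psr, psr, pc Q v' v, hvv, pc Q v' t] at hu'
          have hβ : β = 0 := by
            have : β * polar Q t v' = 0 := by linear_combination hu'
            exact (mul_eq_zero.1 this).resolve_right htv'
          rw [hβ, zero_smul, add_zero]
          exact Submodule.smul_mem _ _ (Submodule.subset_span (by simp))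
        · exact Submodule.subset_span (by simp)
      have h3 := Submodule.finrank_mono h2
      have h4 := finrank_span_pair_le (F := F) v v'
      have h5 := finrank_perp hQ (UU ψ Q v v' ω)
      rw [h1] at h5
      omega
    obtain ⟨a, ha, hva, hta, hxa⟩ := exists_sing_perp_pair hQ hn hx₂s
    have ha0 : a ≠ 0 := by rintro rfl; exact hxa (polar_zero_right Q x₂)
    exact smul_mem_of_ortho hQ hψ hS hv hv0 ha ha0 hva hx₂ hxa ht (by rw [pc]; exact hta) c
  refine ⟨hsmul, hs, fun w hw => ?_⟩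
  unfold Triv at htr
  push Not at htr
  obtain ⟨x, hx, hxv⟩ := htr
  obtain ⟨v', hv', hvv, -, hxv'⟩ := exists_sing_perp_pair hQ hn (v := v) (y := v) (w := x)
    (by rwa [Set.pair_eq_singleton])
  have hv'0 : v' ≠ 0 := by rintro rfl; exact hxv' (polar_zero_right Q x)
  obtain ⟨h1, h2⟩ := UU_facts hQ hψ hS hv hv0 hv' hv'0 hvv hx hxv'
  obtain ⟨l, hl⟩ : ∃ l, l = polar Q w v' / polar Q x v' := ⟨_, rfl⟩
  have hwv : polar Q w v' = l * polar Q x v' := by rw [hl, div_mul_cancel₀ _ hxv']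
  have h3 : w - l • x ∈ UU ψ Q v v' ω := by
    rw [← h1]
    intro u hu
    change polar Q u (w - l • x) = 0
    rw [pc]
    unfold UU at hu
    induction hu using Submodule.span_induction with
    | mem u hu =>
      rcases hu with ⟨hu, -⟩ | rfl
      · rw [pdl, psl, pc Q w u, hw u hu, hs.polar_eq hx hu]; ring
      · rw [pdl, psl, hwv]; ring
    | zero => exact polar_zero_right Q _
    | add u u' _ _ hu hu' => rw [par, hu, hu', add_zero]
    | smul c u _ hu => rw [psr, hu, mul_zero]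
  obtain ⟨t, ht, c, h4, -⟩ := h2 _ h3
  have h5 := congrArg (fun z => polar Q x z) h4
  simp only [pdr, par, psr, hs.polar_eq hx ht, hs.polar_eq hx hx, hw x hx, mul_zero, zero_add, sub_zero] at h5
  have h6 : c = 0 := (mul_eq_zero.1 h5.symm).resolve_right hxv'
  have h7 : w = t + l • x := by
    rw [h6, zero_smul, add_zero] at h4
    rw [← h4]; abel
  rw [h7]
  exact AddSubgroup.add_mem _ ht (hsmul x hx l)

include hQ hψ in
/-- The fixator coincides with the dual fixator in the maximal case. -/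
theorem MaxT.mem_AA {v : V} (hv : Q v = 0) (h : MaxT ψ Q v ω) {b : V} :
    b ∈ AA (Q := Q) v ω ↔ b ∈ TD (Q := Q) ψ v ω := by
  have : Finite V := Module.finite_of_finite F
  rw [mem_AA_iff hQ hψ]
  constructor
  · intro hb
    refine h.max b fun x hx => ?_
    by_contra hne
    apply hψ
    apply AddChar.ext
    intro a
    have h5 := hb _ (h.smul x hx (a / polar Q x b))
    rw [psl, div_mul_cancel₀ a hne] at h5
    rw [h5]; rfl
  · intro hb x hx
    have h1 := h.sing _ (AddSubgroup.add_mem _ hx hb)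
    rw [qadd, h.sing x hx, h.sing b hb] at h1
    have : polar Q x b = 0 := by simpa using h1
    rw [this]; exact ψ.map_zero_eq_one

end Str

end Cfsg.Agent.Mdx.Ort
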