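import Cfsg.Agent.Mdx.OP1

/-!
Counting maximal dual fixators.
-/

set_option autoImplicit false

namespace Cfsg.Agent.Mdx.Ort

open QuadraticMap Cfsg.Agent.Orth Cfsg.Agent.OMax Finset

variable {F V : Type*} [Field F] [AddCommGroup V] [Module F V] {Q : QuadraticForm F V}

theorem li3 {v x x' : V} (hv : v ≠ 0) (hx : x ∉ Submodule.span F {v}) (hx' : x' ∉ Submodule.span F {v, x}) :
    LinearIndependent F ![v, x, x'] := by
  rw [Fintype.linearIndependent_iff]
  intro g hg
  rw [Fin.sum_univ_three] at hg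
  simp only [Matrix.cons_val_zero, Matrix.cons_val_one, Matrix.cons_val] at hg
  have h2 : g 2 = 0 := by
    by_contra h
    apply hx'
    refine Submodule.mem_span_pair.2 ⟨-(g 2)⁻¹ * g 0, -(g 2)⁻¹ * g 1, ?_⟩
    have e : (g 2)⁻¹ * g 2 = 1 := inv_mul_cancel₀ h
    have h4 : (g 2)⁻¹ • (g 0 • v + g 1 • x + g 2 • x') = 0 := by rw [hg, smul_zero]
    linear_combination (norm := module) -h4 + e • x'
  rw [h2, zero_smul, add_zero] at hg
  have h1 : g 1 = 0 := by
    by_contra h
    apply hx
    refine Submodule.mem_span_singleton.2 ⟨-(g 1)⁻¹ * g 0, ?_⟩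
    have e : (g 1)⁻¹ * g 1 = 1 := inv_mul_cancel₀ h
    have h4 : (g 1)⁻¹ • (g 0 • v + g 1 • x) = 0 := by rw [hg, smul_zero]
    linear_combination (norm := module) -h4 + e • x
  rw [h1, zero_smul, add_zero] at hg
  have h0 : g 0 = 0 := (smul_eq_zero.1 hg).resolve_right hv
  intro i
  fin_cases i
  · exact h0
  · exact h1
  · exact h2

section Witt

variable [Finite F] [FiniteDimensional F V]

/-- Transitivity on totally singular triples which are not maximal. -/
theorem exists_triple (hQ : (polarBilin Q).Nondegenerate) (hn : 7 ≤ Module.finrank F V)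
    {w₀ w : Fin 3 → V} (h₀ : LinearIndependent F w₀) (h : LinearIndependent F w)
    (hp₀ : ∀ i j, polar Q (w₀ i) (w₀ j) = 0) (hp : ∀ i j, polar Q (w i) (w j) = 0)
    (hq₀ : ∀ i, Q (w₀ i) = 0) (hq : ∀ i, Q (w i) = 0) {u₀ : V} (hu₀ : Q u₀ = 0)
    (hpu : ∀ i, polar Q u₀ (w₀ i) = 0) (hus : u₀ ∉ Submodule.span F (Set.range w₀)) :
    ∃ g : SGrp Q, ∀ i, ap g (w₀ i) = w i := by
  obtain ⟨g₁, hg₁⟩ := witt_family hQ 3 w₀ w h₀ h (fun i j => by rw [hp₀, hp]) (fun i => by rw [hq₀, hq])
  obtain ⟨u, hu⟩ : ∃ u, u = (g₁ : V ≃ₗ[F] V) u₀ := ⟨_, rfl⟩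
  have hQu : Q u = 0 := by rw [hu, OGrp_q, hu₀]
  have hpu' : ∀ i, polar Q u (w i) = 0 := fun i => by rw [hu, ← hg₁ i, OGrp_polar, hpu]
  have hus' : u ∉ Submodule.span F (Set.range w) := by
    intro hmem
    apply hus
    have h1 : Submodule.span F (Set.range w) =
        (Submodule.span F (Set.range w₀)).map ((g₁ : V ≃ₗ[F] V) : V →ₗ[F] V) := by
      rw [Submodule.map_span, ← Set.range_comp]
      congr 1
      ext y
      simp only [Set.mem_range, Function.comp_apply]
      constructor
      · rintro ⟨i, rfl⟩; exact ⟨i, hg₁ i⟩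
      · rintro ⟨i, rfl⟩; exact ⟨i, (hg₁ i).symm⟩
    rw [h1, Submodule.mem_map] at hmem
    obtain ⟨y, hy, hyu⟩ := hmem
    have : y = u₀ := (g₁ : V ≃ₗ[F] V).injective (by rw [← hu]; exact hyu)
    rwa [← this]
  have hmem : ∀ y, y ∈ perp Q (Submodule.span F (Set.range w)) ↔ ∀ i, polar Q (w i) y = 0 := by
    intro y
    constructor
    · intro hy i
      exact hy (w i) (Submodule.subset_span ⟨i, rfl⟩)
    · intro hy x hx
      change polar Q x y = 0
      induction hx using Submodule.span_induction with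
      | mem x hx => obtain ⟨i, rfl⟩ := hx; exact hy i
      | zero => exact polar_zero_left Q _
      | add x x' _ _ hx hx' => rw [pal, hx, hx', add_zero]
      | smul c x _ hx => rw [psl, hx, mul_zero]
  obtain ⟨u', hu', huu⟩ : ∃ u' ∈ perp Q (Submodule.span F (Set.range w)), polar Q u' u ≠ 0 := by
    by_contra hcon
    push Not at hcon
    apply hus'
    rw [← perp_perp hQ (Submodule.span F (Set.range w))]
    exact hcon
  refine exists_ap_family hQ hn w₀ w h₀ h (fun i j => by rw [hp₀, hp]) (fun i => by rw [hq₀, hq])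
    (fun c _ => ?_)
  refine ⟨u' + ((c - Q u') / polar Q u' u) • u, ?_, fun i => ?_⟩
  · rw [qadd, qsmul, hQu, psr, div_mul_cancel₀ _ huu]; ring
  · rw [pal, psl, hpu', pc Q u' (w i), (hmem u').1 hu' i]; ring

end Witt

section Level

variable [Fintype F] [FiniteDimensional F V]

/-- Counting in a subspace containing a singular vector. -/
theorem card_level_sub {U : Submodule F V} {v : V} (hvU : v ∈ U) (hv : Q v = 0) (c : F) :
    Fintype.card F * Nat.card {x // (x ∈ U ∧ polar Q v x = 0) ∧ Q x = c} + Nat.card U =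
      Fintype.card F * Nat.card {x // x ∈ U ∧ Q x = c} + Nat.card {x // x ∈ U ∧ polar Q v x = 0} := by
  classical
  have : Finite V := Module.finite_of_finite F
  have := Fintype.ofFinite V
  let e : {x // (x ∈ U ∧ ¬ polar Q v x = 0) ∧ Q x = c} × F ≃ {x // x ∈ U ∧ ¬ polar Q v x = 0} :=
    { toFun := fun p => ⟨p.1.1 + p.2 • v, U.add_mem p.1.2.1.1 (U.smul_mem _ hvU), by
        rw [par, psr, pself, hv]; simpa using p.1.2.1.2⟩
      invFun := fun x => (⟨x.1 - ((Q x.1 - c) / polar Q v x.1) • v,
        ⟨U.sub_mem x.2.1 (U.smul_mem _ hvU), by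
        rw [pdr, psr, pself, hv]; simpa using x.2.2⟩, by
        rw [qsub, qsmul, hv, psr, pc Q x.1 v]
        have := x.2.2
        field_simp
        ring⟩, (Q x.1 - c) / polar Q v x.1)
      left_inv := by
        rintro ⟨⟨x, ⟨hxU, hx⟩, hx'⟩, t⟩
        have e1 : (Q (x + t • v) - c) / polar Q v (x + t • v) = t := by
          rw [par, psr, pself, hv, qadd, qsmul, hv, psr, pc Q x v, hx']
          have e2 : c + t * t * 0 + t * polar Q v x - c = t * polar Q v x := by ring
          have e3 : polar Q v x + t * (2 * 0) = polar Q v x := by ring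
          rw [e2, e3, mul_div_assoc, div_self hx, mul_one]
        simp only [Prod.mk.injEq, Subtype.mk.injEq]
        rw [e1]
        exact ⟨by abel, rfl⟩
      right_inv := by
        rintro ⟨x, hx⟩
        simp }
  have h1 := Nat.card_congr e
  rw [Nat.card_prod, Nat.card_eq_fintype_card (α := F)] at h1
  have h2 : Nat.card U = Nat.card {x // x ∈ U ∧ polar Q v x = 0} + Nat.card {x // x ∈ U ∧ ¬ polar Q v x = 0} := by
    have e0 : Nat.card U = Nat.card {x // x ∈ U} := rfl
    rw [e0, Nat.card_eq_fintype_card, Nat.card_eq_fintype_card, Nat.card_eq_fintype_card,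
      Fintype.card_subtype, Fintype.card_subtype, Fintype.card_subtype]
    have := Finset.card_filter_add_card_filter_not (s := univ.filter fun x : V => x ∈ U)
      (fun x => polar Q v x = 0)
    rw [Finset.filter_filter, Finset.filter_filter] at this
    exact this.symm
  have h3 : Nat.card {x // x ∈ U ∧ Q x = c} = Nat.card {x // (x ∈ U ∧ polar Q v x = 0) ∧ Q x = c} +
      Nat.card {x // (x ∈ U ∧ ¬ polar Q v x = 0) ∧ Q x = c} := by
    rw [Nat.card_eq_fintype_card, Nat.card_eq_fintype_card, Nat.card_eq_fintype_card,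
      Fintype.card_subtype, Fintype.card_subtype, Fintype.card_subtype]
    have := Finset.card_filter_add_card_filter_not (s := univ.filter fun x : V => x ∈ U ∧ Q x = c)
      (fun x => polar Q v x = 0)
    rw [Finset.filter_filter, Finset.filter_filter] at this
    rw [← this]
    congr 2 <;> (ext x; simp; tauto)
  rw [← h1] at h2
  rw [h3, mul_add, h2]
  ring

end Level

end Cfsg.Agent.Mdx.Ort
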