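import Cfsg.Agent.Mdx.OP2
import Cfsg.Agent.Mdx.O5

/-!
Counting maximal dual fixators, continued.
-/

set_option autoImplicit false

namespace Cfsg.Agent.Mdx.Ort

open QuadraticMap Cfsg.Agent.Orth Cfsg.Agent.OMax Finset

/-- Abstract double counting. -/
theorem flag_count {ι V : Type*} [DecidableEq ι] (NN : Finset ι) (M : ι → V → Prop)
    [∀ O x, Decidable (M O x)] (S1 : Finset V) (S2 : V → Finset V) {ν a b s₂ : ℕ}
    (h1 : ∀ O ∈ NN, (S1.filter fun x => M O x).card ≤ a)
    (h2 : ∀ O ∈ NN, ∀ x ∈ S1, M O x → ((S2 x).filter fun x' => M O x').card ≤ b)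
    (hs : ∀ x ∈ S1, s₂ ≤ (S2 x).card)
    (hcov : ∀ x ∈ S1, ∀ x' ∈ S2 x, ν ≤ (NN.filter fun O => M O x ∧ M O x').card) :
    ν * (s₂ * S1.card) ≤ NN.card * (a * b) := by
  have h3 : ∀ x ∈ S1, ν * s₂ ≤ (NN.filter fun O => M O x).card * b := by
    intro x hx
    calc ν * s₂ ≤ ν * (S2 x).card := Nat.mul_le_mul_left _ (hs x hx)
      _ = ∑ x' ∈ S2 x, ν := by rw [Finset.sum_const, smul_eq_mul, mul_comm]
      _ ≤ ∑ x' ∈ S2 x, (NN.filter fun O => M O x ∧ M O x').card := Finset.sum_le_sum (hcov x hx)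
      _ = ∑ x' ∈ S2 x, ∑ O ∈ NN.filter (fun O => M O x), if M O x' then 1 else 0 := by
          refine Finset.sum_congr rfl fun x' _ => ?_
          rw [← Finset.card_filter, Finset.filter_filter]
      _ = ∑ O ∈ NN.filter (fun O => M O x), ∑ x' ∈ S2 x, if M O x' then 1 else 0 := Finset.sum_comm
      _ = ∑ O ∈ NN.filter (fun O => M O x), ((S2 x).filter fun x' => M O x').card := by
          refine Finset.sum_congr rfl fun O _ => ?_
          rw [← Finset.card_filter]
      _ ≤ ∑ O ∈ NN.filter (fun O => M O x), b := Finset.sum_le_sum fun O hO =>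
          h2 O (Finset.mem_filter.1 hO).1 x hx (Finset.mem_filter.1 hO).2
      _ = _ := by rw [Finset.sum_const, smul_eq_mul]
  calc ν * (s₂ * S1.card) = ∑ x ∈ S1, ν * s₂ := by rw [Finset.sum_const, smul_eq_mul]; ring
    _ ≤ ∑ x ∈ S1, (NN.filter fun O => M O x).card * b := Finset.sum_le_sum h3
    _ = (∑ x ∈ S1, ∑ O ∈ NN, if M O x then 1 else 0) * b := by
        rw [Finset.sum_mul]
        refine Finset.sum_congr rfl fun x _ => ?_
        rw [← Finset.card_filter]
    _ = (∑ O ∈ NN, (S1.filter fun x => M O x).card) * b := by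
        rw [Finset.sum_comm]
        congr 1
        refine Finset.sum_congr rfl fun O _ => ?_
        rw [← Finset.card_filter]
    _ ≤ (∑ O ∈ NN, a) * b := Nat.mul_le_mul_right _ (Finset.sum_le_sum h1)
    _ = NN.card * (a * b) := by rw [Finset.sum_const, smul_eq_mul]; ring

variable {F V : Type*} [Field F] [AddCommGroup V] [Module F V] {Q : QuadraticForm F V}

variable {Z : Type*} [MulAction (SGrp Q) Z] {ψ : AddChar F ℂ}

section Sub

variable [Finite F] [FiniteDimensional F V]

/-- The submodule of a maximal dual fixator. -/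
theorem MaxT.exists_sub {v : V} {ω : Z} (h : MaxT ψ Q v ω) (hQ : (polarBilin Q).Nondegenerate) :
    ∃ E : Submodule F V, (∀ x, x ∈ E ↔ x ∈ TD (Q := Q) ψ v ω) ∧
      Module.finrank F E + Module.finrank F E = Module.finrank F V := by
  let E : Submodule F V :=
    { carrier := {x | x ∈ TD (Q := Q) ψ v ω}
      zero_mem' := (TD (Q := Q) ψ v ω).zero_mem
      add_mem' := fun ha hb => (TD (Q := Q) ψ v ω).add_mem ha hb
      smul_mem' := fun c x hx => h.smul x hx c }
  have hE : perp Q E = E := by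
    apply le_antisymm
    · intro w hw
      exact h.max w fun x hx => hw x hx
    · intro x hx y hy
      have h8 := h.sing _ (AddSubgroup.add_mem _ (show y ∈ TD (Q := Q) ψ v ω from hy) hx)
      rw [qadd, h.sing x hx, h.sing y hy] at h8
      simpa using h8
  refine ⟨E, fun x => Iff.rfl, ?_⟩
  have h1 := finrank_perp hQ E
  rw [hE] at h1
  exact h1

end Sub

section Count

variable [Fintype F] [FiniteDimensional F V] [Fintype V]

open Classical in
theorem card_sub_filter (E : Submodule F V) :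
    (univ.filter fun x : V => x ∈ E).card = Fintype.card F ^ Module.finrank F E := by
  rw [← Nat.card_eq_fintype_card, ← Module.natCard_eq_pow_finrank (K := F), Nat.card_eq_fintype_card,
    Fintype.card_subtype]

open Classical in
theorem card_diff_span {E : Submodule F V} {m : ℕ} (hE : Module.finrank F E = m) {X : Submodule F V}
    (hX : X ≤ E) {k : ℕ} (hk : Module.finrank F X = k) :
    (univ.filter fun x : V => x ∈ E ∧ x ∉ X).card + Fintype.card F ^ k = Fintype.card F ^ m := by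
  have h := Finset.card_filter_add_card_filter_not (s := univ.filter fun x : V => x ∈ E)
    (fun x => x ∈ X)
  rw [Finset.filter_filter, Finset.filter_filter, card_sub_filter, hE] at h
  have h1 : (univ.filter fun x : V => x ∈ E ∧ x ∈ X) = univ.filter fun x : V => x ∈ X := by
    ext x; simp; exact fun hx => hX hx
  rw [h1, card_sub_filter, hk] at h
  omega

end Count

section Trans

variable [Finite F] [FiniteDimensional F V]

theorem finrank_pair {v x : V} (hv : v ≠ 0) (hx : x ∉ Submodule.span F {v}) :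
    Module.finrank F (Submodule.span F {v, x}) = 2 := by
  have h := finrank_span_eq_card ((li_pair_iff hv).2 hx)
  rw [Fintype.card_fin] at h
  have e : Set.range ![v, x] = {v, x} := by
    ext y
    simp only [Set.mem_range, Set.mem_insert_iff, Set.mem_singleton_iff]
    constructor
    · rintro ⟨i, rfl⟩
      fin_cases i <;> simp
    · rintro (rfl | rfl)
      · exact ⟨0, rfl⟩
      · exact ⟨1, rfl⟩
  rwa [e] at h

/-- Moving a maximal dual fixator onto one containing given vectors. -/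
theorem exists_move (hQ : (polarBilin Q).Nondegenerate) (hn : 8 ≤ Module.finrank F V) (hψ : ψ ≠ 1)
    {v₀ : V} {ω₀ : Z} (hv₀ : Q v₀ = 0) (hv₀0 : v₀ ≠ 0) (h₀ : MaxT ψ Q v₀ ω₀) {v x x' : V} (hv : Q v = 0)
    (hv0 : v ≠ 0) (hx : Q x = 0) (hx' : Q x' = 0) (hvx : polar Q v x = 0) (hvx' : polar Q v x' = 0)
    (hxx' : polar Q x x' = 0) (hxs : x ∉ Submodule.span F {v}) (hxs' : x' ∉ Submodule.span F {v, x}) :
    ∃ g : SGrp Q, ap g v₀ = v ∧ (∃ x₀ ∈ TD (Q := Q) ψ v₀ ω₀, ap g x₀ = x) ∧
      (∃ x₀' ∈ TD (Q := Q) ψ v₀ ω₀, ap g x₀' = x') := by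
  obtain ⟨E, hE, hEd⟩ := h₀.exists_sub hQ
  have hts : ∀ a ∈ E, ∀ b ∈ E, polar Q a b = 0 := by
    intro a ha b hb
    have h8 := h₀.sing _ (AddSubgroup.add_mem _ ((hE a).1 ha) ((hE b).1 hb))
    rw [qadd, h₀.sing a ((hE a).1 ha), h₀.sing b ((hE b).1 hb)] at h8
    simpa using h8
  have hvE : v₀ ∈ E := by
    rw [hE]
    simpa using smul_self_mem_TD (Q := Q) (ψ := ψ) v₀ 1 ω₀
  have hex : ∀ X : Submodule F V, Module.finrank F X < Module.finrank F E → ∃ y ∈ E, y ∉ X := by
    intro X hX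
    by_contra hcon
    push Not at hcon
    have := Submodule.finrank_mono (show E ≤ X from hcon)
    omega
  obtain ⟨x₀, hx₀, hx₀s⟩ := hex (Submodule.span F {v₀}) (by
    have : Module.finrank F (Submodule.span F {v₀}) ≤ 1 := finrank_span_one_le v₀
    omega)
  obtain ⟨x₁, hx₁, hx₁s⟩ := hex (Submodule.span F {v₀, x₀}) (by
    have := finrank_span_pair_le (F := F) v₀ x₀
    omega)
  have hr : Set.range ![v₀, x₀, x₁] = {v₀, x₀, x₁} := by
    ext y
    simp only [Set.mem_range, Set.mem_insert_iff, Set.mem_singleton_iff]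
    constructor
    · rintro ⟨i, rfl⟩
      fin_cases i <;> simp
    · rintro (rfl | rfl | rfl)
      · exact ⟨0, rfl⟩
      · exact ⟨1, rfl⟩
      · exact ⟨2, rfl⟩
  obtain ⟨u₀, hu₀, hu₀s⟩ := hex (Submodule.span F {v₀, x₀, x₁}) (by
    have := finrank_span_triple_le (F := F) v₀ x₀ x₁
    omega)
  have hq : ∀ a ∈ E, Q a = 0 := fun a ha => h₀.sing a ((hE a).1 ha)
  obtain ⟨g, hg⟩ := exists_triple hQ (by omega) (li3 hv₀0 hx₀s hx₁s) (li3 hv0 hxs hxs')
    (by
      have hm : ∀ i, ![v₀, x₀, x₁] i ∈ E := by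
        intro i; fin_cases i
        · exact hvE
        · exact hx₀
        · exact hx₁
      exact fun i j => hts _ (hm i) _ (hm j))
    (by
      have hvv : polar Q v v = 0 := by rw [pself, hv, mul_zero]
      have h1 : polar Q x x = 0 := by rw [pself, hx, mul_zero]
      have h2 : polar Q x' x' = 0 := by rw [pself, hx', mul_zero]
      have h3 : polar Q x v = 0 := by rw [pc]; exact hvx
      have h4 : polar Q x' v = 0 := by rw [pc]; exact hvx'
      have h5 : polar Q x' x = 0 := by rw [pc]; exact hxx'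
      intro i j
      fin_cases i <;> fin_cases j <;> simp [hvv, h1, h2, h3, h4, h5, hvx, hvx', hxx'])
    (by
      intro i; fin_cases i
      · exact hv₀
      · exact hq _ hx₀
      · exact hq _ hx₁)
    (by
      intro i; fin_cases i
      · exact hv
      · exact hx
      · exact hx') (u₀ := u₀) (hq _ hu₀)
    (by
      intro i; fin_cases i
      · exact hts _ hu₀ _ hvE
      · exact hts _ hu₀ _ hx₀
      · exact hts _ hu₀ _ hx₁)
    (by rw [hr]; exact hu₀s)
  exact ⟨g, by simpa using hg 0, ⟨x₀, (hE _).1 hx₀, by simpa using hg 1⟩, ⟨x₁, (hE _).1 hx₁, by simpa using hg 2⟩⟩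

end Trans

section Main

variable [Fintype F] [FiniteDimensional F V] [Fintype V] [Finite Z]

open Classical in
/-- The non-trivial orbits. -/
noncomputable def NN (ψ : AddChar F ℂ) (Z : Type*) (Q : QuadraticForm F V) [MulAction (SGrp Q) Z] (v : V)
    [Fintype (Ob Z Q v)] : Finset (Ob Z Q v) :=
  univ.filter fun O => ∃ x ∈ TOb ψ v O, x ∉ Submodule.span F {v}


open Classical in
theorem mem_NN {v : V} [Fintype (Ob Z Q v)] {O : Ob Z Q v} :
    O ∈ NN ψ Z Q v ↔ ∃ x ∈ TOb ψ v O, x ∉ Submodule.span F {v} := by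
  unfold NN
  rw [Finset.mem_filter]
  simp


theorem ob_mem_NN {v : V} [Fintype (Ob Z Q v)] {ω : Z} : ob Q v ω ∈ NN ψ Z Q v ↔ ¬ Triv ψ Q v ω := by
  rw [mem_NN, TOb_ob]
  unfold Triv
  push Not
  rfl

open Classical in
/-- Lower bound for the number of points. -/
theorem card_Z_ge (hQ : (polarBilin Q).Nondegenerate) (hψ : ψ ≠ 1) {m : ℕ}
    (hm : Module.finrank F V = 2 * m) {v : V} (hv0 : v ≠ 0) [Fintype (Ob Z Q v)]
    (hTM : ∀ ω : Z, Triv ψ Q v ω ∨ MaxT ψ Q v ω) :
    (NN ψ Z Q v).card * Fintype.card F ^ m + Fintype.card F * (univ.filter fun O => O ∉ NN ψ Z Q v).card ≤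
      Fintype.card F * Nat.card Z := by
  rw [← sum_card_TOb (Z := Z) (ψ := ψ) hQ hψ hv0,
    ← Finset.sum_filter_add_sum_filter_not univ (fun O => O ∈ NN ψ Z Q v)]
  apply Nat.add_le_add
  · have e : univ.filter (fun O => O ∈ NN ψ Z Q v) = NN ψ Z Q v := by ext O; simp
    rw [e, ← smul_eq_mul, ← Finset.sum_const]
    refine Finset.sum_le_sum fun O hO => ?_
    obtain ⟨ω, rfl⟩ := ob_surj v O
    obtain ⟨E, hE, hEd⟩ := ((hTM ω).resolve_left (ob_mem_NN.1 hO)).exists_sub hQ
    have e2 : Module.finrank F E = m := by omega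
    rw [← e2, ← card_sub_filter]
    apply le_of_eq
    congr 1
    ext x
    simp only [Finset.mem_filter, Finset.mem_univ, true_and, TOb_ob]
    exact hE x
  · rw [mul_comm, ← smul_eq_mul, ← Finset.sum_const]
    refine Finset.sum_le_sum fun O _ => ?_
    obtain ⟨ω, rfl⟩ := ob_surj v O
    have h1 : (univ : Finset F).image (fun t => t • v) ⊆ univ.filter fun x : V => x ∈ TOb ψ v (ob Q v ω) := by
      intro x hx
      rw [Finset.mem_image] at hx
      obtain ⟨t, -, rfl⟩ := hx
      rw [Finset.mem_filter, TOb_ob]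
      exact ⟨Finset.mem_univ _, smul_self_mem_TD v t ω⟩
    have h2 := Finset.card_le_card h1
    rwa [Finset.card_image_of_injective _ (fun a b h => smul_left_injective F hv0 h), Finset.card_univ] at h2

open Classical in
/-- Lower bound for the number of non-trivial orbits. -/
theorem card_NN_ge (hQ : (polarBilin Q).Nondegenerate) (hψ : ψ ≠ 1) {m : ℕ}
    (hm : Module.finrank F V = 2 * m) {v : V} (hv : Q v = 0) (hv0 : v ≠ 0) [Fintype (Ob Z Q v)]
    (hTM : ∀ ω : Z, Triv ψ Q v ω ∨ MaxT ψ Q v ω) {ν : ℕ}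
    (hcov : ∀ x x' : V, Q x = 0 → Q x' = 0 → polar Q v x = 0 → polar Q v x' = 0 → polar Q x x' = 0 →
      x ∉ Submodule.span F {v} → x' ∉ Submodule.span F {v, x} →
      ν ≤ ((NN ψ Z Q v).filter fun O => x ∈ TOb ψ v O ∧ x' ∈ TOb ψ v O).card) {s₂ : ℕ}
    (hs₂ : ∀ x, Q x = 0 → polar Q v x = 0 → x ∉ Submodule.span F {v} →
      s₂ ≤ (univ.filter fun x' : V => polar Q v x' = 0 ∧ polar Q x x' = 0 ∧ Q x' = 0 ∧
        x' ∉ Submodule.span F {v, x}).card) :
    ν * (s₂ * (univ.filter fun x : V => polar Q v x = 0 ∧ Q x = 0 ∧ x ∉ Submodule.span F {v}).card) ≤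
      (NN ψ Z Q v).card * ((Fintype.card F ^ m - Fintype.card F) *
        (Fintype.card F ^ m - Fintype.card F ^ 2)) := by
  refine flag_count (NN ψ Z Q v) (fun O x => x ∈ TOb ψ v O)
    (univ.filter fun x : V => polar Q v x = 0 ∧ Q x = 0 ∧ x ∉ Submodule.span F {v})
    (fun x => univ.filter fun x' : V => polar Q v x' = 0 ∧ polar Q x x' = 0 ∧ Q x' = 0 ∧
        x' ∉ Submodule.span F {v, x}) ?_ ?_ ?_ ?_
  · intro O hO
    obtain ⟨ω, rfl⟩ := ob_surj v O
    obtain ⟨E, hE, hEd⟩ := ((hTM ω).resolve_left (ob_mem_NN.1 hO)).exists_sub hQ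
    have hvE : v ∈ E := by
      rw [hE]
      simpa using smul_self_mem_TD (Q := Q) (ψ := ψ) v 1 ω
    have h1 := card_diff_span (E := E) (m := m) (by omega) (X := Submodule.span F {v})
      (by rw [Submodule.span_singleton_le_iff_mem]; exact hvE) (finrank_span_singleton hv0)
    rw [pow_one] at h1
    rw [Finset.filter_filter]
    refine le_trans (Finset.card_le_card ?_) (le_of_eq (Nat.eq_sub_of_add_eq h1))
    intro x hx
    rw [Finset.mem_filter] at hx ⊢
    rw [TOb_ob] at hx
    exact ⟨hx.1, (hE x).2 hx.2.2, hx.2.1.2.2⟩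
  · intro O hO x hx hxO
    obtain ⟨ω, rfl⟩ := ob_surj v O
    obtain ⟨E, hE, hEd⟩ := ((hTM ω).resolve_left (ob_mem_NN.1 hO)).exists_sub hQ
    have hvE : v ∈ E := by
      rw [hE]
      simpa using smul_self_mem_TD (Q := Q) (ψ := ψ) v 1 ω
    rw [TOb_ob] at hxO
    rw [Finset.mem_filter] at hx
    have h1 := card_diff_span (E := E) (m := m) (by omega) (X := Submodule.span F {v, x})
      (by
        rw [Submodule.span_le]
        rintro u (rfl | rfl)
        · exact hvE
        · exact (hE _).2 hxO) (finrank_pair hv0 hx.2.2.2)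
    rw [Finset.filter_filter]
    refine le_trans (Finset.card_le_card ?_) (le_of_eq (Nat.eq_sub_of_add_eq h1))
    intro x' hx'
    rw [Finset.mem_filter] at hx' ⊢
    rw [TOb_ob] at hx'
    exact ⟨hx'.1, (hE x').2 hx'.2.2, hx'.2.1.2.2.2⟩
  · intro x hx
    rw [Finset.mem_filter] at hx
    exact hs₂ x hx.2.2.1 hx.2.1 hx.2.2.2
  · intro x hx x' hx'
    rw [Finset.mem_filter] at hx hx'
    exact hcov x x' hx.2.2.1 hx'.2.2.2.1 hx.2.1 hx'.2.1 hx'.2.2.1 hx.2.2.2 hx'.2.2.2.2

end Main

end Cfsg.Agent.Mdx.Ort
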