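import Cfsg.Agent.Mdx.OP3
import Cfsg.Agent.Mdx.O13

/-!
Counting orbits with maximal dual fixators.
-/

set_option autoImplicit false

namespace Cfsg.Agent.Mdx.Ort

open QuadraticMap Cfsg.Agent.Orth Cfsg.Agent.OMax Finset

variable {F V : Type*} [Field F] [AddCommGroup V] [Module F V] {Q : QuadraticForm F V}

variable {Z : Type*} [MulAction (SGrp Q) Z] {ψ : AddChar F ℂ}

theorem ob_of_ob_smul {v v' : V} {g : SGrp Q} (hg : ap g v = v') {ω ω' : Z}
    (h : ob Q v' (g • ω) = ob Q v' (g • ω')) : ob Q v ω = ob Q v ω' := by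
  obtain ⟨b, hb, h1⟩ := (ob_eq_iff _ _ _).1 h
  refine (ob_eq_iff _ _ _).2 ⟨ap g⁻¹ b, ?_, ?_⟩
  · rw [← hg] at hb
    have h2 := ap_polar g v (ap g⁻¹ b)
    rw [ap_ap_inv] at h2
    rw [← h2, hb]
  · have h3 := ee_conj g v (ap g⁻¹ b)
    rw [ap_ap_inv, hg] at h3
    rw [← h3, mul_smul, mul_smul, inv_smul_smul] at h1
    exact smul_left_cancel g h1

/-- A vector of a maximal totally singular subspace orthogonal to two given vectors. -/
theorem exists_mem_perp_two [Finite F] [FiniteDimensional F V] (hQ : (polarBilin Q).Nondegenerate)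
    {E : Submodule F V} (hE : Module.finrank F E + Module.finrank F E = Module.finrank F V)
    (h3 : 6 ≤ Module.finrank F V) (a b : V) : ∃ w ∈ E, w ≠ 0 ∧ polar Q a w = 0 ∧ polar Q b w = 0 := by
  have h1 := Submodule.finrank_sup_add_finrank_inf_eq E (perp Q (Submodule.span F {a, b}))
  have h2 := Submodule.finrank_le (E ⊔ perp Q (Submodule.span F {a, b}))
  have h4 := finrank_perp hQ (Submodule.span F {a, b})
  have h5 := finrank_span_pair_le (F := F) a b
  have h6 : E ⊓ perp Q (Submodule.span F {a, b}) ≠ ⊥ := by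
    intro h
    rw [h, finrank_bot] at h1
    omega
  obtain ⟨w, hw, hw0⟩ := Submodule.exists_mem_ne_zero_of_ne_bot h6
  obtain ⟨hw1, hw2⟩ := Submodule.mem_inf.1 hw
  exact ⟨w, hw1, hw0, (mem_perp_pair.1 hw2).1, (mem_perp_pair.1 hw2).2⟩

section Cov

variable [Fintype F] [FiniteDimensional F V] [Fintype V] [Finite Z]


open Classical in
theorem cov_aux (hQ : (polarBilin Q).Nondegenerate) (hn : 8 ≤ Module.finrank F V) (hψ : ψ ≠ 1)
    {v₀ : V} {ω₀ : Z} (hv₀ : Q v₀ = 0) (hv₀0 : v₀ ≠ 0) (h₀ : MaxT ψ Q v₀ ω₀) {v x x' : V} (hv : Q v = 0)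
    (hv0 : v ≠ 0) [Fintype (Ob Z Q v)] (hx : Q x = 0) (hx' : Q x' = 0) (hvx : polar Q v x = 0) (hvx' : polar Q v x' = 0)
    (hxx' : polar Q x x' = 0) (hxs : x ∉ Submodule.span F {v}) (hxs' : x' ∉ Submodule.span F {v, x}) :
    ∃ g : SGrp Q, ap g v₀ = v ∧ ∀ ω : Z, (∀ y, y ∈ TD (Q := Q) ψ v₀ ω₀ → y ∈ TD (Q := Q) ψ v₀ ω) →
      ob Q v (g • ω) ∈ (NN ψ Z Q v).filter fun O => x ∈ TOb ψ v O ∧ x' ∈ TOb ψ v O := by
  obtain ⟨g, hg, ⟨x₀, hx₀, hgx⟩, ⟨x₀', hx₀', hgx'⟩⟩ := exists_move hQ hn hψ hv₀ hv₀0 h₀ hv hv0 hx hx' hvx hvx'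
    hxx' hxs hxs'
  refine ⟨g, hg, fun ω hω => ?_⟩
  have h1 : x ∈ TD (Q := Q) ψ v (g • ω) := by
    rw [← hg, ← hgx, TD_conj]; exact hω _ hx₀
  have h2 : x' ∈ TD (Q := Q) ψ v (g • ω) := by
    rw [← hg, ← hgx', TD_conj]; exact hω _ hx₀'
  rw [Finset.mem_filter, mem_NN, TOb_ob]
  exact ⟨⟨x, h1, hxs⟩, h1, h2⟩


open Classical in
theorem cov_one (hQ : (polarBilin Q).Nondegenerate) (hn : 8 ≤ Module.finrank F V) (hψ : ψ ≠ 1)
    {v₀ : V} {ω₀ : Z} (hv₀ : Q v₀ = 0) (hv₀0 : v₀ ≠ 0) (h₀ : MaxT ψ Q v₀ ω₀) {v x x' : V} (hv : Q v = 0)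
    (hv0 : v ≠ 0) [Fintype (Ob Z Q v)] (hx : Q x = 0) (hx' : Q x' = 0) (hvx : polar Q v x = 0) (hvx' : polar Q v x' = 0)
    (hxx' : polar Q x x' = 0) (hxs : x ∉ Submodule.span F {v}) (hxs' : x' ∉ Submodule.span F {v, x}) :
    1 ≤ ((NN ψ Z Q v).filter fun O => x ∈ TOb ψ v O ∧ x' ∈ TOb ψ v O).card := by
  obtain ⟨g, hg, h⟩ := cov_aux hQ hn hψ hv₀ hv₀0 h₀ hv hv0 hx hx' hvx hvx' hxx' hxs hxs'
  exact Finset.card_pos.2 ⟨_, h ω₀ fun y hy => hy⟩


open Classical in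
theorem cov_two (hQ : (polarBilin Q).Nondegenerate) (hn : 8 ≤ Module.finrank F V) (hψ : ψ ≠ 1)
    {v₀ : V} {ω₀ ω₁ : Z} (hv₀ : Q v₀ = 0) (hv₀0 : v₀ ≠ 0) (h₀ : MaxT ψ Q v₀ ω₀)
    (h₁ : ∀ y, y ∈ TD (Q := Q) ψ v₀ ω₀ → y ∈ TD (Q := Q) ψ v₀ ω₁) (hne : ob Q v₀ ω₀ ≠ ob Q v₀ ω₁)
    {v x x' : V} (hv : Q v = 0)
    (hv0 : v ≠ 0) [Fintype (Ob Z Q v)] (hx : Q x = 0) (hx' : Q x' = 0) (hvx : polar Q v x = 0) (hvx' : polar Q v x' = 0)
    (hxx' : polar Q x x' = 0) (hxs : x ∉ Submodule.span F {v}) (hxs' : x' ∉ Submodule.span F {v, x}) :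
    2 ≤ ((NN ψ Z Q v).filter fun O => x ∈ TOb ψ v O ∧ x' ∈ TOb ψ v O).card := by
  obtain ⟨g, hg, h⟩ := cov_aux hQ hn hψ hv₀ hv₀0 h₀ hv hv0 hx hx' hvx hvx' hxx' hxs hxs'
  have h2 := h ω₀ fun y hy => hy
  have h3 := h ω₁ h₁
  have h4 : ob Q v (g • ω₀) ≠ ob Q v (g • ω₁) := fun h5 => hne (ob_of_ob_smul hg h5)
  rw [← Finset.card_pair h4]
  apply Finset.card_le_card
  intro O hO
  rw [Finset.mem_insert, Finset.mem_singleton] at hO
  rcases hO with rfl | rfl
  · exact h2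
  · exact h3


open Classical in
/-- The first layer. -/
theorem card_layer_one {v : V} (hv : Q v = 0) (hv0 : v ≠ 0) {s : ℕ}
    (hs : Nat.card {x // polar Q v x = 0 ∧ Q x = 0} = s) :
    (univ.filter fun x : V => polar Q v x = 0 ∧ Q x = 0 ∧ x ∉ Submodule.span F {v}).card +
      Fintype.card F = s := by
  have h := Finset.card_filter_add_card_filter_not (s := univ.filter fun x : V => polar Q v x = 0 ∧ Q x = 0)
    (fun x => x ∈ Submodule.span F {v})
  rw [Finset.filter_filter, Finset.filter_filter] at h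
  rw [← hs, Nat.card_eq_fintype_card, Fintype.card_subtype]
  have h1 : (univ.filter fun x : V => (polar Q v x = 0 ∧ Q x = 0) ∧ x ∈ Submodule.span F {v}) =
      univ.filter fun x : V => x ∈ Submodule.span F {v} := by
    ext x
    simp only [Finset.mem_filter, Finset.mem_univ, true_and]
    refine ⟨fun h => h.2, fun h => ⟨?_, h⟩⟩
    obtain ⟨c, rfl⟩ := Submodule.mem_span_singleton.1 h
    rw [psr, qsmul, pself, hv]
    simp
  rw [h1, card_sub_filter, finrank_span_singleton hv0, pow_one] at h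
  rw [← h, add_comm]
  congr 2
  ext x
  simp only [Finset.mem_filter, Finset.mem_univ, true_and, and_assoc]


open Classical in
/-- The second layer. -/
theorem card_layer_two (hQ : (polarBilin Q).Nondegenerate) {v x : V} (hv : Q v = 0) (hv0 : v ≠ 0)
    (hx : Q x = 0) (hvx : polar Q v x = 0)
    (hxs : x ∉ Submodule.span F {v}) {s P P₂ s₂ : ℕ}
    (hs : Nat.card {x // polar Q v x = 0 ∧ Q x = 0} = s)
    (hP : Nat.card {x // polar Q v x = 0} = P) (hP₂ : Fintype.card F * (Fintype.card F * P₂) = Nat.card V)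
    (hs₂ : Fintype.card F * s₂ + P = Fintype.card F * s + P₂) :
    (univ.filter fun x' : V => polar Q v x' = 0 ∧ polar Q x x' = 0 ∧ Q x' = 0 ∧
        x' ∉ Submodule.span F {v, x}).card + Fintype.card F ^ 2 = s₂ := by
  obtain ⟨U, hU⟩ : ∃ U, U = perp Q (Submodule.span F {v}) := ⟨_, rfl⟩
  have hmU : ∀ y, y ∈ U ↔ polar Q v y = 0 := by
    intro y
    rw [hU]
    exact mem_PV (Q := Q) (v := v) (x := y)
  have h1 := card_level_sub (Q := Q) (U := U) ((hmU x).2 hvx) hx 0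
  have e1 : Nat.card U = P := by
    rw [← hP]
    exact Nat.card_congr (Equiv.subtypeEquivRight fun y => hmU y)
  have e2 : Nat.card {y // y ∈ U ∧ Q y = 0} = s := by
    rw [← hs]
    exact Nat.card_congr (Equiv.subtypeEquivRight fun y => by rw [hmU])
  have e3 : Nat.card {y // y ∈ U ∧ polar Q x y = 0} = P₂ := by
    have h2 : Nat.card {y // y ∈ U ∧ polar Q x y = 0} = Nat.card (perp Q (Submodule.span F {v, x})) :=
      Nat.card_congr (Equiv.subtypeEquivRight fun y => by rw [hmU, mem_perp_pair])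
    rw [h2]
    have h3 := Module.natCard_eq_pow_finrank (K := F) (V := perp Q (Submodule.span F {v, x}))
    have h4 := Module.natCard_eq_pow_finrank (K := F) (V := V)
    have h5 := finrank_perp hQ (Submodule.span F {v, x})
    rw [finrank_pair hv0 hxs] at h5
    rw [Nat.card_eq_fintype_card (α := F)] at h3 h4
    rw [← hP₂, ← h5, pow_succ, pow_succ, ← h3] at h4
    have hq : 0 < Fintype.card F := Fintype.card_pos
    have h6 : Fintype.card F * (Fintype.card F * P₂) =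
        Fintype.card F * (Fintype.card F * Nat.card (perp Q (Submodule.span F {v, x}))) := by
      rw [h4]; ring
    exact (Nat.eq_of_mul_eq_mul_left hq (Nat.eq_of_mul_eq_mul_left hq h6)).symm
  rw [e1, e2, e3, ← hs₂] at h1
  have h7 := Nat.eq_of_mul_eq_mul_left Fintype.card_pos (Nat.add_right_cancel h1)
  have h := Finset.card_filter_add_card_filter_not (s := univ.filter fun y : V => (y ∈ U ∧ polar Q x y = 0) ∧ Q y = 0)
    (fun y => y ∈ Submodule.span F {v, x})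
  rw [Finset.filter_filter, Finset.filter_filter] at h
  rw [← h7, Nat.card_eq_fintype_card, Fintype.card_subtype, ← h]
  have h8 : (univ.filter fun y : V => ((y ∈ U ∧ polar Q x y = 0) ∧ Q y = 0) ∧ y ∈ Submodule.span F {v, x}) =
      univ.filter fun y : V => y ∈ Submodule.span F {v, x} := by
    ext y
    simp only [Finset.mem_filter, Finset.mem_univ, true_and]
    refine ⟨fun h => h.2, fun h => ⟨?_, h⟩⟩
    rw [hmU]
    obtain ⟨a, b, rfl⟩ := Submodule.mem_span_pair.1 h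
    rw [par, psr, psr, pself, hv, hvx, par, psr, psr, pself, hx, pc Q x v, hvx, qadd, qsmul, qsmul, hv, hx,
      psl, psr, hvx]
    simp
  rw [h8, card_sub_filter, finrank_pair hv0 hxs, add_comm]
  congr 2
  ext y
  simp only [Finset.mem_filter, Finset.mem_univ, true_and, hmU, and_assoc]

end Cov

end Cfsg.Agent.Mdx.Ort
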