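import Cfsg.Agent.Mdx.OP4

/-!
The numbers in the plus type case.
-/

set_option autoImplicit false

namespace Cfsg.Agent.Mdx.Ort

open QuadraticMap Cfsg.Agent.Orth Cfsg.Agent.OMax Finset

variable {F V : Type*} [Field F] [AddCommGroup V] [Module F V] {Q : QuadraticForm F V}

/-- Numerical data of plus type. -/
structure PData (Q : QuadraticForm F V) [Fintype F] (r z m : ℕ) : Prop where
  hr : Fintype.card F = r + 1
  hr1 : 1 ≤ r
  hm : Module.finrank F V = 2 * m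
  hm4 : 4 ≤ m
  hz : (r + 1) ^ (m - 3) = z
  hs : ∀ v : V, Q v = 0 → v ≠ 0 → Nat.card {x // polar Q v x = 0 ∧ Q x = 0} =
    (r + 1) ^ 4 * z ^ 2 + r * ((r + 1) ^ 2 * z)

variable {Z : Type*} [MulAction (SGrp Q) Z] {ψ : AddChar F ℂ}

section PT

variable [Fintype F] [FiniteDimensional F V] [Fintype V] [Finite Z] {r z m : ℕ}

variable (hQ : (polarBilin Q).Nondegenerate) (hψ : ψ ≠ 1) (hd : PData Q r z m)

omit [FiniteDimensional F V] [Fintype V] in
theorem PData.pow_m (hd : PData Q r z m) : Fintype.card F ^ m = (r + 1) ^ 3 * z := by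
  rw [hd.hr, ← hd.hz, ← pow_add]
  congr 1
  have := hd.hm4
  omega

omit [FiniteDimensional F V] [Fintype V] in
theorem PData.z_pos (hd : PData Q r z m) : 0 < z := by
  rw [← hd.hz]
  exact pow_pos (Nat.succ_pos r) _

omit [Fintype V] in
theorem PData.card_V (hd : PData Q r z m) : Nat.card V = (r + 1) * ((r + 1) ^ 5 * z ^ 2) := by
  have h4 := Module.natCard_eq_pow_finrank (K := F) (V := V)
  rw [hd.hm, Nat.card_eq_fintype_card (α := F), two_mul, pow_add, hd.pow_m] at h4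
  rw [h4]; ring

include hQ in
theorem PData.card_P (hd : PData Q r z m) {v : V} (hv0 : v ≠ 0) :
    Nat.card {x // polar Q v x = 0} = (r + 1) ^ 5 * z ^ 2 := by
  have h := card_PV hQ hv0
  have h' : Nat.card {x // polar Q v x = 0} = Nat.card (PV Q v) :=
    Nat.card_congr (Equiv.subtypeEquivRight fun x => mem_PV.symm)
  rw [h']
  rw [hd.card_V, hd.hr] at h
  exact Nat.eq_of_mul_eq_mul_left (Nat.succ_pos r) h

include hQ hψ in
/-- Lower bound for the number of non-trivial orbits. -/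
theorem PData.card_NN (hd : PData Q r z m) {v : V} (hv : Q v = 0) (hv0 : v ≠ 0) [Fintype (Ob Z Q v)]
    [DecidableEq (Ob Z Q v)]
    (hTM : ∀ ω : Z, Triv ψ Q v ω ∨ MaxT ψ Q v ω) {ν : ℕ}
    (hcov : ∀ x x' : V, Q x = 0 → Q x' = 0 → polar Q v x = 0 → polar Q v x' = 0 → polar Q x x' = 0 →
      x ∉ Submodule.span F {v} → x' ∉ Submodule.span F {v, x} →
      ∃ S : Finset (Ob Z Q v), ν ≤ S.card ∧ ∀ O ∈ S, O ∈ NN ψ Z Q v ∧ x ∈ TOb ψ v O ∧ x' ∈ TOb ψ v O) :
    ν * ((z + 1) * ((r + 1) * z + 1)) ≤ (NN ψ Z Q v).card := by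
  classical
  have hz := hd.z_pos
  obtain ⟨A, hA⟩ : ∃ A, (r + 1) * z = A + 1 := ⟨(r + 1) * z - 1, by
    have : 0 < (r + 1) * z := Nat.mul_pos (Nat.succ_pos r) hz
    omega⟩
  obtain ⟨B, hB⟩ : ∃ B, (r + 1) ^ 2 * z = B + 1 := ⟨(r + 1) ^ 2 * z - 1, by
    have : 0 < (r + 1) ^ 2 * z := Nat.mul_pos (by positivity) hz
    omega⟩
  have hr1 := hd.hr1
  have hA0 : 0 < A := by
    have : 2 * 1 ≤ (r + 1) * z := Nat.mul_le_mul (by omega) hz
    omega
  have hB0 : 0 < B := by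
    have h4 : 2 * 1 ≤ (r + 1) * z := Nat.mul_le_mul (by omega) hz
    have h5 : (r + 1) * z ≤ (r + 1) ^ 2 * z := Nat.mul_le_mul_right _ (Nat.le_self_pow (by norm_num) _)
    omega
  obtain ⟨q, hq⟩ : ∃ q, q = r + 1 := ⟨_, rfl⟩
  have hcF : Fintype.card F = q := by rw [hd.hr, hq]
  have l1 := card_layer_one hv hv0 (hd.hs v hv hv0)
  have e1 : (univ.filter fun x : V => polar Q v x = 0 ∧ Q x = 0 ∧ x ∉ Submodule.span F {v}).card =
      q * B * (q * z + 1) := by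
    have : q * B * (q * z + 1) + q = (r + 1) ^ 4 * z ^ 2 + r * ((r + 1) ^ 2 * z) := by
      have h5 : q * (B + 1) * (q * z + 1) + q = (r + 1) ^ 4 * z ^ 2 + r * ((r + 1) ^ 2 * z) + q * (q * z + 1) := by
        rw [← hB, hq]; ring
      have h6 : q * (B + 1) * (q * z + 1) = q * B * (q * z + 1) + q * (q * z + 1) := by ring
      omega
    rw [hcF] at l1
    omega
  have l2 : ∀ x, Q x = 0 → polar Q v x = 0 → x ∉ Submodule.span F {v} →
      q ^ 2 * A * (z + 1) ≤ (univ.filter fun x' : V => polar Q v x' = 0 ∧ polar Q x x' = 0 ∧ Q x' = 0 ∧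
        x' ∉ Submodule.span F {v, x}).card := by
    intro x hx hvx hxs
    have h := card_layer_two hQ hv hv0 hx hvx hxs (P₂ := (r + 1) ^ 4 * z ^ 2)
      (s₂ := (r + 1) ^ 3 * z ^ 2 + r * ((r + 1) ^ 2 * z)) (hd.hs v hv hv0)
      (hd.card_P hQ hv0) (by rw [hd.card_V, hd.hr]; ring) (by rw [hd.hr]; ring)
    have : q ^ 2 * A * (z + 1) + q ^ 2 = (r + 1) ^ 3 * z ^ 2 + r * ((r + 1) ^ 2 * z) := by
      have h5 : q ^ 2 * (A + 1) * (z + 1) + q ^ 2 = (r + 1) ^ 3 * z ^ 2 + r * ((r + 1) ^ 2 * z) +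
          q ^ 2 * (z + 1) := by
        rw [← hA, hq]; ring
      have h6 : q ^ 2 * (A + 1) * (z + 1) = q ^ 2 * A * (z + 1) + q ^ 2 * (z + 1) := by ring
      omega
    rw [hcF] at h
    omega
  have hmain := card_NN_ge (Z := Z) hQ hψ hd.hm hv hv0 hTM (ν := ν) (by
    intro x x' h1 h2 h3 h4 h5 h6 h7
    obtain ⟨S, hS, hS'⟩ := hcov x x' h1 h2 h3 h4 h5 h6 h7
    refine hS.trans (Finset.card_le_card fun O hO => ?_)
    rw [Finset.mem_filter]
    exact hS' O hO) l2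
  rw [e1, hd.pow_m, hcF] at hmain
  have e3 : (r + 1) ^ 3 * z - q = q * B := by
    have h5 : (r + 1) ^ 3 * z = q * (B + 1) := by rw [← hB, hq]; ring
    have h6 : q * (B + 1) = q * B + q := by ring
    omega
  have e4 : (r + 1) ^ 3 * z - q ^ 2 = q ^ 2 * A := by
    have h5 : (r + 1) ^ 3 * z = q ^ 2 * (A + 1) := by rw [← hA, hq]; ring
    have h6 : q ^ 2 * (A + 1) = q ^ 2 * A + q ^ 2 := by ring
    omega
  rw [e3, e4] at hmain
  have hq0 : 0 < q := by omega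
  have hpos : 0 < q ^ 3 * A * B := by positivity
  apply Nat.le_of_mul_le_mul_left _ hpos
  calc q ^ 3 * A * B * (ν * ((z + 1) * ((r + 1) * z + 1)))
      = ν * (q ^ 2 * A * (z + 1) * (q * B * (q * z + 1))) := by rw [← hq]; ring
    _ ≤ _ := hmain
    _ = _ := by ring

include hQ hψ in
theorem PData.card_Z (hd : PData Q r z m) {v : V} (hv0 : v ≠ 0) [Fintype (Ob Z Q v)]
    [DecidableEq (Ob Z Q v)] (hTM : ∀ ω : Z, Triv ψ Q v ω ∨ MaxT ψ Q v ω) {S : Finset (Ob Z Q v)}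
    (hS : ∀ O ∈ S, O ∉ NN ψ Z Q v) :
    (NN ψ Z Q v).card * ((r + 1) ^ 2 * z) + S.card ≤ Nat.card Z := by
  classical
  have h := card_Z_ge (Z := Z) hQ hψ hd.hm hv0 hTM
  rw [hd.pow_m, hd.hr] at h
  have h1 : S.card ≤ (univ.filter fun O => O ∉ NN ψ Z Q v).card := by
    apply Finset.card_le_card
    intro O hO
    rw [Finset.mem_filter]
    exact ⟨Finset.mem_univ _, hS O hO⟩
  apply Nat.le_of_mul_le_mul_left _ (Nat.succ_pos r)
  calc (r + 1) * ((NN ψ Z Q v).card * ((r + 1) ^ 2 * z) + S.card)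
      = (NN ψ Z Q v).card * ((r + 1) ^ 3 * z) + (r + 1) * S.card := by ring
    _ ≤ (NN ψ Z Q v).card * ((r + 1) ^ 3 * z) + (r + 1) * (univ.filter fun O => O ∉ NN ψ Z Q v).card := by
        apply Nat.add_le_add_left; exact Nat.mul_le_mul_left _ h1
    _ ≤ _ := by
        refine le_trans (le_of_eq ?_) h
        congr 3
        ext O
        simp only [Finset.mem_filter]

end PT

end Cfsg.Agent.Mdx.Ort
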