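import Cfsg.Agent.Mdx.OP5

/-!
A torus acting on the orbits with maximal dual fixators.
-/

set_option autoImplicit false

namespace Cfsg.Agent.Mdx.Ort

open QuadraticMap Cfsg.Agent.Orth Cfsg.Agent.OMax Finset

variable {F V : Type*} [Field F] [AddCommGroup V] [Module F V] {Q : QuadraticForm F V}

variable {Z : Type*} [MulAction (SGrp Q) Z] {ψ : AddChar F ℂ}

section Torus

/-- Torus elements. -/
def IsTor (h : SGrp Q) (v w : V) (c : F) : Prop :=
  ∀ x, ap h x = x + ((c - 1) * polar Q x w) • v + ((c⁻¹ - 1) * polar Q x v) • w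

variable [Finite F] [FiniteDimensional F V]

theorem exists_torus (hQ : (polarBilin Q).Nondegenerate) (hn : 7 ≤ Module.finrank F V) {v w : V}
    (hv : Q v = 0) (hw : Q w = 0) (hvw : polar Q v w = 1) (hd : ∃ d : F, d ≠ 0 ∧ d * d ≠ 1) :
    ∃ (h : SGrp Q) (c : F), c ≠ 0 ∧ c ≠ 1 ∧ IsTor h v w c := by
  obtain ⟨d, hd0, hd1⟩ := hd
  exact ⟨⟨hrot Q v w (d * d) (mul_ne_zero hd0 hd0) hv hw hvw, hrot_sq_mem hQ hn hd0 hv hw hvw⟩, d * d,
    mul_ne_zero hd0 hd0, hd1, fun x => hrot_apply Q v w (d * d) (mul_ne_zero hd0 hd0) hv hw hvw x⟩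

omit [Finite F] [FiniteDimensional F V] in
theorem IsTor.v {h : SGrp Q} {v w : V} {c : F} (ht : IsTor h v w c) (hv : Q v = 0)
    (hvw : polar Q v w = 1) : ap h v = c • v := by
  rw [ht, pself, hv, hvw]
  module

omit [Finite F] [FiniteDimensional F V] in
theorem IsTor.fix {h : SGrp Q} {v w : V} {c : F} (ht : IsTor h v w c) {x : V} (hx : polar Q v x = 0)
    (hx' : polar Q w x = 0) : ap h x = x := by
  rw [ht, pc Q x w, hx', pc Q x v, hx]
  module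

/-- A torus element preserves maximal dual fixators. -/
theorem IsTor.TD_eq {h : SGrp Q} {v w : V} {c : F} (ht : IsTor h v w c) (hc : c ≠ 0) (hψ : ψ ≠ 1) (hv : Q v = 0)
    (hvw : polar Q v w = 1) {ω : Z} (hM : MaxT ψ Q v ω) {x : V} (hx : x ∈ TD (Q := Q) ψ v ω) :
    x ∈ TD (Q := Q) ψ v (h • ω) := by
  have hvx := TD_le hψ hv ω hx
  have h1 : c • x + ((1 - c) * polar Q x w) • v ∈ TD (Q := Q) ψ v ω :=
    AddSubgroup.add_mem _ (hM.smul x hx c) (smul_self_mem_TD v _ ω)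
  have h2 := (TD_conj ψ h v _ ω).2 h1
  rw [ht.v hv hvw, TD_smul ψ hc] at h2
  have h3 : ap h (c • x + ((1 - c) * polar Q x w) • v) = c • x := by
    rw [ap_add, ap_smul, ap_smul, ht.v hv hvw, ht x, pc Q x v, hvx]
    module
  rw [h3, smul_smul, inv_mul_cancel₀ hc, one_smul] at h2
  exact h2

omit [Finite F] [FiniteDimensional F V] in
/-- A torus element stabilizing an orbit has a fixed point. -/
theorem IsTor.exists_fixed {h : SGrp Q} {v w : V} {c : F} (ht : IsTor h v w c) (hc : c ≠ 0) (hc1 : c ≠ 1)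
    (hv : Q v = 0) (hvw : polar Q v w = 1) {ω : Z} (hω : ob Q v (h • ω) = ob Q v ω) :
    ∃ ω' : Z, ob Q v ω' = ob Q v ω ∧ h • ω' = ω' := by
  have hvv : polar Q v v = 0 := by rw [pself, hv, mul_zero]
  have hc1' : c - 1 ≠ 0 := sub_ne_zero.2 hc1
  have hdec : ∀ x, polar Q v x = 0 → ∃ (y : V) (t : F), x = y + t • v ∧ polar Q v y = 0 ∧ polar Q w y = 0 := by
    intro x hx
    refine ⟨x - polar Q w x • v, polar Q w x, by abel, ?_, ?_⟩
    · rw [pdr, psr, hx, hvv]; ring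
    · rw [pdr, psr, pc Q w v, hvw]; ring
  have heev : ∀ (y : V) (t : F), polar Q v y = 0 → ee Q v (y + t • v) = ee Q v y := by
    intro y t hy
    rw [ee_add hy (by rw [psr, hvv, mul_zero]), ee_smul_self, mul_one]
  have hhee : ∀ (y : V) (ω : Z), polar Q v y = 0 → polar Q w y = 0 → h • ee Q v y • ω = ee Q v (c • y) • h • ω := by
    intro y ω h1 h2
    rw [smul_smul, smul_smul]
    congr 1
    rw [← mul_inv_eq_iff_eq_mul, ee_conj, ht.v hv hvw, ht.fix h1 h2, ee_smul_left hc]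
  obtain ⟨d₁, hd₁, hd₁'⟩ := (ob_eq_iff v _ _).1 hω
  obtain ⟨y, t, hyt, hvy, hwy⟩ := hdec d₁ hd₁
  have h1 : polar Q v (-((c - 1)⁻¹ • y)) = 0 := by rw [polar_neg_right, psr, hvy, mul_zero, neg_zero]
  have h2 : polar Q w (-((c - 1)⁻¹ • y)) = 0 := by rw [polar_neg_right, psr, hwy, mul_zero, neg_zero]
  refine ⟨ee Q v (-((c - 1)⁻¹ • y)) • ω, (ob_eq_iff v _ _).2 ⟨_, h1, rfl⟩, ?_⟩
  rw [hhee _ _ h1 h2, ← hd₁', hyt, heev y t hvy, ← mul_smul, ← ee_add (by rw [psr, h1, mul_zero]) hvy]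
  congr 2
  have e : (-((c - 1)⁻¹ • y) : V) = c • (-((c - 1)⁻¹ • y)) + ((c - 1) * (c - 1)⁻¹) • y := by module
  rw [mul_inv_cancel₀ hc1', one_smul] at e
  exact e.symm

variable (hQ : (polarBilin Q).Nondegenerate) (hn : 7 ≤ Module.finrank F V) (hψ : ψ ≠ 1)
  (hTM : ∀ v : V, Q v = 0 → v ≠ 0 → ∀ ω : Z, Triv ψ Q v ω ∨ MaxT ψ Q v ω)

include hQ hψ hTM in
/-- Singular vectors fixed by the torus. -/
theorem IsTor.sing {h : SGrp Q} {v w : V} {c : F} (ht : IsTor h v w c) (hc : c ≠ 0) (hc1 : c ≠ 1)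
    (hv : Q v = 0) (hw : Q w = 0) (hvw : polar Q v w = 1) {ω : Z} (hω : h • ω = ω) {u : V} (hu : Q u = 0)
    (hvu : polar Q v u = 0) (hwu : polar Q w u = 0) : u ∈ AA (Q := Q) v ω ∨ u ∈ AA (Q := Q) w ω := by
  by_cases hu0 : u = 0
  · left; rw [hu0]; exact AddSubgroup.zero_mem _
  have huv : polar Q u v = 0 := by rw [pc]; exact hvu
  have huw : polar Q u w = 0 := by rw [pc]; exact hwu
  rcases hTM u hu hu0 ω with h1 | h1
  · left
    exact AA_swap hu hv huv (AA_eq_of_TD_le hQ hψ h1 huv)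
  by_cases hB : ∀ x ∈ TD (Q := Q) ψ u ω, polar Q x v = 0
  · left
    exact AA_swap hu hv huv ((h1.mem_AA hQ hψ hu).2 (h1.max v hB))
  · right
    push Not at hB
    obtain ⟨x, hx, hxv⟩ := hB
    have h2 := (TD_conj ψ h u x ω).2 hx
    rw [ht.fix hvu hwu, hω] at h2
    have h3 := AddSubgroup.sub_mem _ h2 hx
    have h4 : ap h x - x = ((c - 1) * polar Q x w) • v + ((c⁻¹ - 1) * polar Q x v) • w := by
      rw [ht]; abel
    rw [h4] at h3
    have h5 := h1.sing _ h3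
    rw [qadd, qsmul, qsmul, hv, hw, psl, psr, hvw] at h5
    have hc2 : c⁻¹ - 1 ≠ 0 := by
      intro h
      apply hc1
      have h6 : c⁻¹ = 1 := sub_eq_zero.1 h
      rw [← inv_inv c, h6, inv_one]
    have hβ : (c⁻¹ - 1) * polar Q x v ≠ 0 := mul_ne_zero hc2 hxv
    have hα : (c - 1) * polar Q x w = 0 := by
      have : (c - 1) * polar Q x w * ((c⁻¹ - 1) * polar Q x v) = 0 := by linear_combination h5
      exact (mul_eq_zero.1 this).resolve_right hβ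
    rw [hα, zero_smul, zero_add] at h3
    have h6 := h1.smul _ h3 ((c⁻¹ - 1) * polar Q x v)⁻¹
    rw [smul_smul, inv_mul_cancel₀ hβ, one_smul] at h6
    exact AA_swap hu hw huw ((h1.mem_AA hQ hψ hu).2 h6)

include hQ hn hψ hTM in
/-- The two dual fixators cannot both be maximal. -/
theorem IsTor.triv {h : SGrp Q} {v w : V} {c : F} (ht : IsTor h v w c) (hc : c ≠ 0) (hc1 : c ≠ 1)
    (hv : Q v = 0) (hw : Q w = 0) (hvw : polar Q v w = 1) {ω : Z} (hω : h • ω = ω) (hM : MaxT ψ Q v ω) :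
    Triv ψ Q w ω := by
  have hw0 : w ≠ 0 := by rintro rfl; rw [polar_zero_right] at hvw; exact zero_ne_one hvw
  refine (hTM w hw hw0 ω).resolve_right fun hM' => ?_
  have hS : Sing ψ Q v ω := hM.sing
  have hS' : Sing ψ Q w ω := hM'.sing
  have hC := fun (u : V) (hu : Q u = 0) (h1 : polar Q v u = 0) (h2 : polar Q w u = 0) =>
    ht.sing hQ hψ hTM hc hc1 hv hw hvw hω hu h1 h2
  obtain ⟨E, hE, hEd⟩ := hM.exists_sub hQ
  obtain ⟨E', hE', hEd'⟩ := hM'.exists_sub hQ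
  obtain ⟨w₁, hw₁, hw₁0, hvw₁, -⟩ := exists_mem_perp_two hQ hEd' (by omega) v v
  obtain ⟨w₂, hw₂, hw₂0, hww₂, hw₁₂⟩ := exists_mem_perp_two hQ hEd (by omega) w w₁
  rw [hE'] at hw₁
  rw [hE] at hw₂
  have hww₁ := TD_le hψ hw ω hw₁
  have hvw₂ := TD_le hψ hv ω hw₂
  have hz : ∃ z, z ≠ 0 ∧ z ∈ TD (Q := Q) ψ v ω ∧ z ∈ TD (Q := Q) ψ w ω := by
    rcases hC (w₁ + w₂) (by rw [qadd, hM'.sing _ hw₁, hM.sing _ hw₂, hw₁₂]; ring)
      (by rw [par, hvw₁, hvw₂, add_zero]) (by rw [par, hww₁, hww₂, add_zero]) with h1 | h1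
    · rw [hM.mem_AA hQ hψ hv] at h1
      have h2 := AddSubgroup.sub_mem _ h1 hw₂
      rw [add_sub_cancel_right] at h2
      exact ⟨w₁, hw₁0, h2, hw₁⟩
    · rw [hM'.mem_AA hQ hψ hw] at h1
      have h2 := AddSubgroup.sub_mem _ h1 hw₁
      rw [add_sub_cancel_left] at h2
      exact ⟨w₂, hw₂0, hw₂, h2⟩
  obtain ⟨z, hz0, hzv, hzw⟩ := hz
  have hvz := TD_le hψ hv ω hzv
  have hwz := TD_le hψ hw ω hzw
  have hzs : z ∉ Submodule.span F {v, w} := by
    intro h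
    obtain ⟨α, β, rfl⟩ := Submodule.mem_span_pair.1 h
    rw [par, psr, psr, pself, hv, hvw] at hvz
    rw [par, psr, psr, pself, hw, pc Q w v, hvw] at hwz
    have hβ : β = 0 := by linear_combination hvz
    have hα : α = 0 := by linear_combination hwz
    apply hz0
    rw [hα, hβ, zero_smul, zero_smul, add_zero]
  obtain ⟨a, ha, hva, hwa, hza⟩ := exists_sing_perp_pair hQ hn hzs
  rcases hC a ha hva hwa with h1 | h1
  · rw [hM.mem_AA hQ hψ hv] at h1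
    exact hza (hS.polar_eq hzv h1)
  · rw [hM'.mem_AA hQ hψ hw] at h1
    exact hza (hS'.polar_eq hzw h1)

end Torus

section Inj

variable [Fintype F] [FiniteDimensional F V] [Fintype V] [Finite Z]

variable (hQ : (polarBilin Q).Nondegenerate) (hn : 7 ≤ Module.finrank F V) (hψ : ψ ≠ 1)
  (hTM : ∀ v : V, Q v = 0 → v ≠ 0 → ∀ ω : Z, Triv ψ Q v ω ∨ MaxT ψ Q v ω)

include hQ hn hψ hTM in
/-- There are at least as many trivial orbits of `w` as non-trivial orbits of `v`. -/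
theorem exists_triv_orbits (hd : ∃ d : F, d ≠ 0 ∧ d * d ≠ 1) {v w : V}
    (hv : Q v = 0) (hw : Q w = 0) (hvw : polar Q v w = 1) [Fintype (Ob Z Q v)] [Fintype (Ob Z Q w)]
    (hone : ∀ ω₁ ω₂ : Z, MaxT ψ Q v ω₁ → (∀ x, x ∈ TD (Q := Q) ψ v ω₁ → x ∈ TD (Q := Q) ψ v ω₂) →
      ob Q v ω₁ = ob Q v ω₂) :
    ∃ S : Finset (Ob Z Q w), (NN ψ Z Q v).card ≤ S.card ∧ ∀ O ∈ S, O ∉ NN ψ Z Q w := by
  classical
  have hv0 : v ≠ 0 := by rintro rfl; rw [polar_zero_left] at hvw; exact zero_ne_one hvw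
  obtain ⟨h, c, hc, hc1, ht⟩ := exists_torus hQ hn hv hw hvw hd
  have key : ∀ O : Ob Z Q v, ∃ ω : Z, O ∈ NN ψ Z Q v → ob Q v ω = O ∧ Triv ψ Q w ω := by
    intro O
    obtain ⟨ω, rfl⟩ := ob_surj v O
    by_cases hO : ob Q v ω ∈ NN ψ Z Q v
    · have hM := (hTM v hv hv0 ω).resolve_left (ob_mem_NN.1 hO)
      obtain ⟨ω', h1, h2⟩ := ht.exists_fixed hc hc1 hv hvw (ω := ω)
        (hone ω (h • ω) hM fun x hx => ht.TD_eq hc hψ hv hvw hM hx).symm
      have hM' : MaxT ψ Q v ω' := by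
        rw [← h1] at hO
        exact (hTM v hv hv0 ω').resolve_left (ob_mem_NN.1 hO)
      exact ⟨ω', fun _ => ⟨h1, ht.triv hQ hn hψ hTM hc hc1 hv hw hvw h2 hM'⟩⟩
    · exact ⟨ω, fun h => absurd h hO⟩
  choose f hf using key
  refine ⟨(NN ψ Z Q v).image fun O => ob Q w (f O), ?_, ?_⟩
  · rw [Finset.card_image_of_injOn]
    intro O hO O' hO' hOO
    obtain ⟨h1, h2⟩ := hf O hO
    obtain ⟨h3, -⟩ := hf O' hO'
    rw [← h1, ← h3]
    obtain ⟨b, hb, hb'⟩ := (ob_eq_iff w _ _).1 (Eq.symm hOO)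
    have h5 := (AA_eq_of_TD_le hQ hψ h2 hb).2
    rw [h5] at hb'
    rw [hb']
  · intro O hO
    rw [Finset.mem_image] at hO
    obtain ⟨O', hO', rfl⟩ := hO
    rw [ob_mem_NN, not_not]
    exact (hf O' hO').2

end Inj

end Cfsg.Agent.Mdx.Ort
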