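import Cfsg.Agent.Mdx.OP6
import Cfsg.Agent.Mdx.OMinus2

/-!
The orthogonal groups of plus type: existence of a full dual fixator.
-/

set_option autoImplicit false

namespace Cfsg.Agent.Mdx.Ort

open QuadraticMap Cfsg.Agent.Orth Cfsg.Agent.OMax Finset

variable {F V : Type*} [Field F] [AddCommGroup V] [Module F V] {Q : QuadraticForm F V}

variable {Z : Type*} [MulAction (SGrp Q) Z] {ψ : AddChar F ℂ}

section Gen

variable [Finite F] [FiniteDimensional F V]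

theorem exists_max (hQ : (polarBilin Q).Nondegenerate) (hψ : ψ ≠ 1)
    (hTM : ∀ v : V, Q v = 0 → v ≠ 0 → ∀ ω : Z, Triv ψ Q v ω ∨ MaxT ψ Q v ω) {ω : Z}
    (hω : ∃ g : SGrp Q, g • ω ≠ ω) : ∃ v : V, Q v = 0 ∧ v ≠ 0 ∧ MaxT ψ Q v ω := by
  by_contra hcon
  push Not at hcon
  obtain ⟨g, hg⟩ := hω
  apply hg
  refine fixed_of_AA (fun v b hv hb => ?_) g
  by_cases hv0 : v = 0
  · have : ee Q v b = 1 := by
      apply ap_ext; intro x
      rw [ee_ap hv hb, ap_one, hv0]; simp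
    rw [this, one_smul]
  exact (AA_eq_of_TD_le hQ hψ ((hTM v hv hv0 ω).resolve_right (hcon v hv hv0)) hb).2

theorem hTM_of_no_full (hQ : (polarBilin Q).Nondegenerate) (hn : 7 ≤ Module.finrank F V) (hψ : ψ ≠ 1)
    (hst : ∀ v, Q v = 0 → v ≠ 0 → Star Z ψ Q v) (hnf : ∀ (v : V) (ω : Z), Q v = 0 → v ≠ 0 → ¬ Full ψ Q v ω)
    (v : V) (hv : Q v = 0) (hv0 : v ≠ 0) (ω : Z) : Triv ψ Q v ω ∨ MaxT ψ Q v ω := by
  refine triv_or_max hQ hn hψ (fun v hv hv0 => ?_) hv hv0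
  rcases trichotomy hQ hn hψ hv hv0 (hst v hv hv0) ω with h | h | h
  · exact absurd h (hnf v ω hv hv0)
  · exact h
  · obtain ⟨v', hv', hv'0, h'⟩ := exists_full_of_nonS hQ hn hψ hst hv h
    exact absurd h' (hnf v' ω hv' hv'0)

end Gen

section Low

variable [Fintype F] [FiniteDimensional F V] [Fintype V] [Finite Z] {r z m : ℕ}

theorem plus_NN (hQ : (polarBilin Q).Nondegenerate) (hψ : ψ ≠ 1) (hd : PData Q r z m)
    (hTM : ∀ v : V, Q v = 0 → v ≠ 0 → ∀ ω : Z, Triv ψ Q v ω ∨ MaxT ψ Q v ω) {v₀ : V} {ω₀ : Z} (hv₀ : Q v₀ = 0)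
    (hv₀0 : v₀ ≠ 0) (h₀ : MaxT ψ Q v₀ ω₀) {v : V} (hv : Q v = 0) (hv0 : v ≠ 0) [Fintype (Ob Z Q v)] :
    (z + 1) * ((r + 1) * z + 1) ≤ (NN ψ Z Q v).card := by
  classical
  have h1 := hd.hm
  have h2 := hd.hm4
  have h := hd.card_NN (Z := Z) hQ hψ hv hv0 (hTM v hv hv0) (ν := 1) (by
    intro x x' h1 h2 h3 h4 h5 h6 h7
    refine ⟨_, cov_one hQ (by omega) hψ hv₀ hv₀0 h₀ hv hv0 h1 h2 h3 h4 h5 h6 h7, fun O hO => ?_⟩
    rw [Finset.mem_filter] at hO
    exact hO)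
  rwa [one_mul] at h

theorem plus_lower (hQ : (polarBilin Q).Nondegenerate) (hψ : ψ ≠ 1) (hd : PData Q r z m)
    (hTM : ∀ v : V, Q v = 0 → v ≠ 0 → ∀ ω : Z, Triv ψ Q v ω ∨ MaxT ψ Q v ω) {ω : Z}
    (hω : ∃ g : SGrp Q, g • ω ≠ ω) :
    (z + 1) * ((r + 1) * z + 1) * ((r + 1) ^ 2 * z) ≤ Nat.card Z := by
  classical
  obtain ⟨v, hv, hv0, h₀⟩ := exists_max hQ hψ hTM hω
  have := Fintype.ofFinite (Ob Z Q v)
  have h1 := plus_NN hQ hψ hd hTM hv hv0 h₀ hv hv0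
  have h2 := hd.card_Z (Z := Z) hQ hψ hv0 (hTM v hv hv0) (S := ∅) (by simp)
  rw [Finset.card_empty, add_zero] at h2
  exact (Nat.mul_le_mul_right _ h1).trans h2

/-- The improved bound, with an additional element of the field. -/
theorem plus_lower_strong (hQ : (polarBilin Q).Nondegenerate) (hψ : ψ ≠ 1) (hd : PData Q r z m)
    (hTM : ∀ v : V, Q v = 0 → v ≠ 0 → ∀ ω : Z, Triv ψ Q v ω ∨ MaxT ψ Q v ω) {ω : Z}
    (hω : ∃ g : SGrp Q, g • ω ≠ ω) (hF : ∃ d : F, d ≠ 0 ∧ d * d ≠ 1) :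
    (z + 1) * ((r + 1) * z + 1) * ((r + 1) ^ 2 * z + 1) ≤ Nat.card Z := by
  classical
  have hm := hd.hm
  have hm4 := hd.hm4
  obtain ⟨v₀, hv₀, hv₀0, h₀⟩ := exists_max hQ hψ hTM hω
  have := Fintype.ofFinite (Ob Z Q v₀)
  by_cases hone : ∀ (v : V) (ω₁ ω₂ : Z), Q v = 0 → v ≠ 0 → MaxT ψ Q v ω₁ →
      (∀ x, x ∈ TD (Q := Q) ψ v ω₁ → x ∈ TD (Q := Q) ψ v ω₂) → ob Q v ω₁ = ob Q v ω₂
  · obtain ⟨v, w, hv, hw, hvw, -⟩ := exists_hyp_pair hQ (by omega) (0 : V) 0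
    have hv0 : v ≠ 0 := by rintro rfl; rw [polar_zero_left] at hvw; exact zero_ne_one hvw
    have hw0 : w ≠ 0 := by rintro rfl; rw [polar_zero_right] at hvw; exact zero_ne_one hvw
    have := Fintype.ofFinite (Ob Z Q v)
    have := Fintype.ofFinite (Ob Z Q w)
    obtain ⟨S, hS, hS'⟩ := exists_triv_orbits hQ (by omega) hψ hTM hF hv hw hvw
      (fun ω₁ ω₂ h1 h2 => hone v ω₁ ω₂ hv hv0 h1 h2)
    have h1 := plus_NN hQ hψ hd hTM hv₀ hv₀0 h₀ hv hv0
    have h2 := plus_NN hQ hψ hd hTM hv₀ hv₀0 h₀ hw hw0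
    have h3 := hd.card_Z (Z := Z) hQ hψ hw0 (hTM w hw hw0) hS'
    calc (z + 1) * ((r + 1) * z + 1) * ((r + 1) ^ 2 * z + 1)
        = (z + 1) * ((r + 1) * z + 1) * ((r + 1) ^ 2 * z) + (z + 1) * ((r + 1) * z + 1) := by ring
      _ ≤ _ := (Nat.add_le_add (Nat.mul_le_mul_right _ h2) (h1.trans hS)).trans h3
  · push Not at hone
    obtain ⟨v, ω₁, ω₂, hv, hv0, hM, hT, hne⟩ := hone
    have h := hd.card_NN (Z := Z) hQ hψ hv₀ hv₀0 (hTM v₀ hv₀ hv₀0) (ν := 2) (by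
      intro x x' h1 h2 h3 h4 h5 h6 h7
      refine ⟨_, cov_two hQ (by omega) hψ hv hv0 hM hT hne hv₀ hv₀0 h1 h2 h3 h4 h5 h6 h7, fun O hO => ?_⟩
      rw [Finset.mem_filter] at hO
      exact hO)
    have h3 := hd.card_Z (Z := Z) hQ hψ hv₀0 (hTM v₀ hv₀ hv₀0) (S := ∅) (by simp)
    rw [Finset.card_empty, add_zero] at h3
    refine le_trans ?_ ((Nat.mul_le_mul_right _ h).trans h3)
    have hz := hd.z_pos
    have h4 : 1 ≤ (r + 1) ^ 2 * z := Nat.mul_pos (by positivity) hz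
    calc (z + 1) * ((r + 1) * z + 1) * ((r + 1) ^ 2 * z + 1)
        ≤ (z + 1) * ((r + 1) * z + 1) * ((r + 1) ^ 2 * z + (r + 1) ^ 2 * z) := by
          apply Nat.mul_le_mul_left; omega
      _ = _ := by ring

end Low

/-! ### The numbers -/

section Numbers

variable {F : Type*} [Field F] [Fintype F]

theorem card_qfPlus (m : ℕ) (c : F) [DecidableEq F] :
    Fintype.card F * Nat.card {v // qfPlus m F v = c} + Fintype.card F ^ m =
      Fintype.card F ^ (m + 1) * (if c = 0 then 1 else 0) + Fintype.card F ^ (2 * m) := by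
  have h := card_hf (F := F) (fun _ : Unit => -c) m
  have e : Nat.card {v // qfPlus m F v = c} = Nat.card {v // hf m (fun _ : Unit => -c) v = 0} := by
    refine Nat.card_congr (Equiv.subtypeEquiv (Equiv.prodPUnit.{0} (Fin m ⊕ Fin m → F)).symm fun v => ?_)
    rw [qfPlus_apply]
    unfold hf
    change _ ↔ (∑ i : Fin m, v (.inl i) * v (.inr i)) + -c = 0
    rw [← sub_eq_add_neg, sub_eq_zero]
  have e2 : Nat.card {w : Unit // -c = 0} = if c = 0 then 1 else 0 := by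
    split_ifs with hc
    · rw [Nat.card_eq_one_iff_unique]
      exact ⟨⟨fun a b => Subtype.ext rfl⟩, ⟨⟨Unit.unit, by rw [hc, neg_zero]⟩⟩⟩
    · have : IsEmpty {w : Unit // -c = 0} := ⟨fun w => hc (neg_eq_zero.1 w.2)⟩
      exact Nat.card_of_isEmpty
  rw [e2] at h
  simp only [Nat.card_eq_fintype_card (α := F), Nat.card_unique, mul_one] at h
  rw [e]
  exact h

theorem card_zeros_plus (m : ℕ) {x : ℕ} (hx : Fintype.card F ^ m = x) :
    Nat.card {v // qfPlus (m + 1) F v = 0} + x = Fintype.card F * x + Fintype.card F * (x * x) := by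
  classical
  have h := card_qfPlus (m + 1) (0 : F)
  rw [if_pos rfl, mul_one, two_mul, pow_add _ (m + 1) (m + 1), pow_succ _ (m + 1), pow_succ _ m, hx] at h
  apply Nat.eq_of_mul_eq_mul_left (Fintype.card_pos (α := F))
  linarith

theorem card_value_plus (m : ℕ) {x : ℕ} (hx : Fintype.card F ^ m = x) {c : F} (hc : c ≠ 0) :
    Nat.card {v // qfPlus (m + 1) F v = c} + x = Fintype.card F * (x * x) := by
  classical
  have h := card_qfPlus (m + 1) c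
  rw [if_neg hc, mul_zero, zero_add, two_mul, pow_add _ (m + 1) (m + 1), pow_succ _ m, hx] at h
  apply Nat.eq_of_mul_eq_mul_left (Fintype.card_pos (α := F))
  linarith

theorem card_space_plus (m : ℕ) {x : ℕ} (hx : Fintype.card F ^ m = x) :
    Nat.card (Fin (m + 1) ⊕ Fin (m + 1) → F) = Fintype.card F * (Fintype.card F * (x * x)) := by
  rw [Nat.card_eq_fintype_card, Fintype.card_fun]
  simp only [Fintype.card_sum, Fintype.card_fin]
  rw [pow_add, pow_succ, hx]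
  ring

theorem finrank_plus (m : ℕ) : Module.finrank F (Fin m ⊕ Fin m → F) = 2 * m := by
  rw [Module.finrank_fintype_fun_eq_card]
  simp only [Fintype.card_sum, Fintype.card_fin]
  omega

end Numbers

end Cfsg.Agent.Mdx.Ort
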