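import Cfsg.Agent.Mdx.OP7

/-!
The minimal index for the orthogonal groups of plus type.
-/

set_option autoImplicit false

namespace Cfsg.Agent.Mdx.Ort

open QuadraticMap Cfsg.Agent.Orth Cfsg.Agent.OMax Finset

/-- Size of the field, of the set of non-zero squares and the characteristic, at least four elements. -/
theorem field_sizes_four {F : Type*} [Field F] [Fintype F] (h4 : 4 ≤ Fintype.card F) : ∃ (p r σ : ℕ), p.Prime ∧
    CharP F p ∧ Fintype.card F = r + 1 ∧ 3 ≤ r ∧ 2 ≤ σ ∧ (2 * σ ≤ r ∨ (CharP F 2 ∧ σ ≤ r)) ∧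
    (r + 1) * (r + 1) + 1 ≤ r * (p * σ) := by
  obtain ⟨p, hchar⟩ := CharP.exists F
  obtain ⟨n, hp, hpn⟩ := FiniteField.card F p
  obtain ⟨r, hr⟩ : ∃ r, Fintype.card F = r + 1 := ⟨Fintype.card F - 1, by omega⟩
  have hn := n.pos
  by_cases hp2 : p = 2
  · subst hp2
    refine ⟨2, r, r, hp, hchar, hr, by omega, by omega, Or.inr ⟨hchar, le_refl r⟩, ?_⟩
    have h3 : 3 ≤ r := by omega
    nlinarith
  · have hodd : Odd (Fintype.card F) := by
      rw [hpn]
      exact (hp.odd_of_ne_two hp2).pow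
    obtain ⟨σ, hσ⟩ : ∃ σ, r = 2 * σ := by
      obtain ⟨k, hk⟩ := hodd
      exact ⟨k, by omega⟩
    refine ⟨p, r, σ, hp, hchar, hr, by omega, by omega, Or.inl (by omega), ?_⟩
    by_cases h3 : p = 3
    · subst h3
      have hn2 : 2 ≤ (n : ℕ) := by
        by_contra h
        have hn1 : (n : ℕ) = 1 := by omega
        rw [hn1] at hpn
        omega
      have h9 : 3 ^ 2 ≤ 3 ^ (n : ℕ) := Nat.pow_le_pow_right (by norm_num) hn2
      have hσ4 : 4 ≤ σ := by omega
      rw [hσ]
      nlinarith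
    · have hp5 : 5 ≤ p := by
        have := hp.two_le
        have h4 : p ≠ 4 := by rintro rfl; exact absurd hp (by norm_num)
        omega
      have h5 : r * (5 * σ) ≤ r * (p * σ) := Nat.mul_le_mul_left _ (Nat.mul_le_mul_right _ hp5)
      refine le_trans ?_ h5
      have hσ2 : 2 ≤ σ := by omega
      rw [hσ]
      nlinarith

theorem arith_theta {r z : ℕ} (hr : 1 ≤ r) (hz : z = r + 1 ∨ r + 2 ≤ z) :
    (r + 1) ^ 3 * z ≤ r * ((z + 1) * ((r + 1) * z + 1)) + 1 := by
  obtain ⟨t, ht⟩ : ∃ t, z = r + 1 + t := ⟨z - (r + 1), by rcases hz with h | h <;> omega⟩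
  have e : r * ((z + 1) * ((r + 1) * z + 1)) + 1 + z = (r + 1) ^ 3 * z + z * (r * (r + 1) * t) + (r + 1) := by
    rw [ht]; ring
  rcases hz with h | h
  · have ht0 : t = 0 := by omega
    rw [ht0, mul_zero, mul_zero] at e
    omega
  · have h1 : 1 ≤ r * (r + 1) * t := Nat.mul_pos (Nat.mul_pos (by omega) (by omega)) (by omega)
    have h2 : z * 1 ≤ z * (r * (r + 1) * t) := Nat.mul_le_mul_left _ h1
    omega

theorem pow_cases {q k : ℕ} (hq : 2 ≤ q) (hk : 1 ≤ k) : q ^ k = q ∨ q + 1 ≤ q ^ k := by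
  by_cases h : k = 1
  · left; rw [h, pow_one]
  · right
    have h1 : q ^ 2 ≤ q ^ k := Nat.pow_le_pow_right (by omega) (by omega)
    nlinarith

section Plus

variable {F : Type*} [Field F] [Fintype F]

/-- Numerical data for the orthogonal groups of plus type. -/
theorem num_plus (m : ℕ) {r σ x y B N₁ : ℕ} (hr : Fintype.card F = r + 1)
    (hσ : 2 * σ ≤ r ∨ (CharP F 2 ∧ σ ≤ r)) (hx : Fintype.card F ^ m = x) (hxy : x = y + 1)
    (hN : r * (N₁ + 1) + 1 = (r + 1) * (x * x) + r * x)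
    (h1 : B ≤ 2 * (x * x)) (h2 : r * B ≤ r * (x * x) + σ * (x * y))
    (h3 : (r + 1) * B ≤ (r + 1) * (x * x) + 2 * (x * x + r * x)) (hB : B ≤ N₁ + 1) :
    Num (qfPlus (m + 1) F) B r (Fintype.card F * (x * x)) (x * x + r * x)
      (σ * (x * y)) N₁ (r * (N₁ + 1)) := by
  have hQ := qfPlus_nondegenerate (m + 1) F
  have hz := card_zeros_plus (F := F) m hx
  have hval := fun (c : F) (hc : c ≠ 0) => card_value_plus m hx hc
  have hsp := card_space_plus (F := F) m hx
  have hzero : Nat.card {v // qfPlus (m + 1) F v = 0} = (r + 1) * (x * x) + r * x := by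
    rw [hr] at hz
    have e : (r + 1) * x = r * x + x := by ring
    omega
  refine num_of hQ hr hsp ?_ ?_ ?_ hσ ?_ ?_ ?_ hB
  · rw [hzero, hN]
  · rw [hzero, hr]; ring
  · intro c hc
    have h := hval c hc
    rw [hr] at h ⊢
    have e1 : (r + 1) * (Nat.card {v // qfPlus (m + 1) F v = c} + x) = (r + 1) * ((r + 1) * (x * x)) := by rw [h]
    have e2 : (r + 1) * (x * y) + r * ((r + 1) * (x * x)) + (r + 1) * x = (r + 1) * ((r + 1) * (x * x)) := by
      rw [hxy]; ring
    have e3 : (r + 1) * (Nat.card {v // qfPlus (m + 1) F v = c} + x) =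
      (r + 1) * Nat.card {v // qfPlus (m + 1) F v = c} + (r + 1) * x := by ring
    omega
  · have := Nat.mul_le_mul_left (Fintype.card F) h1
    calc Fintype.card F * B ≤ _ := this
      _ = _ := by ring
  · have := Nat.mul_le_mul_left (Fintype.card F) h2
    calc r * (Fintype.card F * B) = Fintype.card F * (r * B) := by ring
      _ ≤ _ := this
      _ = _ := by ring
  · rw [hr]; exact h3

theorem pdata_plus {m : ℕ} (hm : 3 ≤ m) {r x B P K N₁ S : ℕ} (hr : Fintype.card F = r + 1) (hr1 : 1 ≤ r)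
    (hx : Fintype.card F ^ m = x) (hnum : Num (qfPlus (m + 1) F) B r P (x * x + r * x) K N₁ S) :
    PData (qfPlus (m + 1) F) r ((r + 1) ^ (m - 2)) (m + 1) where
  hr := hr
  hr1 := hr1
  hm := finrank_plus (m + 1)
  hm4 := by omega
  hz := by congr 1
  hs := by
    intro v hv hv0
    rw [hnum.hs v hv hv0]
    have e : x = (r + 1) ^ 2 * (r + 1) ^ (m - 2) := by
      rw [← hx, hr, ← pow_add]
      congr 1
      omega
    rw [e]; ring

theorem x_eq {m : ℕ} (hm : 3 ≤ m) {q x : ℕ} (hx : q ^ m = x) : x = q ^ 2 * q ^ (m - 2) := by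
  rw [← hx, ← pow_add]
  congr 1
  omega

theorem main_plus (m : ℕ) (hm : 3 ≤ m) (h4 : 4 ≤ Fintype.card F) {r x B : ℕ}
    (hr : Fintype.card F = r + 1) (hx : Fintype.card F ^ m = x)
    (hB : r * B = (Fintype.card F * x - 1) * (x + 1)) :
    (∀ H : Subgroup (Cfsg.POmega F (Cfsg.quadFormPlus (m + 1) F)), H ≠ ⊤ → B ≤ H.index) ∧
    (∃ H : Subgroup (Cfsg.POmega F (Cfsg.quadFormPlus (m + 1) F)), H.index = B) := by
  obtain ⟨p, r', σ, hp, hchar, hr', hr3, hσ2, hσ, hcase⟩ := field_sizes_four h4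
  have hrr : r' = r := by omega
  subst hrr
  have : Fact p.Prime := ⟨hp⟩
  have hx2 : Fintype.card F ^ 3 ≤ x := by
    rw [← hx]; exact Nat.pow_le_pow_right (by omega) hm
  have hx3 : 4 * ((r' + 1) * (r' + 1)) ≤ x := by
    have h5 : (r' + 1) * ((r' + 1) * (r' + 1)) = Fintype.card F ^ 3 := by rw [hr]; ring
    have h6 : 4 * ((r' + 1) * (r' + 1)) ≤ (r' + 1) * ((r' + 1) * (r' + 1)) := Nat.mul_le_mul_right _ (by omega)
    omega
  have hsq : 4 * (r' + 1) ≤ (r' + 1) * (r' + 1) := Nat.mul_le_mul_right _ (by omega)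
  obtain ⟨y, hy⟩ : ∃ y, x = y + 1 := ⟨x - 1, by omega⟩
  have hB' : r' * B + 1 = (r' + 1) * (x * x) + r' * x := by
    rw [hB, hr]
    have h7 : 1 ≤ (r' + 1) * x := Nat.mul_pos (by omega) (by omega)
    obtain ⟨u, hu⟩ : ∃ u, (r' + 1) * x = u + 1 := ⟨(r' + 1) * x - 1, by omega⟩
    rw [hu, Nat.add_sub_cancel]
    have e : (r' + 1) * (x * x) + r' * x + x = (u + 1) * x + (u + 1) := by rw [← hu]; ring
    have e2 : (u + 1) * x + (u + 1) = u * (x + 1) + 1 + x := by ring
    omega
  have hB1 : 1 ≤ B := by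
    by_contra h
    have h0 : B = 0 := by omega
    rw [h0, mul_zero] at hB'
    have : 0 < (r' + 1) * (x * x) := Nat.mul_pos (by omega) (Nat.mul_pos (by omega) (by omega))
    have : 0 < r' * x := Nat.mul_pos (by omega) (by omega)
    omega
  have e1 : B - 1 + 1 = B := by omega
  have hrx : (2 * r' + 4) * x ≤ x * x := by
    apply Nat.mul_le_mul_right; omega
  have hrx' : (2 * r' + 4) * x = 2 * (r' * x) + 4 * x := by ring
  have hnum := num_plus (F := F) m (r := r') (σ := σ) (x := x) (y := y) (B := B) (N₁ := B - 1) hr hσ hx hy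
    (by rw [e1, hB']) (by
      apply Nat.le_of_mul_le_mul_left _ (show 0 < r' by omega)
      obtain ⟨k, hk⟩ : ∃ k, r' = k + 3 := ⟨r' - 3, by omega⟩
      have e3 : r' * (2 * (x * x)) = (r' + 1) * (x * x) + (k + 2) * (x * x) := by rw [hk]; ring
      have e4 : 1 * (x * x) ≤ (k + 2) * (x * x) := Nat.mul_le_mul_right _ (by omega)
      omega) (by
      have h5 : 2 * (x * y) ≤ σ * (x * y) := Nat.mul_le_mul_right _ hσ2
      have e5 : x * y + x = x * x := by rw [hy]; ring
      have e6 : (r' + 1) * (x * x) = r' * (x * x) + x * x := by ring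
      omega) (by
      apply Nat.le_of_mul_le_mul_left _ (show 0 < r' by omega)
      have e7 : r' * ((r' + 1) * B) + (r' + 1) = (r' + 1) * ((r' + 1) * (x * x) + r' * x) := by
        rw [← hB']; ring
      have e8 : r' * ((r' + 1) * (x * x) + 2 * (x * x + r' * x)) + (x * x) =
        (r' + 1) * ((r' + 1) * (x * x) + r' * x) + (r' * (x * x)) + (r' * r' * x) - r' * x := by
        have e9 : r' * ((r' + 1) * (x * x) + 2 * (x * x + r' * x)) + (x * x) + r' * x =
          (r' + 1) * ((r' + 1) * (x * x) + r' * x) + (r' * (x * x)) + (r' * r' * x) := by ring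
        omega
      have e10 : 1 * (x * x) ≤ r' * (x * x) := Nat.mul_le_mul_right _ (by omega)
      have e11 : 1 * (r' * x) ≤ r' * (r' * x) := Nat.mul_le_mul_right _ (by omega)
      have e12 : r' * (r' * x) = r' * r' * x := by ring
      omega) (by omega)
  have hpd := pdata_plus hm hr (by omega) hx hnum
  have hQ := qfPlus_nondegenerate (m + 1) F
  have hn : 7 ≤ Fintype.card (Fin (m + 1) ⊕ Fin (m + 1)) := by
    simp only [Fintype.card_sum, Fintype.card_fin]
    omega
  have hn' : 7 ≤ Module.finrank F (Fin (m + 1) ⊕ Fin (m + 1) → F) := by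
    rwa [Module.finrank_fintype_fun_eq_card]
  have hfV : Finite (Fin (m + 1) ⊕ Fin (m + 1) → F) := Module.finite_of_finite F
  have hfV' := Fintype.ofFinite (Fin (m + 1) ⊕ Fin (m + 1) → F)
  have hfL : Finite ((Fin (m + 1) ⊕ Fin (m + 1) → F) ≃ₗ[F] (Fin (m + 1) ⊕ Fin (m + 1) → F)) :=
    Finite.of_injective (fun g => (g : (Fin (m + 1) ⊕ Fin (m + 1) → F) → (Fin (m + 1) ⊕ Fin (m + 1) → F)))
      (fun g h H => LinearEquiv.ext fun x => congrFun H x)
  constructor
  · refine index_ge (Q := qfPlus (m + 1) F) hQ hn ?_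
    intro K hK
    refine le_index_gen hQ hn' hnum ?_ ?_ K hK
    · intro H ψ hψ hlt
      have : Finite (SGrp (qfPlus (m + 1) F) ⧸ H) := inferInstance
      refine star_of_num hQ hn' hψ hnum hlt p ?_
      apply Nat.le_of_mul_le_mul_left _ (show 0 < r' by omega)
      have g1 : r' * (Fintype.card F * B) + (r' + 1) = (r' + 1) * ((r' + 1) * (x * x) + r' * x) := by
        rw [← hB', hr]; ring
      have g2 : ((r' + 1) * (r' + 1) + 1) * (x * y) ≤ r' * (p * σ) * (x * y) := Nat.mul_le_mul_right _ hcase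
      have g3 : r' * (p * σ) * (x * y) = r' * (p * (σ * (x * y))) := by ring
      have g4 : ((r' + 1) * (r' + 1) + 1) * (x * y) + ((r' + 1) * (r' + 1) + 1) * x =
        (r' + 1) * ((r' + 1) * (x * x)) + x * x := by rw [hy]; ring
      have g5 : 4 * ((r' + 1) * (r' + 1)) * x ≤ x * x := Nat.mul_le_mul_right _ hx3
      have g6 : ((r' + 1) * (r' + 1) + 1) * x + (r' + 1) * (r' * x) + ((r' + 1) * x) =
        2 * ((r' + 1) * (r' + 1) * x) + x := by ring
      have g7 : 4 * ((r' + 1) * (r' + 1)) * x = 4 * ((r' + 1) * (r' + 1) * x) := by ring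
      have g8 : 1 * x ≤ (r' + 1) * (r' + 1) * x := Nat.mul_le_mul_right _ (by omega)
      have g9 : (r' + 1) * ((r' + 1) * (x * x) + r' * x) = (r' + 1) * ((r' + 1) * (x * x)) + (r' + 1) * (r' * x) := by
        ring
      omega
    · intro H ψ hψ hlt hst hmv
      have : Finite (SGrp (qfPlus (m + 1) F) ⧸ H) := inferInstance
      by_contra hcon
      push Not at hcon
      have hTM := hTM_of_no_full hQ hn' hψ hst hcon
      have hlow := plus_lower_strong hQ hψ hpd hTM (hmv ((1 : SGrp (qfPlus (m + 1) F)) : SGrp (qfPlus (m + 1) F) ⧸ H))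
        (exists_sq_ne h4)
      obtain ⟨z, hz⟩ : ∃ z, z = (r' + 1) ^ (m - 2) := ⟨_, rfl⟩
      rw [← hz] at hlow
      have hxz : x = (r' + 1) ^ 2 * z := by rw [hz, ← hr]; exact x_eq hm hx
      have hth := arith_theta (r := r') (z := z) (by omega) (by
        have := pow_cases (q := r' + 1) (k := m - 2) (by omega) (by omega)
        rw [← hz] at this
        omega)
      have g1 : (r' + 1) ^ 3 * z = (r' + 1) * x := by rw [hxz]; ring
      rw [g1] at hth
      have g2 : (z + 1) * ((r' + 1) * z + 1) * (x + 1) < B := by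
        rw [hxz]; exact lt_of_le_of_lt hlow hlt
      have g3 : r' * ((z + 1) * ((r' + 1) * z + 1) * (x + 1)) < r' * B := Nat.mul_lt_mul_of_pos_left g2 (by omega)
      have g4 : ((r' + 1) * x) * (x + 1) ≤ (r' * ((z + 1) * ((r' + 1) * z + 1)) + 1) * (x + 1) :=
        Nat.mul_le_mul_right _ hth
      have g5 : ((r' + 1) * x) * (x + 1) = (r' + 1) * (x * x) + r' * x + x := by ring
      have g6 : (r' * ((z + 1) * ((r' + 1) * z + 1)) + 1) * (x + 1) =
        r' * ((z + 1) * ((r' + 1) * z + 1) * (x + 1)) + x + 1 := by ring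
      omega
  · obtain ⟨v, hv, h⟩ := exists_lineStab_sing hQ hn' hr (by omega) hnum.hS
    rw [e1] at h
    exact exists_index (Q := qfPlus (m + 1) F) hQ hn hv h

theorem main_plus_two (m : ℕ) (hm : 3 ≤ m) (h2 : Fintype.card F = 2) {x : ℕ}
    (hx : 2 ^ m = x) :
    (∀ H : Subgroup (Cfsg.POmega F (Cfsg.quadFormPlus (m + 1) F)), H ≠ ⊤ → x * (2 * x - 1) ≤ H.index) ∧
    (∃ H : Subgroup (Cfsg.POmega F (Cfsg.quadFormPlus (m + 1) F)), H.index = x * (2 * x - 1)) := by
  have hr : Fintype.card F = 1 + 1 := h2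
  have hx' : Fintype.card F ^ m = x := by rw [h2, hx]
  obtain ⟨e1, e2⟩ := two_elements h2
  have hchar : CharP F 2 := by
    have : Fact (Nat.Prime 2) := ⟨Nat.prime_two⟩
    exact charP_of_card_eq_prime h2
  have hx8 : 8 ≤ x := by
    have h : 2 ^ 3 ≤ 2 ^ m := Nat.pow_le_pow_right (by norm_num) hm
    omega
  obtain ⟨y, hy⟩ : ∃ y, x = y + 1 := ⟨x - 1, by omega⟩
  obtain ⟨B, hB⟩ : ∃ B, x * (2 * x - 1) = B := ⟨_, rfl⟩
  rw [hB]
  have hB' : B + x = 2 * (x * x) := by
    rw [← hB, hy]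
    have : 2 * (y + 1) - 1 = 2 * y + 1 := by omega
    rw [this]; ring
  have hxx : 8 * x ≤ x * x := Nat.mul_le_mul_right _ hx8
  have e5 : x * y + x = x * x := by rw [hy]; ring
  obtain ⟨N₁, hN₁⟩ : ∃ N₁, N₁ + 2 = 2 * (x * x) + x := ⟨2 * (x * x) + x - 2, by omega⟩
  have hnum := num_plus (F := F) m (r := 1) (σ := 1) (x := x) (y := y) (B := B) (N₁ := N₁) hr
    (Or.inr ⟨hchar, le_refl _⟩) hx' hy (by omega) (by omega) (by omega) (by omega) (by omega)
  have hpd := pdata_plus hm hr (le_refl _) hx' hnum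
  have hQ := qfPlus_nondegenerate (m + 1) F
  have hn : 7 ≤ Fintype.card (Fin (m + 1) ⊕ Fin (m + 1)) := by
    simp only [Fintype.card_sum, Fintype.card_fin]
    omega
  have hn' : 7 ≤ Module.finrank F (Fin (m + 1) ⊕ Fin (m + 1) → F) := by
    rwa [Module.finrank_fintype_fun_eq_card]
  have hfV : Finite (Fin (m + 1) ⊕ Fin (m + 1) → F) := Module.finite_of_finite F
  have hfV' := Fintype.ofFinite (Fin (m + 1) ⊕ Fin (m + 1) → F)
  have hfL : Finite ((Fin (m + 1) ⊕ Fin (m + 1) → F) ≃ₗ[F] (Fin (m + 1) ⊕ Fin (m + 1) → F)) :=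
    Finite.of_injective (fun g => (g : (Fin (m + 1) ⊕ Fin (m + 1) → F) → (Fin (m + 1) ⊕ Fin (m + 1) → F)))
      (fun g h H => LinearEquiv.ext fun x => congrFun H x)
  constructor
  · refine index_ge (Q := qfPlus (m + 1) F) hQ hn ?_
    intro K hK
    refine le_index_gen hQ hn' hnum ?_ ?_ K hK
    · intro H ψ hψ hlt
      have : Finite (SGrp (qfPlus (m + 1) F) ⧸ H) := inferInstance
      refine star_num_two hQ hn' hψ h2 hnum hlt ?_
      rw [h2]
      omega
    · intro H ψ hψ hlt hst hmv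
      have : Finite (SGrp (qfPlus (m + 1) F) ⧸ H) := inferInstance
      by_contra hcon
      push Not at hcon
      have hTM := hTM_of_no_full hQ hn' hψ hst hcon
      have hlow := plus_lower hQ hψ hpd hTM (hmv ((1 : SGrp (qfPlus (m + 1) F)) : SGrp (qfPlus (m + 1) F) ⧸ H))
      obtain ⟨z, hz⟩ : ∃ z, z = (1 + 1) ^ (m - 2) := ⟨_, rfl⟩
      rw [← hz] at hlow
      have hxz : x = (1 + 1) ^ 2 * z := by rw [hz, ← hr]; exact x_eq hm hx'
      have hth := arith_theta (r := 1) (z := z) (by omega) (by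
        have := pow_cases (q := 1 + 1) (k := m - 2) (by omega) (by omega)
        rw [← hz] at this
        omega)
      have g1 : (1 + 1) ^ 3 * z = 2 * x := by rw [hxz]; ring
      rw [g1] at hth
      have g2 : (z + 1) * ((1 + 1) * z + 1) * x < B := by
        rw [hxz]; exact lt_of_le_of_lt hlow hlt
      have g4 : (2 * x) * x ≤ (1 * ((z + 1) * ((1 + 1) * z + 1)) + 1) * x :=
        Nat.mul_le_mul_right _ hth
      have g6 : (1 * ((z + 1) * ((1 + 1) * z + 1)) + 1) * x =
        ((z + 1) * ((1 + 1) * z + 1) * x) + x := by ring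
      have g7 : (2 * x) * x = 2 * (x * x) := by ring
      omega
  · have hval := card_value_plus (F := F) m hx' (c := 1) one_ne_zero
    rw [h2] at hval
    have hcard : Nat.card {v // qfPlus (m + 1) F v = 1} = B := by omega
    have hpos : 0 < Nat.card {v // qfPlus (m + 1) F v = 1} := by omega
    obtain ⟨⟨v, hv⟩⟩ := (Nat.card_pos_iff.1 hpos).1
    have hv0 : v ≠ 0 := by
      rintro rfl
      rw [map_zero] at hv
      exact zero_ne_one hv
    refine exists_index (Q := qfPlus (m + 1) F) hQ hn hv0 ?_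
    have h8 := lineStab_index hQ hn' hv0
    have h9 : Nat.card {u : Fin (m + 1) ⊕ Fin (m + 1) → F // u ≠ 0 ∧ qfPlus (m + 1) F u = qfPlus (m + 1) F v} =
        Nat.card {u // qfPlus (m + 1) F u = 1} := by
      refine Nat.card_congr (Equiv.subtypeEquivRight fun u => ?_)
      rw [hv]
      refine ⟨fun h => h.2, fun h => ⟨?_, h⟩⟩
      rintro rfl
      rw [map_zero] at h
      exact zero_ne_one h
    have h10 : Nat.card {c : F // c ≠ 0 ∧ qfPlus (m + 1) F (c • v) = qfPlus (m + 1) F v} = 1 := by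
      rw [Nat.card_eq_one_iff_unique]
      refine ⟨⟨fun a b => Subtype.ext ?_⟩, ⟨⟨1, one_ne_zero, by rw [one_smul]⟩⟩⟩
      rw [(e1 a.1).resolve_left a.2.1, (e1 b.1).resolve_left b.2.1]
    rw [h9, h10, one_mul, hcard] at h8
    exact h8

end Plus

end Cfsg.Agent.Mdx.Ort
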