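import Cfsg.Agent.Mdx.O13
import Cfsg.Agent.Mdx.OOdd

/-!
Odd-dimensional orthogonal groups over the field with three elements.
-/

set_option autoImplicit false

namespace Cfsg.Agent.Mdx.Ort

open QuadraticMap Cfsg.Agent.Orth Cfsg.Agent.OMax Finset

section Gen

variable {F V : Type*} [Field F] [AddCommGroup V] [Module F V] {Q : QuadraticForm F V}

variable {Z : Type*} [MulAction (SGrp Q) Z] {ψ : AddChar F ℂ}

/-- `Star` over the field with three elements from non-orthogonal pairs. -/
theorem star_of_pairs (hF : ∀ c : F, c = 0 ∨ c = 1 ∨ c = -1) (hψ : ψ ≠ 1) {v : V} (hv : Q v = 0)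
    (h : ∀ (y a : V) (ω : Z) (hva : polar Q v a = 0), polar Q v y = 0 → Q y ≠ 0 → Q a = 0 →
      polar Q y a = 0 → a ∉ Submodule.span F {v} → TD (Q := Q) ψ v ω ∈ SY Z ψ Q v y →
      ∃ b ∈ KT (Q := Q) ψ (y := y) hva ω, ∃ b' ∈ KT (Q := Q) ψ (y := y) hva ω, polar Q b b' ≠ 0) :
    Star Z ψ Q v := by
  intro y ω a z hvy hy hyT ha hva hya hz hza t
  have hω : TD (Q := Q) ψ v ω ∈ SY Z ψ Q v y :=
    ⟨⟨ω, rfl⟩, hyT, z, hz, not_mem_span_of_polar hva hya hza⟩
  have hav : a ∉ Submodule.span F {v} := by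
    intro h5
    obtain ⟨c, rfl⟩ := Submodule.mem_span_singleton.1 h5
    apply hza
    rw [psr, pc Q z v, TD_le hψ hv ω hz, mul_zero]
  obtain ⟨b, hb, b', hb', hbb⟩ := h y a ω hva hvy hy ha hya hav hω
  have h1 := smul_mem_of_KT ha hva hz hb hb'
  have h2 : a ∈ TD (Q := Q) ψ v ω := by
    rcases hF (polar Q b b' * polar Q z a) with h3 | h3 | h3
    · exact absurd h3 (mul_ne_zero hbb hza)
    · rwa [h3, one_smul] at h1
    · rw [h3, neg_smul, one_smul] at h1
      have := AddSubgroup.neg_mem _ h1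
      rwa [neg_neg] at this
  rcases hF t with rfl | rfl | rfl
  · rw [zero_smul]; exact AddSubgroup.zero_mem _
  · rw [one_smul]; exact h2
  · rw [neg_smul, one_smul]; exact AddSubgroup.neg_mem _ h2

variable [Finite F] [FiniteDimensional F V]

/-- Consequence of the absence of non-orthogonal pairs. -/
theorem ts_of_no_pair (hQ : (polarBilin Q).Nondegenerate) (hF : ∀ c : F, c = 0 ∨ c = 1 ∨ c = -1)
    (h3 : (3 : F) = 0) {v y a : V} (hva : polar Q v a = 0) {ω : Z}
    (hidx : (KT (Q := Q) ψ (y := y) hva ω).relIndex (BB Q a v y) ≤ 3)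
    (hti : ∀ b ∈ KT (Q := Q) ψ (y := y) hva ω, ∀ b' ∈ KT (Q := Q) ψ (y := y) hva ω, polar Q b b' = 0) :
    ∃ U : Submodule F V, (∀ x ∈ U, Q x = 0) ∧ y ∈ perp Q U ∧ Module.finrank F V ≤ Module.finrank F U + 4 := by
  have hfV : Finite V := Module.finite_of_finite F
  have h2 : (2 : F) ≠ 0 := by
    intro h
    apply one_ne_zero (α := F)
    linear_combination h3 - h
  have hcF : Nat.card F = 3 := by
    have : Fintype F := Fintype.ofFinite F
    rw [Nat.card_eq_fintype_card]
    classical
    have h11 : (1 : F) ≠ -1 := by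
      intro h
      apply one_ne_zero (α := F)
      linear_combination h3 - h
    have e : (Finset.univ : Finset F) = {0, 1, -1} := by
      ext c
      simp only [Finset.mem_univ, Finset.mem_insert, Finset.mem_singleton, true_iff]
      exact hF c
    rw [← Finset.card_univ, e, Finset.card_insert_of_notMem, Finset.card_insert_of_notMem,
      Finset.card_singleton]
    · rw [Finset.mem_singleton]; exact h11
    · rw [Finset.mem_insert, Finset.mem_singleton, not_or]
      exact ⟨zero_ne_one, fun h => one_ne_zero (α := F) (neg_eq_zero.1 h.symm)⟩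
  let U : Submodule F V :=
    { carrier := {b | b ∈ KT (Q := Q) ψ (y := y) hva ω}
      zero_mem' := (KT (Q := Q) ψ (y := y) hva ω).zero_mem
      add_mem' := fun ha hb => (KT (Q := Q) ψ (y := y) hva ω).add_mem ha hb
      smul_mem' := by
        intro c x hx
        rcases hF c with rfl | rfl | rfl
        · rw [zero_smul]; exact (KT (Q := Q) ψ (y := y) hva ω).zero_mem
        · rw [one_smul]; exact hx
        · rw [neg_smul, one_smul]; exact (KT (Q := Q) ψ (y := y) hva ω).neg_mem hx }
  refine ⟨U, ?_, ?_, ?_⟩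
  · intro x hx
    have := hti x hx x hx
    rw [pself] at this
    exact (mul_eq_zero.1 this).resolve_left h2
  · intro x hx
    change polar Q x y = 0
    rw [pc]
    exact (KT_le hva ω hx).2.2
  · have h4 : Nat.card U * (KT (Q := Q) ψ (y := y) hva ω).relIndex (BB Q a v y) = Nat.card (BB Q a v y) := by
      have e1 : Nat.card U = Nat.card ((KT (Q := Q) ψ (y := y) hva ω).addSubgroupOf (BB Q a v y)) := by
        refine Nat.card_congr ?_
        exact (AddSubgroup.addSubgroupOfEquivOfLe (KT_le hva ω)).symm.toEquiv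
      rw [e1]
      exact AddSubgroup.card_mul_index _
    have h5 : Nat.card (BB Q a v y) = 3 ^ Module.finrank F (perp Q (Submodule.span F {a, v, y})) := by
      rw [← hcF, ← Module.natCard_eq_pow_finrank (K := F)]
      refine Nat.card_congr (Equiv.subtypeEquivRight fun x => ?_)
      exact mem_perp_triple.symm
    have h6 : Nat.card U = 3 ^ Module.finrank F U := by
      rw [← hcF, ← Module.natCard_eq_pow_finrank (K := F)]
    have h7 := finrank_perp hQ (Submodule.span F {a, v, y})
    have h8 := finrank_span_triple_le (F := F) a v y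
    have h9 : Nat.card (BB Q a v y) ≤ 3 ^ (Module.finrank F U + 1) := by
      rw [← h4, h6, pow_succ]
      exact Nat.mul_le_mul_left _ hidx
    rw [h5] at h9
    have h10 := (Nat.pow_le_pow_iff_right (by norm_num : 1 < 3)).1 h9
    omega

end Gen

section Odd

variable {F : Type*} [Field F] [Fintype F]

/-- The values on the orthogonal complement of a maximal totally singular subspace are squares. -/
theorem square_of_max (m : ℕ) (h2 : (2 : F) ≠ 0) {U : Submodule F (Unit ⊕ (Fin m ⊕ Fin m) → F)}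
    (hU : ∀ x ∈ U, qfOdd m F x = 0) (hd : Module.finrank F U = m) {y : Unit ⊕ (Fin m ⊕ Fin m) → F}
    (hy : y ∈ perp (qfOdd m F) U) : ∃ t : F, qfOdd m F y = t ^ 2 := by
  classical
  have hQ := qfOdd_nondegenerate m F h2
  obtain ⟨bs⟩ : Nonempty (Module.Basis (Fin m) F U) := ⟨Module.finBasisOfFinrankEq F U hd⟩
  have hUU : ∀ x ∈ U, ∀ x' ∈ U, polar (qfOdd m F) x x' = 0 := by
    intro x hx x' hx'
    have h := hU _ (Submodule.add_mem _ hx hx')
    rw [qadd, hU x hx, hU x' hx'] at h
    simpa using h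
  have hq : ∀ i : Fin m, qfOdd m F (Pi.single (Sum.inr (Sum.inl i)) 1) = 0 := by
    intro i
    rw [qfOdd_apply]
    simp
  obtain ⟨g, hg⟩ := witt_family hQ m (fun i => (bs i : Unit ⊕ (Fin m ⊕ Fin m) → F))
    (fun i => Pi.single (Sum.inr (Sum.inl i)) 1)
    (by
      have := bs.linearIndependent.map' U.subtype (Submodule.ker_subtype U)
      exact this)
    (by
      rw [Fintype.linearIndependent_iff]
      intro c hc i
      have := congrFun hc (Sum.inr (Sum.inl i))
      simpa [Finset.sum_apply, Pi.single_apply] using this)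
    (by
      intro i j
      rw [hUU _ (bs i).2 _ (bs j).2, polar_qfOdd]
      simp)
    (by
      intro i
      rw [hU _ (bs i).2, hq])
  obtain ⟨y', hy'⟩ : ∃ y', y' = (g : (Unit ⊕ (Fin m ⊕ Fin m) → F) ≃ₗ[F] (Unit ⊕ (Fin m ⊕ Fin m) → F)) y :=
    ⟨_, rfl⟩
  have h3 : ∀ i : Fin m, y' (Sum.inr (Sum.inr i)) = 0 := by
    intro i
    have h4 : polar (qfOdd m F) ((g : (Unit ⊕ (Fin m ⊕ Fin m) → F) ≃ₗ[F] (Unit ⊕ (Fin m ⊕ Fin m) → F))
        (bs i : Unit ⊕ (Fin m ⊕ Fin m) → F)) y' = 0 := by
      rw [hy', OGrp_polar]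
      exact hy _ (bs i).2
    rw [hg, polar_qfOdd] at h4
    simpa [Pi.single_apply] using h4
  refine ⟨y' (Sum.inl ()), ?_⟩
  have h5 := OGrp_q g y
  rw [← h5, ← hy', qfOdd_apply]
  simp [h3]

theorem card_sq_one (h2 : (2 : F) ≠ 0) : 2 ≤ Nat.card {w : F // w ^ 2 - 1 = 0} := by
  have h : (1 : F) ≠ -1 := by
    intro h
    apply h2
    linear_combination h
  have hf : Function.Injective (fun i : Bool => if i then (⟨1, by ring⟩ : {w : F // w ^ 2 - 1 = 0}) else
      ⟨-1, by ring⟩) := by
    intro i j hij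
    cases i <;> cases j
    · rfl
    · exact absurd (congrArg Subtype.val hij).symm h
    · exact absurd (congrArg Subtype.val hij) h
    · rfl
  have := Nat.card_le_card_of_injective _ hf
  rwa [Nat.card_eq_fintype_card (α := Bool), Fintype.card_bool] at this

/-- Numerical data over the field with three elements. -/
theorem num_three (h3 : Fintype.card F = 3) {a B N m : ℕ} (ha : 3 ^ m = 3 * a) (ha2 : 2 ≤ a)
    (hB : 2 * B + 3 * a = 9 * (a * a)) (hN : 2 * (N + 1) + 1 = 9 * (a * a)) :
    Num (qfOdd m F) B 2 (9 * (a * a)) (3 * (a * a)) (1 * (3 * (a * a) - 3 * a)) N (2 * (N + 1)) := by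
  obtain ⟨e1, e2⟩ := three_elements h3
  have h2 : (2 : F) ≠ 0 := by
    intro h
    apply one_ne_zero (α := F)
    linear_combination e2 - h
  have hQ := qfOdd_nondegenerate m F h2
  have hz := card_zeros_odd (F := F) m
  have hsp := card_space_odd (F := F) m
  have hP : 3 ^ (2 * m) = 9 * (a * a) := by rw [two_mul, pow_add, ha]; ring
  rw [h3, hP] at hz
  rw [h3, hP] at hsp
  have haa : a ≤ a * a := Nat.le_mul_self a
  have hcl : ∀ c : F, 27 * (a * a) ≤ 3 * Nat.card {v // qfOdd m F v = c} + 9 * a := by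
    intro c
    have := le_card_value_odd (F := F) m c
    rw [h3, pow_succ, pow_succ, hP, ha] at this
    omega
  refine num_of hQ (by rw [h3]) (by rw [hsp, h3]) (by rw [hz]; omega) (by rw [hz, h3]; ring) ?_ (Or.inl (by norm_num))
    ?_ ?_ ?_ ?_
  · intro c _
    have := hcl c
    rw [h3]
    omega
  · rw [h3]; omega
  · rw [h3]; omega
  · rw [h3]; omega
  · omega

/-- `Star` over the field with three elements. -/
theorem star_odd_three (h3 : Fintype.card F = 3) {a B N m : ℕ} (hm : 3 ≤ m) (ha : 3 ^ m = 3 * a)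
    (hB : 2 * B + 3 * a = 9 * (a * a)) (hN : 2 * (N + 1) + 1 = 9 * (a * a))
    {Z : Type*} [Finite Z] [MulAction (SGrp (qfOdd m F)) Z] {ψ : AddChar F ℂ} (hψ : ψ ≠ 1) (hlt : Nat.card Z < B)
    (v : Unit ⊕ (Fin m ⊕ Fin m) → F) (hv : qfOdd m F v = 0) (hv0 : v ≠ 0) : Star Z ψ (qfOdd m F) v := by
  obtain ⟨e1, e2⟩ := three_elements h3
  have h2 : (2 : F) ≠ 0 := by
    intro h
    apply one_ne_zero (α := F)
    linear_combination e2 - h
  have ha9 : 9 ≤ a := by
    have h : 3 ^ 3 ≤ 3 ^ m := Nat.pow_le_pow_right (by norm_num) hm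
    omega
  have hnum := num_three h3 ha (by omega) hB hN
  have hQ := qfOdd_nondegenerate m F h2
  have hn' : 7 ≤ Module.finrank F (Unit ⊕ (Fin m ⊕ Fin m) → F) := by
    rw [finrank_odd]; omega
  have : Fact (Nat.Prime 3) := ⟨Nat.prime_three⟩
  have hchar : CharP F 3 := charP_of_card_eq_prime h3
  have hd : ∀ d : F, d ≠ 0 → d * d = 1 := by
    intro d hd
    rcases e1 d with h | h | h
    · exact absurd h hd
    · rw [h]; ring
    · rw [h]; ring
  have haa : 9 * a ≤ a * a := Nat.mul_le_mul_right _ ha9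
  have hP : 3 ^ (2 * m) = 9 * (a * a) := by rw [two_mul, pow_add, ha]; ring
  refine star_of_pairs e1 hψ hv ?_
  intro y b ω hvb hvy hy hb hyb hbv hω
  have hidx := relIndex_KT_le hb hvb hyb hω
  have hone : Nat.card (SY Z ψ (qfOdd m F) v y) < 3 →
      ∃ c ∈ KT (Q := qfOdd m F) ψ (y := y) hvb ω, ∃ c' ∈ KT (Q := qfOdd m F) ψ (y := y) hvb ω,
      polar (qfOdd m F) c c' ≠ 0 := by
    intro hlt3
    obtain ⟨k, hk⟩ := relIndex_KT_dvd (Q := qfOdd m F) (ψ := ψ) 3 (y := y) hvb ω
    have hk0 : k = 0 := by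
      by_contra h0
      have h5 : 3 ≤ 3 ^ k := Nat.le_self_pow h0 3
      omega
    rw [hk0, pow_zero, AddSubgroup.relIndex_eq_one] at hk
    obtain ⟨c, c', hcc, hc, hc'⟩ := exists_polar_triple hQ hn' b v y
    exact ⟨c, hk hc, c', hk hc', hcc⟩
  rcases e1 (qfOdd m F y) with h | h | h
  · exact absurd h hy
  · apply hone
    have hlev := card_level hv (1 : F) hnum.hr (by rw [card_space_odd, h3, hP]) (hnum.hP v hv0)
    have hval := card_qfOdd (F := F) m 1
    have h5 := card_sq_one h2
    rw [h3] at hlev hval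
    have h6 : 3 ^ (m + 1) = 9 * a := by rw [pow_succ, ha]; ring
    have h7 : 3 ^ (2 * m + 1) = 27 * (a * a) := by rw [pow_succ, hP]; ring
    rw [h6, h7] at hval
    have h8 : 9 * a * 2 ≤ 9 * a * Nat.card {w : F // w ^ 2 - 1 = 0} := Nat.mul_le_mul_left _ h5
    have h9 : 3 * (a * a) + 3 * a ≤
        Nat.card {x // polar (qfOdd m F) v x = 0 ∧ qfOdd m F x = qfOdd m F y} := by
      rw [h]
      omega
    have h10 := SY_bound_three (Z := Z) hQ hn' hψ h3 hv hv0 hvy hy h9
    rw [h3] at h10
    by_contra hcon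
    push Not at hcon
    have h11 : 3 * (3 * (3 * (a * a) + 3 * a)) ≤ 3 * (Nat.card (SY Z ψ (qfOdd m F) v y) * (3 * (a * a) + 3 * a)) :=
      Nat.mul_le_mul_left _ (Nat.mul_le_mul_right _ hcon)
    omega
  · have h9 := hK_one hnum hd hv hv0 hy
    have h10 := SY_bound_three (Z := Z) hQ hn' hψ h3 hv hv0 hvy hy h9
    rw [h3] at h10
    have hle : Nat.card (SY Z ψ (qfOdd m F) v y) ≤ 3 := by
      by_contra hcon
      push Not at hcon
      have h11 : 3 * (4 * (1 * (3 * (a * a) - 3 * a))) ≤
          3 * (Nat.card (SY Z ψ (qfOdd m F) v y) * (1 * (3 * (a * a) - 3 * a))) :=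
        Nat.mul_le_mul_left _ (Nat.mul_le_mul_right _ hcon)
      omega
    by_contra hcon
    push Not at hcon
    obtain ⟨U, hU, hyU, hUd⟩ := ts_of_no_pair hQ e1 e2 hvb (hidx.trans hle) hcon
    rw [finrank_odd] at hUd
    have h12 := finrank_perp hQ U
    have h13 : U ≤ perp (qfOdd m F) U := by
      intro x hx y' hy'
      have h14 := hU _ (Submodule.add_mem _ hy' hx)
      rw [qadd, hU x hx, hU y' hy'] at h14
      simpa using h14
    have h15 := Submodule.finrank_mono h13
    rw [finrank_odd] at h12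
    obtain ⟨t, ht⟩ := square_of_max m h2 hU (by omega) hyU
    rw [h] at ht
    rcases e1 t with h16 | h16 | h16
    · rw [h16] at ht
      apply one_ne_zero (α := F)
      linear_combination -ht
    · rw [h16] at ht
      apply h2
      linear_combination -ht
    · rw [h16] at ht
      apply h2
      linear_combination -ht

theorem main_three (h3 : Fintype.card F = 3) {a B m : ℕ} (hm : 3 ≤ m) (ha : 3 ^ m = 3 * a)
    (hB : 2 * B + 3 * a = 9 * (a * a)) :
    (∀ H : Subgroup (Cfsg.POmega F (Cfsg.quadFormOdd m F)), H ≠ ⊤ → B ≤ H.index) ∧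
    (∃ H : Subgroup (Cfsg.POmega F (Cfsg.quadFormOdd m F)), H.index = B) := by
  obtain ⟨e1, e2⟩ := three_elements h3
  have h2 : (2 : F) ≠ 0 := by
    intro h
    apply one_ne_zero (α := F)
    linear_combination e2 - h
  have ha9 : 9 ≤ a := by
    have h : 3 ^ 3 ≤ 3 ^ m := Nat.pow_le_pow_right (by norm_num) hm
    omega
  have hP : 3 ^ (2 * m) = 9 * (a * a) := by rw [two_mul, pow_add, ha]; ring
  obtain ⟨N, hN⟩ : ∃ N, 2 * (N + 1) + 1 = 9 * (a * a) := by
    have hodd : Odd (3 ^ (2 * m)) := Odd.pow (by decide)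
    rw [hP] at hodd
    obtain ⟨k, hk⟩ := hodd
    have : 9 * a ≤ a * a := Nat.mul_le_mul_right _ ha9
    exact ⟨k - 1, by omega⟩
  have hnum := num_three h3 ha (by omega) hB hN
  have hQ := qfOdd_nondegenerate m F h2
  have hn : 7 ≤ Fintype.card (Unit ⊕ (Fin m ⊕ Fin m)) := by
    simp only [Fintype.card_sum, Fintype.card_unit, Fintype.card_fin]
    omega
  have hn' : 7 ≤ Module.finrank F (Unit ⊕ (Fin m ⊕ Fin m) → F) := by
    rwa [Module.finrank_fintype_fun_eq_card]
  constructor
  · refine index_ge (Q := qfOdd m F) hQ hn ?_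
    intro K hK
    have hfV : Finite (Unit ⊕ (Fin m ⊕ Fin m) → F) := Module.finite_of_finite F
    have hfL : Finite ((Unit ⊕ (Fin m ⊕ Fin m) → F) ≃ₗ[F] (Unit ⊕ (Fin m ⊕ Fin m) → F)) :=
      Finite.of_injective (fun g => (g : (Unit ⊕ (Fin m ⊕ Fin m) → F) → (Unit ⊕ (Fin m ⊕ Fin m) → F))) (fun g h H =>
        LinearEquiv.ext fun x => congrFun H x)
    refine le_index_gen hQ hn' hnum ?_ ?_ K hK
    · intro H ψ hψ hlt v hv hv0
      have : Finite (SGrp (qfOdd m F) ⧸ H) := inferInstance
      exact star_odd_three h3 hm ha hB hN hψ hlt v hv hv0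
    · intro H ψ hψ hlt hst hmv
      have hW : ∀ E : Submodule F (Unit ⊕ (Fin m ⊕ Fin m) → F), (∀ x ∈ E, qfOdd m F x = 0) →
          (∀ x ∈ perp (qfOdd m F) E, qfOdd m F x = 0) → False := by
        intro E hE hE'
        have h7 : E ≤ perp (qfOdd m F) E := by
          intro x hx y hy
          have h8 := hE _ (Submodule.add_mem _ hy hx)
          rw [qadd, hE x hx, hE y hy] at h8
          simpa using h8
        have h9 : perp (qfOdd m F) E ≤ E := by
          intro x hx
          rw [← perp_perp hQ E]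
          intro y hy
          have h8 := hE' _ (Submodule.add_mem _ hy hx)
          rw [qadd, hE' x hx, hE' y hy] at h8
          simpa using h8
        have h10 := finrank_perp hQ E
        rw [le_antisymm h9 h7, finrank_odd] at h10
        omega
      obtain ⟨v, h⟩ := exists_full hQ hn' hψ hst hW ((1 : SGrp (qfOdd m F)) : SGrp (qfOdd m F) ⧸ H) (hmv _)
      exact ⟨v, _, h⟩
  · have hval := card_qfOdd (F := F) m (-1)
    have h5 : Nat.card {w : F // w ^ 2 - (-1) = 0} = 0 := by
      have : IsEmpty {w : F // w ^ 2 - (-1) = 0} := by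
        refine ⟨fun w => ?_⟩
        obtain ⟨w, hw⟩ := w
        rcases e1 w with h | h | h
        · rw [h] at hw
          apply one_ne_zero (α := F)
          linear_combination hw
        · rw [h] at hw
          apply h2
          linear_combination hw
        · rw [h] at hw
          apply h2
          linear_combination hw
      exact Nat.card_of_isEmpty
    rw [h3, h5] at hval
    have h6 : 3 ^ (m + 1) = 9 * a := by rw [pow_succ, ha]; ring
    have h7 : 3 ^ (2 * m + 1) = 27 * (a * a) := by rw [pow_succ, hP]; ring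
    rw [h6, h7] at hval
    have haa : 9 * a ≤ a * a := Nat.mul_le_mul_right _ ha9
    have hcard : Nat.card {v // qfOdd m F v = -1} = 2 * B := by omega
    have hpos : 0 < Nat.card {v // qfOdd m F v = -1} := by omega
    obtain ⟨⟨y, hy⟩⟩ := (Nat.card_pos_iff.1 hpos).1
    have hm1 : (-1 : F) ≠ 0 := neg_ne_zero.2 one_ne_zero
    have hy0 : y ≠ 0 := by
      rintro rfl
      rw [map_zero] at hy
      exact hm1 hy.symm
    refine exists_index (Q := qfOdd m F) hQ hn hy0 ?_
    have h8 := lineStab_index hQ hn' hy0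
    have h9 : Nat.card {x : Unit ⊕ (Fin m ⊕ Fin m) → F // x ≠ 0 ∧ qfOdd m F x = qfOdd m F y} =
        Nat.card {v // qfOdd m F v = -1} := by
      refine Nat.card_congr (Equiv.subtypeEquivRight fun x => ?_)
      rw [hy]
      constructor
      · exact fun h => h.2
      · intro h
        refine ⟨?_, h⟩
        rintro rfl
        rw [map_zero] at h
        exact hm1 h.symm
    have h10 : Nat.card {c : F // c ≠ 0 ∧ qfOdd m F (c • y) = qfOdd m F y} = 2 := by
      classical
      have e : Nat.card {c : F // c ≠ 0 ∧ qfOdd m F (c • y) = qfOdd m F y} = Nat.card {c : F // c ≠ 0} := by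
        refine Nat.card_congr (Equiv.subtypeEquivRight fun c => ?_)
        constructor
        · exact fun h => h.1
        · intro h
          refine ⟨h, ?_⟩
          rw [qsmul]
          rcases e1 c with h' | h' | h'
          · exact absurd h' h
          · rw [h']; ring
          · rw [h']; ring
      rw [e, Nat.card_eq_fintype_card, Fintype.card_subtype_compl, Fintype.card_subtype_eq, h3]
    rw [h9, h10, hcard] at h8
    exact Nat.eq_of_mul_eq_mul_left (by norm_num) h8

end Odd

end Cfsg.Agent.Mdx.Ort
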