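import Cfsg.Agent.Mdx.Count
import Cfsg.Agent.ClassSp.Simple

/-!
Permutation representations of the symplectic groups over the field with two elements.
-/

set_option autoImplicit false

namespace Cfsg.Agent.Mdx.Sp2

open Matrix Cfsg.Agent.ClassSp

variable {l : Type*} [Fintype l] [DecidableEq l] {F : Type*} [Field F]

/-- `x ↦ x + sf x w • v + sf x v • w` in characteristic two. -/
noncomputable def rr (v w : l ⊕ l → F) : symplecticGroup l F := tv (v + w) 1 * tv v 1 * tv w 1

omit [DecidableEq l] in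
theorem sf_comm (h2 : (2 : F) = 0) (v w : l ⊕ l → F) : sf v w = sf w v := by
  rw [sf_swap]; linear_combination (-sf w v) * h2

theorem rr_mulVec (h2 : (2 : F) = 0) {v w : l ⊕ l → F} (h : sf v w = 0) (x : l ⊕ l → F) :
    (rr v w : Matrix (l ⊕ l) (l ⊕ l) F) *ᵥ x = x + sf x w • v + sf x v • w := by
  have h' : sf w v = 0 := by rw [sf_comm h2, h]
  simp only [rr, mul_mulVec, tv_mulVec, sf_add_left, sf_add_right, sf_smul_left, sf_self, h, h']
  linear_combination (norm := module) (h2 * sf x v) • v + (h2 * sf x w) • w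

theorem rr_zero (v : l ⊕ l → F) (h2 : (2 : F) = 0) : rr v (0 : l ⊕ l → F) = 1 := by
  apply ext_vec; intro x
  rw [rr_mulVec h2 (sf_zero_right v), one_mulVec', sf_zero_right]; simp

theorem rr_self (v : l ⊕ l → F) (h2 : (2 : F) = 0) : rr v v = 1 := by
  apply ext_vec; intro x
  rw [rr_mulVec h2 (sf_self v), one_mulVec']
  linear_combination (norm := module) (h2 * sf x v) • v

theorem rr_add (h2 : (2 : F) = 0) {v w w' : l ⊕ l → F} (h : sf v w = 0) (h' : sf v w' = 0) :
    rr v (w + w') = rr v w * rr v w' * tv v (sf w w') := by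
  have h1 : sf w v = 0 := by rw [sf_comm h2, h]
  have h1' : sf w' v = 0 := by rw [sf_comm h2, h']
  apply ext_vec; intro x
  rw [rr_mulVec h2 (by rw [sf_add_right, h, h', add_zero]), mul_mulVec, mul_mulVec, rr_mulVec h2 h,
    rr_mulVec h2 h', tv_mulVec]
  simp only [sf_add_left, sf_add_right, sf_smul_left, sf_self, h, h', h1, h1']
  rw [sf_comm h2 w' w]
  linear_combination (norm := module) (-h2 * sf w w' * sf x v) • v

theorem rr_comm (h2 : (2 : F) = 0) {v w : l ⊕ l → F} (h : sf v w = 0) : rr v w = rr w v := by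
  apply ext_vec; intro x
  rw [rr_mulVec h2 h, rr_mulVec h2 (by rw [sf_comm h2, h])]
  module

theorem rr_conj (h2 : (2 : F) = 0) (g : symplecticGroup l F) {v w : l ⊕ l → F} (h : sf v w = 0) :
    g * rr v w * g⁻¹ = rr ((g : Matrix (l ⊕ l) (l ⊕ l) F) *ᵥ v) ((g : Matrix (l ⊕ l) (l ⊕ l) F) *ᵥ w) := by
  have e : g * rr v w * g⁻¹ = (g * tv (v + w) 1 * g⁻¹) * (g * tv v 1 * g⁻¹) * (g * tv w 1 * g⁻¹) := by
    rw [rr]; group
  rw [e, tv_conj, tv_conj, tv_conj, rr, Matrix.mulVec_add]

theorem rr_tv_comm (h2 : (2 : F) = 0) {v w : l ⊕ l → F} (h : sf v w = 0) (c : F) :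
    rr v w * tv v c = tv v c * rr v w := by
  apply ext_vec; intro x
  have h' : sf w v = 0 := by rw [sf_comm h2, h]
  rw [mul_mulVec, mul_mulVec, rr_mulVec h2 h, rr_mulVec h2 h, tv_mulVec, tv_mulVec]
  simp only [sf_add_left, sf_smul_left, sf_self, h, h']
  module

theorem rr_eq (v w : l ⊕ l → F) : rr v w = tv (v + w) 1 * tv v 1 * tv w 1 := rfl

theorem tv_tv_comm {v w : l ⊕ l → F} (h : sf v w = 0) (c d : F) :
    tv v c * tv w d = tv w d * tv v c := by
  have h' : sf w v = 0 := by rw [sf_swap, h, neg_zero]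
  apply ext_vec; intro x
  simp only [mul_mulVec, tv_mulVec, sf_add_left, sf_smul_left, h, h']
  module

end Cfsg.Agent.Mdx.Sp2
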