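import Cfsg.Agent.Mdx.Sp2
import Cfsg.Agent.ClassSp.Order

/-!
Permutation representations of the symplectic groups over the field with two elements: duality.
-/

set_option autoImplicit false

namespace Cfsg.Agent.Mdx.Sp2

open Matrix Cfsg.Agent.ClassSp

variable {l : Type*} [Fintype l] [DecidableEq l] {F : Type*} [Field F]

/-- The form as a bilinear map. -/
noncomputable def sfB (l : Type*) [Fintype l] (F : Type*) [Field F] :
    LinearMap.BilinForm F (l ⊕ l → F) :=
  LinearMap.mk₂ F sf sf_add_left sf_smul_left sf_add_right sf_smul_right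

omit [DecidableEq l] in
@[simp] theorem sfB_apply (u v : l ⊕ l → F) : sfB l F u v = sf u v := rfl

/-- Perpendicular space of a vector. -/
def P (v : l ⊕ l → F) : AddSubgroup (l ⊕ l → F) where
  carrier := {w | sf v w = 0}
  zero_mem' := sf_zero_right v
  add_mem' := by
    intro a b ha hb
    change sf v (a + b) = 0
    rw [sf_add_right, show sf v a = 0 from ha, show sf v b = 0 from hb, add_zero]
  neg_mem' := by
    intro a ha
    change sf v (-a) = 0
    rw [sf_neg_right, show sf v a = 0 from ha, neg_zero]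

omit [DecidableEq l] in
theorem mem_P {v w : l ⊕ l → F} : w ∈ P v ↔ sf v w = 0 := Iff.rfl

section Two

variable [Fintype F] (hF : Fintype.card F = 2)

include hF

theorem two_zero : (2 : F) = 0 := by
  have := FiniteField.cast_card_eq_zero F
  rw [hF] at this
  exact_mod_cast this

theorem zero_or_one (c : F) : c = 0 ∨ c = 1 := by
  classical
  by_contra hcon
  push Not at hcon
  have h3 : ({0, 1, c} : Finset F).card = 3 := by
    rw [Finset.card_insert_of_notMem, Finset.card_insert_of_notMem, Finset.card_singleton]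
    · simpa using hcon.2.symm
    · simp only [Finset.mem_insert, Finset.mem_singleton, not_or]
      exact ⟨zero_ne_one, hcon.1.symm⟩
  have := Finset.card_le_univ ({0, 1, c} : Finset F)
  rw [h3, hF] at this
  omega

theorem eq_one_of_ne {c : F} (h : c ≠ 0) : c = 1 := (zero_or_one hF c).resolve_left h

omit [Fintype l] [DecidableEq l] in
theorem add_self_vec (v : l ⊕ l → F) : v + v = 0 := by
  ext i
  have := two_zero hF
  simp only [Pi.add_apply, Pi.zero_apply]
  linear_combination (v i) * this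

omit [Fintype l] [DecidableEq l] in
theorem mem_zm {v x : l ⊕ l → F} : x ∈ AddSubgroup.zmultiples v ↔ x = 0 ∨ x = v := by
  constructor
  · intro hx
    obtain ⟨k, rfl⟩ := AddSubgroup.mem_zmultiples_iff.1 hx
    rcases Int.even_or_odd k with ⟨j, rfl⟩ | ⟨j, rfl⟩
    · left
      rw [add_zsmul, ← zsmul_add, add_self_vec hF, zsmul_zero]
    · right
      rw [add_zsmul, one_zsmul, mul_comm, mul_zsmul, two_zsmul, add_self_vec hF, zsmul_zero, zero_add]
  · rintro (rfl | rfl)
    · exact zero_mem _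
    · exact AddSubgroup.mem_zmultiples _

omit [Fintype l] [DecidableEq l] in
theorem card_zm {v : l ⊕ l → F} (hv : v ≠ 0) : Nat.card (AddSubgroup.zmultiples v) = 2 := by
  rw [Nat.card_zmultiples]
  exact addOrderOf_eq_prime (by rw [two_nsmul, add_self_vec hF]) hv

theorem psi_eq_one {ψ : AddChar F ℂ} (hψ : ψ ≠ 1) (t : F) : ψ t = 1 ↔ t = 0 := by
  constructor
  · intro h
    by_contra ht
    have ht1 := eq_one_of_ne hF ht
    apply hψ
    ext s
    rcases zero_or_one hF s with rfl | rfl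
    · simp
    · rw [← ht1, h]; rfl
  · rintro rfl; exact ψ.map_zero_eq_one

omit [DecidableEq l] in
theorem mem_dp2 {ψ : AddChar F ℂ} (hψ : ψ ≠ 1) {A : AddSubgroup (l ⊕ l → F)} {y : l ⊕ l → F} :
    y ∈ dp ψ (sfB l F) A ↔ ∀ b ∈ A, sf y b = 0 := by
  rw [mem_dp]
  exact forall₂_congr fun b _ => psi_eq_one hF hψ _

omit [DecidableEq l] in
theorem dp_zm {ψ : AddChar F ℂ} (hψ : ψ ≠ 1) (v : l ⊕ l → F) :
    dp ψ (sfB l F) (AddSubgroup.zmultiples v) = P v := by
  ext y
  rw [mem_dp2 hF hψ, mem_P]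
  constructor
  · intro h
    rw [sf_swap, h v (AddSubgroup.mem_zmultiples v), neg_zero]
  · intro h b hb
    rcases (mem_zm hF).1 hb with rfl | rfl
    · exact sf_zero_right y
    · rw [sf_swap, h, neg_zero]

theorem nd (b : l ⊕ l → F) (hb : b ≠ 0) : ∃ y, sfB l F y b ≠ 0 := exists_sf_ne_zero hb

omit [DecidableEq l] in
theorem psi_symm {ψ : AddChar F ℂ} (hψ : ψ ≠ 1) (x y : l ⊕ l → F) :
    ψ (sfB l F x y) = 1 ↔ ψ (sfB l F y x) = 1 := by
  rw [psi_eq_one hF hψ, psi_eq_one hF hψ, sfB_apply, sfB_apply, sf_swap, neg_eq_zero]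

theorem dp_P {ψ : AddChar F ℂ} (hψ : ψ ≠ 1) (v : l ⊕ l → F) :
    dp ψ (sfB l F) (P v) = AddSubgroup.zmultiples v := by
  rw [← dp_zm hF hψ, dp_dp hψ (nd (l := l) hF) (psi_symm hF hψ)]

theorem card_P {v : l ⊕ l → F} (hv : v ≠ 0) : 2 * Nat.card (P v) = 2 ^ (2 * Fintype.card l) := by
  obtain ⟨ψ, hψ⟩ := exists_addChar (F := F)
  have := card_mul_card_dp hψ (nd (l := l) hF) (AddSubgroup.zmultiples v)
  rw [card_zm hF hv, dp_zm hF hψ] at this
  rw [this, Nat.card_eq_fintype_card, Fintype.card_fun, hF, Fintype.card_sum]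
  ring_nf

omit [Fintype F] hF in
/-- Swap two non-orthogonal vectors by a transvection. -/
theorem tv_swap2 (h2 : (2 : F) = 0) {x x' : l ⊕ l → F} (h : sf x x' = 1) :
    (tv (x + x') 1 : Matrix (l ⊕ l) (l ⊕ l) F) *ᵥ x = x' := by
  rw [tv_mulVec, sf_add_right, sf_self, h]
  linear_combination (norm := module) h2 • x

theorem exists_common {v x x' : l ⊕ l → F} (hv : v ≠ 0) (hx0 : x ≠ 0) (hxv : x ≠ v)
    (hx0' : x' ≠ 0) (hxv' : x' ≠ v) : ∃ z, sf v z = 0 ∧ sf x z = 1 ∧ sf x' z = 1 := by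
  have key : ∀ x : l ⊕ l → F, x ≠ 0 → x ≠ v → ∃ z, sf v z = 0 ∧ sf x z = 1 := by
    intro x h0 h1
    obtain ⟨z, hz, hz'⟩ := exists_perp_not_perp (x := v) (y := x) hv (by
      rintro ⟨a, rfl⟩
      rcases zero_or_one hF a with rfl | rfl
      · exact h0 (zero_smul _ _)
      · exact h1 (one_smul _ _))
    exact ⟨z, hz, eq_one_of_ne hF hz'⟩
  obtain ⟨z, h1, h2⟩ := key x hx0 hxv
  obtain ⟨z', h1', h2'⟩ := key x' hx0' hxv'
  rcases zero_or_one hF (sf x' z) with h3 | h3
  · rcases zero_or_one hF (sf x z') with h4 | h4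
    · refine ⟨z + z', ?_, ?_, ?_⟩
      · rw [sf_add_right, h1, h1', add_zero]
      · rw [sf_add_right, h2, h4, add_zero]
      · rw [sf_add_right, h3, h2', zero_add]
    · exact ⟨z', h1', h4, h2'⟩
  · exact ⟨z, h1, h2, h3⟩

/-- The stabiliser of `v` is transitive on `v^⊥ ∖ {0, v}`. -/
theorem exists_fix_move {v x x' : l ⊕ l → F} (hv : v ≠ 0) (hx : sf v x = 0) (hx0 : x ≠ 0)
    (hxv : x ≠ v) (hx' : sf v x' = 0) (hx0' : x' ≠ 0) (hxv' : x' ≠ v) :
    ∃ g : symplecticGroup l F, (g : Matrix (l ⊕ l) (l ⊕ l) F) *ᵥ v = v ∧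
      (g : Matrix (l ⊕ l) (l ⊕ l) F) *ᵥ x = x' := by
  obtain ⟨z, h1, h2, h3⟩ := exists_common hF hv hx0 hxv hx0' hxv'
  refine ⟨tv (z + x') 1 * tv (x + z) 1, ?_, ?_⟩
  · rw [mul_mulVec, tv_mulVec, tv_mulVec]
    simp only [sf_add_left, sf_add_right, sf_smul_left, h1, hx, hx', add_zero, mul_zero, zero_smul]
  · rw [mul_mulVec, tv_swap2 (two_zero hF) h2, tv_swap2 (two_zero hF)]
    rw [sf_comm (two_zero hF), h3]

end Two

end Cfsg.Agent.Mdx.Sp2
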