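import Cfsg.Agent.Mdx.Sp2b

/-!
Permutation representations of the symplectic groups over the field with two elements: the action of
the unipotent radical of the stabiliser of a point.
-/

set_option autoImplicit false

namespace Cfsg.Agent.Mdx.Sp2

open Matrix Cfsg.Agent.ClassSp

open scoped Pointwise

variable {l : Type*} [Fintype l] [DecidableEq l] {F : Type*} [Field F]

/-- An element of the symplectic group as an additive equivalence. -/
noncomputable def gEq (g : symplecticGroup l F) : (l ⊕ l → F) ≃+ (l ⊕ l → F) where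
  toFun := fun x => (g : Matrix (l ⊕ l) (l ⊕ l) F) *ᵥ x
  invFun := fun x => ((g⁻¹ : symplecticGroup l F) : Matrix (l ⊕ l) (l ⊕ l) F) *ᵥ x
  left_inv := inv_mulVec_mulVec g
  right_inv := mulVec_inv_mulVec g
  map_add' := Matrix.mulVec_add _

theorem gEq_apply (g : symplecticGroup l F) (x : l ⊕ l → F) :
    gEq g x = (g : Matrix (l ⊕ l) (l ⊕ l) F) *ᵥ x := rfl

theorem inv_fix {g : symplecticGroup l F} {v : l ⊕ l → F}
    (h : (g : Matrix (l ⊕ l) (l ⊕ l) F) *ᵥ v = v) :
    ((g⁻¹ : symplecticGroup l F) : Matrix (l ⊕ l) (l ⊕ l) F) *ᵥ v = v := by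
  conv_lhs => rw [← h]
  rw [inv_mulVec_mulVec]

variable [Fintype F] (hF : Fintype.card F = 2)

include hF

theorem tv_cases {Z : Type*} [MulAction (symplecticGroup l F) Z] {v : l ⊕ l → F} {z : Z}
    (h : tv v (1 : F) • z = z) (c : F) : tv v c • z = z := by
  rcases zero_or_one hF c with rfl | rfl
  · rw [tv_zero, one_smul]
  · exact h

theorem core {Z : Type*} [MulAction (symplecticGroup l F) Z] (S : Set Z) [Finite S]
    {v : l ⊕ l → F} (hv : v ≠ 0)
    (hS : ∀ g : symplecticGroup l F, (g : Matrix (l ⊕ l) (l ⊕ l) F) *ᵥ v = v → ∀ z ∈ S, g • z ∈ S)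
    (ht : ∀ z ∈ S, tv v (1 : F) • z = z)
    {w : l ⊕ l → F} (hw : sf v w = 0) {z : Z} (hz : z ∈ S) (hne : rr v w • z ≠ z) :
    2 ^ (2 * Fintype.card l) ≤ 4 * Nat.card S := by
  classical
  have h2 := two_zero hF
  obtain ⟨ψ, hψ⟩ := exists_addChar (F := F)
  have hrrv : ∀ b : l ⊕ l → F, sf v b = 0 → (rr v b : Matrix (l ⊕ l) (l ⊕ l) F) *ᵥ v = v := by
    intro b hb
    rw [rr_mulVec h2 hb, hb, sf_self]; simp
  let act : (l ⊕ l → F) → S → S := fun b y =>
    if h : sf v b = 0 then ⟨rr v b • (y : Z), hS _ (hrrv b h) _ y.2⟩ else y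
  have hact : ∀ b (y : S), sf v b = 0 → (act b y : Z) = rr v b • (y : Z) := by
    intro b y hb
    simp only [act, dif_pos hb]
  have key := card_ge_of_trans (ψ := ψ) (B := sfB l F) (Y := S) (P v) (AddSubgroup.zmultiples v) act hψ
    (nd (l := l) hF) (psi_symm hF hψ) ?_ ?_ (dp_P hF hψ v) ?_ ?_ ?_ ?_
  · have h1 := card_P hF hv
    have h3 : Nat.card (l ⊕ l → F) = 2 ^ (2 * Fintype.card l) := by
      rw [Nat.card_eq_fintype_card, Fintype.card_fun, hF, Fintype.card_sum]
      ring_nf
    rw [h3] at key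
    have h4 : 0 < Nat.card (P v) := Nat.card_pos
    nlinarith
  · intro y
    apply Subtype.ext
    rw [hact _ _ (sf_zero_right v), rr_zero v h2, one_smul]
  · intro b hb b' hb' y
    have hbb : sf v (b + b') = 0 := by
      rw [sf_add_right, show sf v b = 0 from hb, show sf v b' = 0 from hb', add_zero]
    apply Subtype.ext
    rw [hact _ _ hbb, hact _ _ hb, hact _ _ hb', rr_add h2 hb hb', mul_smul, mul_smul,
      tv_cases hF (ht _ y.2)]
  · intro b hb
    rcases (mem_zm hF).1 hb with rfl | rfl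
    · exact zero_mem _
    · exact sf_self _
  · intro b hb y
    apply Subtype.ext
    rcases (mem_zm hF).1 hb with rfl | rfl
    · rw [hact _ _ (sf_zero_right v), rr_zero v h2, one_smul]
    · rw [hact _ _ (sf_self b), rr_self b h2, one_smul]
  · intro x x' hx hxK hx' hxK'
    rw [mem_zm hF, not_or] at hxK hxK'
    obtain ⟨g, hgv, hgx⟩ := exists_fix_move hF hv hx hxK.1 hxK.2 hx' hxK'.1 hxK'.2
    refine ⟨{ toFun := fun y => ⟨g • (y : Z), hS g hgv _ y.2⟩
              invFun := fun y => ⟨g⁻¹ • (y : Z), hS g⁻¹ (inv_fix hgv) _ y.2⟩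
              left_inv := fun y => Subtype.ext (inv_smul_smul g (y : Z))
              right_inv := fun y => Subtype.ext (smul_inv_smul g (y : Z)) }, gEq g, ?_, ?_, ?_, hgx⟩
    · intro b
      rw [mem_P, mem_P, gEq_apply]
      conv_rhs => rw [← hgv]
      rw [sf_mulVec]
    · intro b hb y
      apply Subtype.ext
      have hb' : sf v (gEq g b) = 0 := by
        rw [gEq_apply]
        conv_lhs => rw [← hgv]
        rw [sf_mulVec]; exact hb
      change g • (act b y : Z) = _
      rw [hact _ _ hb, hact _ _ hb']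
      change g • rr v b • (y : Z) = rr v (gEq g b) • g • (y : Z)
      rw [smul_smul, smul_smul]
      congr 1
      have := rr_conj h2 g hb
      rw [hgv] at this
      rw [gEq_apply, ← this]; group
    · intro z w
      exact sf_mulVec g z w
  · exact ⟨w, hw, ⟨z, hz⟩, fun h => hne (by rw [← hact w ⟨z, hz⟩ hw, h])⟩

theorem tv_sq (v : l ⊕ l → F) : tv v (1 : F) * tv v 1 = 1 := by
  rw [← tv_add]
  have : (1 : F) + 1 = 0 := by linear_combination two_zero hF
  rw [this, tv_zero]

/-- Step A. -/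
theorem stepA {Z : Type*} [MulAction (symplecticGroup l F) Z] [Finite Z]
    (hn : 2 * Nat.card Z < 2 ^ (2 * Fintype.card l)) {v : l ⊕ l → F} (hv : v ≠ 0) {ω : Z}
    (hω : tv v (1 : F) • ω ≠ ω) {w : l ⊕ l → F} (hw : sf v w = 0) :
    rr v w • ω = ω ∨ rr v w • ω = tv v (1 : F) • ω := by
  classical
  have h2 := two_zero hF
  by_contra hcon
  push Not at hcon
  let S : Set (Set Z) := {s | ∃ ω : Z, tv v (1 : F) • ω ≠ ω ∧ s = {ω, tv v (1 : F) • ω}}
  have htt : ∀ ω : Z, tv v (1 : F) • tv v (1 : F) • ω = ω := by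
    intro ω; rw [smul_smul, tv_sq hF, one_smul]
  have hcomm : ∀ g : symplecticGroup l F, (g : Matrix (l ⊕ l) (l ⊕ l) F) *ᵥ v = v →
      ∀ ω : Z, g • tv v (1 : F) • ω = tv v (1 : F) • g • ω := by
    intro g hg ω
    rw [smul_smul, smul_smul]
    have := tv_conj g v 1
    rw [hg, mul_inv_eq_iff_eq_mul] at this
    rw [this]
  have hSg : ∀ g : symplecticGroup l F, (g : Matrix (l ⊕ l) (l ⊕ l) F) *ᵥ v = v →
      ∀ z ∈ S, g • z ∈ S := by
    rintro g hg _ ⟨ω, hω, rfl⟩
    refine ⟨g • ω, ?_, ?_⟩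
    · intro h
      apply hω
      rw [← hcomm g hg] at h
      exact smul_left_cancel g h
    · rw [Set.smul_set_insert, Set.smul_set_singleton, hcomm g hg]
  have hrrv : ∀ b : l ⊕ l → F, sf v b = 0 → (rr v b : Matrix (l ⊕ l) (l ⊕ l) F) *ᵥ v = v := by
    intro b hb
    rw [rr_mulVec h2 hb, hb, sf_self]; simp
  have h1 := core hF S hv hSg (by
    rintro _ ⟨ω, hω, rfl⟩
    rw [Set.smul_set_insert, Set.smul_set_singleton, htt, Set.pair_comm]) hw
    (z := {ω, tv v (1 : F) • ω}) ⟨ω, hω, rfl⟩ (by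
      intro h
      rw [Set.smul_set_insert, Set.smul_set_singleton] at h
      have : rr v w • ω ∈ ({ω, tv v (1 : F) • ω} : Set Z) := by
        rw [← h]; exact Set.mem_insert _ _
      rcases this with h3 | h3
      · exact hcon.1 h3
      · exact hcon.2 h3)
  -- `2 |S| ≤ |Z|`
  have h3 : 2 * Nat.card S ≤ Nat.card Z := by
    have hc : ∀ s : S, ∃ ω : Z, tv v (1 : F) • ω ≠ ω ∧ (s : Set Z) = {ω, tv v (1 : F) • ω} := fun s => s.2
    choose f hf1 hf2 using hc
    let k : S × Bool → Z := fun p => if p.2 then f p.1 else tv v (1 : F) • f p.1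
    have hk : Function.Injective k := by
      have hsame : ∀ s s' : S, f s = f s' → s = s' := by
        intro s s' h
        apply Subtype.ext
        rw [hf2 s, hf2 s', h]
      have hother : ∀ s s' : S, f s ≠ tv v (1 : F) • f s' := by
        intro s s' h
        have : s = s' := by
          apply Subtype.ext
          rw [hf2 s, hf2 s', h, htt, Set.pair_comm]
        subst this
        exact hf1 s h.symm
      rintro ⟨s, b⟩ ⟨s', b'⟩ h
      cases b <;> cases b' <;> simp only [k] at h
      · have := hsame s s' (smul_left_cancel (tv v (1 : F)) (by simpa using h))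
        rw [this]
      · exact absurd (by simpa using h.symm) (hother s' s)
      · exact absurd (by simpa using h) (hother s s')
      · have := hsame s s' (by simpa using h)
        rw [this]
    have := Nat.card_le_card_of_injective k hk
    rw [Nat.card_prod, Nat.card_eq_fintype_card (α := Bool), Fintype.card_bool] at this
    omega
  omega

end Cfsg.Agent.Mdx.Sp2
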