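import Cfsg.Agent.Mdx.Sp2c
import Cfsg.Agent.Mdx.Gauss

/-!
Permutation representations of the symplectic groups over the field with two elements: points
moved by a transvection.
-/

set_option autoImplicit false

namespace Cfsg.Agent.Mdx.Sp2

open Matrix Cfsg.Agent.ClassSp

variable {l : Type*} [Fintype l] [DecidableEq l] {F : Type*} [Field F]

variable {Z : Type*} [MulAction (symplecticGroup l F) Z]

open Classical in
/-- The quadratic form attached to a point moved by `tv v 1`. -/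
noncomputable def ph (v : l ⊕ l → F) (ω : Z) (w : l ⊕ l → F) : F :=
  if rr v w • ω = ω then 0 else 1

variable [Fintype F] (hF : Fintype.card F = 2)

include hF

theorem ph_spec [Finite Z] (hn : 2 * Nat.card Z < 2 ^ (2 * Fintype.card l)) {v : l ⊕ l → F}
    (hv : v ≠ 0) {ω : Z} (hω : tv v (1 : F) • ω ≠ ω) {w : l ⊕ l → F} (hw : sf v w = 0) :
    rr v w • ω = tv v (ph v ω w) • ω := by
  rcases stepA hF hn hv hω hw with h | h
  · rw [ph, if_pos h, tv_zero, one_smul, h]
  · rw [ph, if_neg (by rw [h]; exact hω), h]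

theorem ph_eq {v : l ⊕ l → F} {ω : Z} (hω : tv v (1 : F) • ω ≠ ω) {w : l ⊕ l → F} {c : F}
    (h : rr v w • ω = tv v c • ω) : ph v ω w = c := by
  rcases zero_or_one hF c with rfl | rfl
  · rw [tv_zero, one_smul] at h
    rw [ph, if_pos h]
  · rw [ph, if_neg (by rw [h]; exact hω)]

theorem ph_add [Finite Z] (hn : 2 * Nat.card Z < 2 ^ (2 * Fintype.card l)) {v : l ⊕ l → F}
    (hv : v ≠ 0) {ω : Z} (hω : tv v (1 : F) • ω ≠ ω) {w w' : l ⊕ l → F} (hw : sf v w = 0)
    (hw' : sf v w' = 0) : ph v ω (w + w') = ph v ω w + ph v ω w' + sf w w' := by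
  have h2 := two_zero hF
  apply ph_eq hF hω
  have h3 : rr v (w + w') = tv v (sf w w') * (rr v w * rr v w') := by
    rw [rr_add h2 hw hw', mul_assoc, rr_tv_comm h2 hw', ← mul_assoc, rr_tv_comm h2 hw, mul_assoc]
  rw [h3, mul_smul, mul_smul, ph_spec hF hn hv hω hw', ← mul_smul (rr v w), rr_tv_comm h2 hw, mul_smul,
    ph_spec hF hn hv hω hw, ← mul_smul, ← mul_smul, ← tv_add, ← tv_add]
  congr 2
  ring

omit [Fintype F] hF in
theorem ph_conj (h2 : (2 : F) = 0) (g : symplecticGroup l F) {v w : l ⊕ l → F} (hw : sf v w = 0) (ω : Z) :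
    ph ((g : Matrix (l ⊕ l) (l ⊕ l) F) *ᵥ v) (g • ω) ((g : Matrix (l ⊕ l) (l ⊕ l) F) *ᵥ w) =
      ph v ω w := by
  have : rr ((g : Matrix (l ⊕ l) (l ⊕ l) F) *ᵥ v) ((g : Matrix (l ⊕ l) (l ⊕ l) F) *ᵥ w) • g • ω =
      g • rr v w • ω := by
    rw [← rr_conj h2 g hw, smul_smul, smul_smul]
    congr 1; group
  rw [ph, ph, this]
  by_cases h : rr v w • ω = ω
  · rw [if_pos h, if_pos (by rw [h])]
  · rw [if_neg h, if_neg (fun h' => h (smul_left_cancel g h'))]

omit [Fintype F] hF in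
theorem ph_zero (h2 : (2 : F) = 0) (v : l ⊕ l → F) (ω : Z) : ph v ω (0 : l ⊕ l → F) = 0 := by
  rw [ph, if_pos (by rw [rr_zero v h2, one_smul])]

omit [Fintype F] hF in
theorem ph_self (h2 : (2 : F) = 0) (v : l ⊕ l → F) (ω : Z) : ph v ω v = 0 := by
  rw [ph, if_pos (by rw [rr_self v h2, one_smul])]

theorem tv_tv_mulVec (u w : l ⊕ l → F) : (tv u (1 : F) : Matrix (l ⊕ l) (l ⊕ l) F) *ᵥ
    ((tv u (1 : F) : Matrix (l ⊕ l) (l ⊕ l) F) *ᵥ w) = w := by
  rw [← mul_mulVec, tv_sq hF, one_mulVec']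

theorem ph_tv [Finite Z] (hn : 2 * Nat.card Z < 2 ^ (2 * Fintype.card l)) {v : l ⊕ l → F}
    (hv : v ≠ 0) {ω : Z} (hω : tv v (1 : F) • ω ≠ ω) {u w : l ⊕ l → F} (hu : sf v u = 0)
    (hpu : ph v ω u = 0) (hw : sf v w = 0) :
    ph v (tv u (1 : F) • ω) w = ph v ω w + sf w u := by
  have h2 := two_zero hF
  have hgv : (tv u (1 : F) : Matrix (l ⊕ l) (l ⊕ l) F) *ᵥ v = v := by
    rw [tv_mulVec, hu]; simp
  have hw' : sf v ((tv u (1 : F) : Matrix (l ⊕ l) (l ⊕ l) F) *ᵥ w) = 0 := by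
    conv_lhs => rw [← hgv]
    rw [sf_mulVec, hw]
  have h1 := ph_conj h2 (tv u (1 : F)) hw' ω
  rw [tv_tv_mulVec hF, hgv] at h1
  rw [h1, tv_mulVec, one_mul]
  rcases zero_or_one hF (sf w u) with h | h
  · rw [h, zero_smul, add_zero, add_zero]
  · rw [h, one_smul, ph_add hF hn hv hω hw hu, hpu, h, add_zero]

/-- Lower bound for the number of points moved by a transvection. -/
theorem card_moved [Finite Z] (hn : 2 * Nat.card Z < 2 ^ (2 * Fintype.card l)) {v : l ⊕ l → F}
    (hv : v ≠ 0) {ω : Z} (hω : tv v (1 : F) • ω ≠ ω) :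
    2 ^ (2 * Fintype.card l) ≤ 4 * Nat.card {z : Z // tv v (1 : F) • z ≠ z} + 2 * 2 ^ Fintype.card l := by
  classical
  have h2 := two_zero hF
  have h01 := zero_or_one hF
  have : Fintype (P v) := Fintype.ofFinite _
  let q : P v → F := fun w => ph v ω (w : l ⊕ l → F)
  let β : P v → P v → F := fun w w' => sf (w : l ⊕ l → F) w'
  have hG := gauss_sq h01 h2 q β (fun x y => ph_add hF hn hv hω x.2 y.2)
    (fun x y z => sf_add_left _ _ _)
  have hR : Finset.univ.filter (fun d : P v => ∀ w, β w d = 0) =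
      {(0 : P v), ⟨v, sf_self v⟩} := by
    ext d
    rw [Finset.mem_filter, Finset.mem_insert, Finset.mem_singleton]
    obtain ⟨ψ, hψ⟩ := exists_addChar (F := F)
    have h3 : (∀ w : P v, β w d = 0) ↔ (d : l ⊕ l → F) ∈ dp ψ (sfB l F) (P v) := by
      rw [mem_dp2 hF hψ]
      constructor
      · intro h b hb
        rw [sf_comm h2]; exact h ⟨b, hb⟩
      · intro h w
        have := h w w.2
        change sf (w : l ⊕ l → F) d = 0
        rw [sf_comm h2]; exact this
    rw [h3, dp_P hF hψ, mem_zm hF]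
    simp only [Finset.mem_univ, true_and, Subtype.ext_iff]
    rfl
  rw [hR, Finset.sum_pair (by
    intro h
    exact hv (congrArg Subtype.val h).symm)] at hG
  have e1 : q (0 : P v) = 0 := ph_zero h2 v ω
  have e2 : q (⟨v, sf_self v⟩ : P v) = 0 := ph_self h2 v ω
  rw [e1, e2, eps_zero] at hG
  have hcard := card_zeros q
  have hcP := card_P hF hv
  rw [Nat.card_eq_fintype_card] at hcP
  -- injection
  let f : {u : P v // q u = 0} → {z : Z // tv v (1 : F) • z ≠ z} := fun u =>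
    ⟨tv (u.1 : l ⊕ l → F) (1 : F) • ω, by
      intro h
      rw [← mul_smul, tv_tv_comm (show sf v (u.1 : l ⊕ l → F) = 0 from u.1.2), mul_smul] at h
      exact hω (smul_left_cancel _ h)⟩
  have hf : Function.Injective f := by
    intro u u' h
    have h3 : tv (u.1 : l ⊕ l → F) (1 : F) • ω = tv (u'.1 : l ⊕ l → F) (1 : F) • ω :=
      congrArg Subtype.val h
    have hu : sf v (u.1 : l ⊕ l → F) = 0 := u.1.2
    have hu' : sf v (u'.1 : l ⊕ l → F) = 0 := u'.1.2
    have h4 : ∀ w, sf v w = 0 → sf w (u.1 : l ⊕ l → F) = sf w (u'.1 : l ⊕ l → F) := by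
      intro w hw
      have e3 := ph_tv hF hn hv hω hu u.2 hw
      have e4 := ph_tv hF hn hv hω hu' u'.2 hw
      rw [h3, e4] at e3
      exact (add_left_cancel e3).symm
    obtain ⟨ψ, hψ⟩ := exists_addChar (F := F)
    have h5 : (u.1 : l ⊕ l → F) - u'.1 ∈ dp ψ (sfB l F) (P v) := by
      rw [mem_dp2 hF hψ]
      intro b hb
      rw [sf_comm h2, sf_sub_right, h4 b hb, sub_self]
    rw [dp_P hF hψ, mem_zm hF] at h5
    rcases h5 with h5 | h5
    · exact Subtype.ext (Subtype.ext (sub_eq_zero.1 h5))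
    · exfalso
      have h6 : (u'.1 : l ⊕ l → F) = v + u.1 := by
        have h7 := add_self_vec hF v
        linear_combination (norm := module) -h5 - h7
      have h7 : rr v (u.1 : l ⊕ l → F) • ω = ω := by
        have := ph_spec hF hn hv hω hu
        rw [show ph v ω (u.1 : l ⊕ l → F) = 0 from u.2, tv_zero, one_smul] at this
        exact this
      rw [rr_eq, ← h6, mul_smul, mul_smul, h3] at h7
      have h8 : tv (u'.1 : l ⊕ l → F) (1 : F) • ω = tv v (1 : F) • tv (u'.1 : l ⊕ l → F) (1 : F) • ω := by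
        conv_lhs => rw [← h7]
        rw [← mul_smul, tv_sq hF, one_smul]
      exact (f u').2 h8.symm
  have hinj := Nat.card_le_card_of_injective f hf
  have hz : Nat.card {u : P v // q u = 0} = (Finset.univ.filter fun x : P v => q x = 0).card := by
    rw [Nat.card_eq_fintype_card, Fintype.card_subtype]
  rw [hz] at hinj
  set S := ∑ x : P v, eps (q x) with hS
  set c := (Finset.univ.filter fun x : P v => q x = 0).card with hc
  set p := Fintype.card (P v) with hp
  set M := Nat.card {z : Z // tv v (1 : F) • z ≠ z} with hM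
  have hp2 : (2 * p : ℤ) = (2 ^ Fintype.card l) ^ 2 := by
    have : ((2 * p : ℕ) : ℤ) = ((2 ^ (2 * Fintype.card l) : ℕ) : ℤ) := by rw [hcP]
    push_cast at this
    rw [this]; ring
  have hS2 : S ^ 2 = (2 ^ Fintype.card l) ^ 2 := by
    rw [hG]; linarith
  have hS3 : -(2 ^ Fintype.card l : ℤ) ≤ S := by
    have := abs_le_of_sq_le_sq' hS2.le (by positivity)
    exact this.1
  have h9 : (c : ℤ) ≤ M := by exact_mod_cast hinj
  have h10 : ((2 : ℤ) ^ Fintype.card l) ^ 2 ≤ 4 * M + 2 * 2 ^ Fintype.card l := by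
    linarith
  have h11 : (2 : ℤ) ^ (2 * Fintype.card l) = ((2 : ℤ) ^ Fintype.card l) ^ 2 := by ring
  rw [← h11] at h10
  exact_mod_cast h10

end Cfsg.Agent.Mdx.Sp2
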