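import Cfsg.Agent.Mdx.Sp2d

/-!
Permutation representations of the symplectic groups over the field with two elements: the minimal
degree.
-/

set_option autoImplicit false

namespace Cfsg.Agent.Mdx.Sp2

open Matrix Cfsg.Agent.ClassSp

variable {l : Type*} [Fintype l] [DecidableEq l] {F : Type*} [Field F]

theorem exists_nonorth [Fintype F] (hF : Fintype.card F = 2) (hL : 3 ≤ Fintype.card l)
    {u v z : l ⊕ l → F} (huv : sf u v = 1) (hzu : sf z u = 0) (hzv : sf z v = 0) :
    ∃ w w' : l ⊕ l → F, sf w w' ≠ 0 ∧ (sf u w = 0 ∧ sf v w = 0 ∧ sf z w = 0) ∧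
      (sf u w' = 0 ∧ sf v w' = 0 ∧ sf z w' = 0) := by
  classical
  have h2 := two_zero hF
  by_contra hcon
  push Not at hcon
  obtain ⟨ψ, hψ⟩ := exists_addChar (F := F)
  let X : AddSubgroup (l ⊕ l → F) := P u ⊓ P v ⊓ P z
  let A0 : AddSubgroup (l ⊕ l → F) := (Submodule.span F {u, v, z}).toAddSubgroup
  have hX : dp ψ (sfB l F) A0 = X := by
    ext y
    rw [mem_dp2 hF hψ]
    constructor
    · intro h
      refine ⟨⟨?_, ?_⟩, ?_⟩
      · change sf u y = 0
        rw [sf_comm h2]
        exact h u (Submodule.subset_span (by simp))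
      · change sf v y = 0
        rw [sf_comm h2]
        exact h v (Submodule.subset_span (by simp))
      · change sf z y = 0
        rw [sf_comm h2]
        exact h z (Submodule.subset_span (by simp))
    · rintro ⟨⟨hu, hv⟩, hz⟩ b hb
      obtain ⟨a, b', c, rfl⟩ := Submodule.mem_span_triple.1 hb
      rw [sf_comm h2]
      simp only [sf_add_left, sf_smul_left]
      rw [show sf u y = 0 from hu, show sf v y = 0 from hv, show sf z y = 0 from hz]
      ring
  have hX2 : X ≤ A0 := by
    have : X ≤ dp ψ (sfB l F) X := by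
      intro w hw
      rw [mem_dp2 hF hψ]
      intro w' hw'
      by_contra h
      exact hcon w w' h ⟨hw.1.1, hw.1.2, hw.2⟩ hw'.1.1 hw'.1.2 hw'.2
    refine this.trans ?_
    rw [← hX, dp_dp hψ (nd (l := l) hF) (psi_symm hF hψ)]
  have hX3 : X ≤ AddSubgroup.zmultiples z := by
    intro w hw
    obtain ⟨a, b, c, rfl⟩ := Submodule.mem_span_triple.1 (hX2 hw)
    have h3 : sf u (a • u + b • v + c • z) = 0 := hw.1.1
    have h4 : sf v (a • u + b • v + c • z) = 0 := hw.1.2
    simp only [sf_add_right, sf_smul_right, sf_self, huv, sf_comm h2 u z, sf_comm h2 v z,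
      sf_comm h2 v u, hzu, hzv] at h3 h4
    have hb : b = 0 := by linear_combination h3
    have ha : a = 0 := by linear_combination h4
    rw [ha, hb, zero_smul, zero_smul, zero_add, zero_add, mem_zm hF]
    rcases zero_or_one hF c with rfl | rfl
    · left; rw [zero_smul]
    · right; rw [one_smul]
  have hc1 : Nat.card X ≤ 2 := by
    refine (Nat.card_le_card_of_injective _ (AddSubgroup.inclusion_injective hX3)).trans ?_
    by_cases hz : z = 0
    · subst hz
      rw [AddSubgroup.zmultiples_zero_eq_bot, AddSubgroup.card_bot]; norm_num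
    · rw [card_zm hF hz]
  have hc2 : Nat.card A0 ≤ 8 := by
    have hsurj : Function.Surjective (fun p : F × F × F =>
        (⟨p.1 • u + p.2.1 • v + p.2.2 • z, Submodule.mem_span_triple.2 ⟨_, _, _, rfl⟩⟩ : A0)) := by
      rintro ⟨x, hx⟩
      obtain ⟨a, b, c, rfl⟩ := Submodule.mem_span_triple.1 hx
      exact ⟨(a, b, c), rfl⟩
    refine (Nat.card_le_card_of_surjective _ hsurj).trans ?_
    rw [Nat.card_prod, Nat.card_prod, Nat.card_eq_fintype_card, hF]
  have hc3 := card_mul_card_dp hψ (nd (l := l) hF) A0
  rw [hX, Nat.card_eq_fintype_card (α := l ⊕ l → F), Fintype.card_fun, hF, Fintype.card_sum] at hc3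
  have hc4 : Nat.card A0 * Nat.card X ≤ 8 * 2 := Nat.mul_le_mul hc2 hc1
  have hc5 : 2 ^ 6 ≤ 2 ^ (Fintype.card l + Fintype.card l) :=
    Nat.pow_le_pow_right (by norm_num) (by omega)
  omega

variable {Z : Type*} [MulAction (symplecticGroup l F) Z]

theorem smul_eq_of_forall_tv {ω : Z} (h : ∀ x : l ⊕ l → F, ∀ c : F, tv x c • ω = ω)
    (g : symplecticGroup l F) : g • ω = ω := by
  have h1 : tvGroup l F ≤ MulAction.stabilizer (symplecticGroup l F) ω := by
    rw [tvGroup, Subgroup.closure_le]
    rintro _ ⟨w, c, rfl⟩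
    exact h w c
  rw [tvGroup_eq_top] at h1
  exact h1 (Subgroup.mem_top g)

variable [Fintype F] (hF : Fintype.card F = 2)

include hF

theorem false_of_fixed [Finite Z] [Nontrivial Z] [MulAction.IsPretransitive (symplecticGroup l F) Z]
    {ω : Z} (h : ∀ x : l ⊕ l → F, tv x (1 : F) • ω = ω) : False := by
  have h1 := smul_eq_of_forall_tv (ω := ω) (fun x c => tv_cases hF (h x) c)
  obtain ⟨ω', hω'⟩ := exists_ne ω
  obtain ⟨g, hg⟩ := MulAction.exists_smul_eq (symplecticGroup l F) ω ω'
  exact hω' (by rw [← hg, h1])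

theorem exists_moved [Finite Z] [Nontrivial Z] [MulAction.IsPretransitive (symplecticGroup l F) Z]
    {v : l ⊕ l → F} (hv : v ≠ 0) : ∃ ω : Z, tv v (1 : F) • ω ≠ ω := by
  by_contra hcon
  push Not at hcon
  obtain ⟨ω⟩ : Nonempty Z := inferInstance
  refine false_of_fixed (l := l) hF (ω := ω) fun x => ?_
  by_cases hx : x = 0
  · subst hx
    have : tv (0 : l ⊕ l → F) (1 : F) = 1 := by
      apply ext_vec; intro y; rw [tv_mulVec, one_mulVec', smul_zero, add_zero]
    rw [this, one_smul]
  obtain ⟨g, _, hg⟩ := exists_mem_tvGroup hv hx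
  rw [← hg, ← tv_conj, mul_smul, mul_smul, hcon, smul_inv_smul]

/-- Lower bound for the degree of a non-trivial transitive permutation representation. -/
theorem card_ge [Finite Z] [Nontrivial Z] [MulAction.IsPretransitive (symplecticGroup l F) Z]
    (hL : 3 ≤ Fintype.card l) :
    2 ^ (2 * Fintype.card l) ≤ 2 * Nat.card Z + 2 ^ Fintype.card l := by
  classical
  have h2 := two_zero hF
  by_contra hcon
  push Not at hcon
  have hn : 2 * Nat.card Z < 2 ^ (2 * Fintype.card l) := lt_of_le_of_lt (Nat.le_add_right _ _) hcon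
  have := Fintype.ofFinite Z
  -- fixed points of transvections are fixed by all of `Q`
  have hC : ∀ v : l ⊕ l → F, v ≠ 0 → ∀ ω : Z, tv v (1 : F) • ω = ω → ∀ w, sf v w = 0 →
      rr v w • ω = ω := by
    intro v hv ω hω w hw
    by_contra hne
    obtain ⟨ω', hω'⟩ := exists_moved (Z := Z) hF hv
    have h3 := card_moved hF hn hv hω'
    have h4 := core hF {z : Z | tv v (1 : F) • z = z} hv (by
      intro g hg z hz
      change tv v (1 : F) • g • z = g • z
      have h5 := tv_conj g v 1
      rw [hg, mul_inv_eq_iff_eq_mul] at h5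
      rw [smul_smul, ← h5, mul_smul]
      rw [show tv v (1 : F) • z = z from hz]) (fun z hz => hz) hw hω hne
    have h6 : Nat.card {z : Z // tv v (1 : F) • z ≠ z} + Nat.card {z : Z | tv v (1 : F) • z = z} =
        Nat.card Z := by
      have h7 := Fintype.card_subtype_compl (fun z : Z => tv v (1 : F) • z = z)
      have h8 := Fintype.card_subtype_le (fun z : Z => tv v (1 : F) • z = z)
      rw [Nat.card_eq_fintype_card, Nat.card_eq_fintype_card, Nat.card_eq_fintype_card]
      have h9 : Fintype.card {z : Z // tv v (1 : F) • z ≠ z} =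
        Fintype.card {z : Z // ¬ tv v (1 : F) • z = z} := rfl
      have h10 : Fintype.card ({z : Z | tv v (1 : F) • z = z} : Set Z) =
        Fintype.card {z : Z // tv v (1 : F) • z = z} := rfl
      rw [h9, h10]
      omega
    omega
  by_cases hD : ∃ v : l ⊕ l → F, v ≠ 0 ∧ ∃ ω : Z, tv v (1 : F) • ω = ω
  · obtain ⟨v, hv, ω, hω⟩ := hD
    -- stability of the set of fixing vectors
    have hstab : ∀ (g : symplecticGroup l F), g • ω = ω → ∀ x : l ⊕ l → F, tv x (1 : F) • ω = ω →
        tv ((g : Matrix (l ⊕ l) (l ⊕ l) F) *ᵥ x) (1 : F) • ω = ω := by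
      intro g hg x hx
      have hg' : g⁻¹ • ω = ω := by rw [inv_smul_eq_iff, hg]
      rw [← tv_conj, mul_smul, mul_smul, hg', hx, hg]
    have hD1 : ∀ a b : l ⊕ l → F, tv a (1 : F) • ω = ω → tv b (1 : F) • ω = ω → sf a b = 0 := by
      intro a b ha hb
      by_contra hab
      have hab1 : sf a b = 1 := eq_one_of_ne hF hab
      have ha0 : a ≠ 0 := by rintro rfl; exact hab (sf_zero_left b)
      have h3 : ∀ x, sf a x = 1 → tv x (1 : F) • ω = ω := by
        intro x hx
        have h4 : ∀ c : F, tv (x + c • a) (1 : F) • ω = ω → tv x (1 : F) • ω = ω := by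
          intro c hc
          rcases zero_or_one hF c with rfl | rfl
          · rwa [zero_smul, add_zero] at hc
          · have := hstab _ ha _ hc
            rw [tv_mulVec, one_smul, sf_add_left, sf_self, sf_comm h2 x a, hx] at this
            have e : x + a + ((1 : F) * (1 + 0)) • a = x := by
              linear_combination (norm := module) h2 • a
            rwa [e] at this
        refine h4 (sf b x) ?_
        have hw : sf a (x + b) = 0 := by
          rw [sf_add_right, hx, hab1]; linear_combination h2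
        have := hstab _ (hC a ha0 ω ha _ hw) _ hb
        rw [rr_mulVec h2 hw, sf_comm h2 b a, hab1, sf_add_right, sf_self, add_zero, one_smul] at this
        have e : b + sf b x • a + (x + b) = x + sf b x • a := by
          linear_combination (norm := module) h2 • b
        rwa [e] at this
      refine false_of_fixed (l := l) hF (ω := ω) fun y => ?_
      rcases zero_or_one hF (sf a y) with hy | hy
      · by_cases hy0 : y = 0
        · subst hy0
          have : tv (0 : l ⊕ l → F) (1 : F) = 1 := by
            apply ext_vec; intro y; rw [tv_mulVec, one_mulVec', smul_zero, add_zero]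
          rw [this, one_smul]
        by_cases hya : y = a
        · rw [hya]; exact ha
        -- `x` with `sf a x = 1 = sf y x`
        obtain ⟨x, hx1, hx2⟩ : ∃ x, sf a x = 1 ∧ sf y x = 1 := by
          obtain ⟨p, hp1, hp2⟩ := exists_perp_not_perp (x := a) (y := y) ha0 (by
            rintro ⟨c, rfl⟩
            rcases zero_or_one hF c with rfl | rfl
            · exact hy0 (zero_smul _ _)
            · exact hya (one_smul _ _))
          rcases zero_or_one hF (sf y b) with h5 | h5
          · exact ⟨b + p, by rw [sf_add_right, hab1, hp1, add_zero], by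
              rw [sf_add_right, h5, eq_one_of_ne hF hp2, zero_add]⟩
          · exact ⟨b, hab1, h5⟩
        have h6 := hstab _ (h3 x hx1) (x + y) (h3 (x + y) (by rw [sf_add_right, hx1, hy, add_zero]))
        rw [tv_mulVec, sf_add_left, sf_self, hx2] at h6
        have e : x + y + ((1 : F) * (0 + 1)) • x = y := by
          linear_combination (norm := module) h2 • x
        rwa [e] at h6
      · exact h3 y hy
    obtain ⟨u, hu⟩ := exists_sf_ne_zero hv
    have huv : sf u v = 1 := eq_one_of_ne hF hu
    -- a vector outside `D`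
    obtain ⟨z, hz0, hzu, hzv, hzD⟩ : ∃ z : l ⊕ l → F, z ≠ 0 ∧ sf z u = 0 ∧ sf z v = 0 ∧
        tv z (1 : F) • ω ≠ ω := by
      obtain ⟨w, w', h3, h4, h5⟩ := exists_nonorth hF hL (z := 0) huv (sf_zero_left u) (sf_zero_left v)
      by_contra hall
      push Not at hall
      refine h3 (hD1 w w' (hall w ?_ ?_ ?_) (hall w' ?_ ?_ ?_))
      · rintro rfl; exact h3 (sf_zero_left _)
      · rw [sf_comm h2]; exact h4.1
      · rw [sf_comm h2]; exact h4.2.1
      · rintro rfl; exact h3 (sf_zero_right _)
      · rw [sf_comm h2]; exact h5.1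
      · rw [sf_comm h2]; exact h5.2.1
    have h6 : ∀ w, sf u w = 0 → sf v w = 0 → sf z w = 0 → ph z ω w = 0 := by
      intro w h7 h8 h9
      have h10 := ph_conj h2 (rr v w) hzu ω
      have hz' : (rr v w : Matrix (l ⊕ l) (l ⊕ l) F) *ᵥ z = z := by
        rw [rr_mulVec h2 h8, h9, hzv]; simp
      have hu' : (rr v w : Matrix (l ⊕ l) (l ⊕ l) F) *ᵥ u = u + w := by
        rw [rr_mulVec h2 h8, h7, huv]; simp
      rw [hz', hu', hC v hv ω hω w h8, ph_add hF hn hz0 hzD hzu h9, h7] at h10
      linear_combination h10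
    obtain ⟨w, w', h3, h4, h5⟩ := exists_nonorth hF hL huv hzu hzv
    have h7 := ph_add hF hn hz0 hzD h4.2.2 h5.2.2
    rw [h6 w h4.1 h4.2.1 h4.2.2, h6 w' h5.1 h5.2.1 h5.2.2, h6 (w + w')
      (by rw [sf_add_right, h4.1, h5.1, add_zero]) (by rw [sf_add_right, h4.2.1, h5.2.1, add_zero])
      (by rw [sf_add_right, h4.2.2, h5.2.2, add_zero])] at h7
    apply h3
    linear_combination -h7
  · push Not at hD
    obtain ⟨ω⟩ : Nonempty Z := inferInstance
    have hsym : ∀ a b : l ⊕ l → F, sf a b = 0 → ph a ω b = ph b ω a := by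
      intro a b hab
      rw [ph, ph, rr_comm h2 hab]
    have hadd : ∀ a b b' : l ⊕ l → F, a ≠ 0 → sf a b = 0 → sf a b' = 0 →
        ph a ω (b + b') = ph a ω b + ph a ω b' + sf b b' := by
      intro a b b' ha hb hb'
      exact ph_add hF hn ha (hD a ha ω) hb hb'
    obtain ⟨i, j, k, hij, hik, hjk⟩ : ∃ i j k : l, i ≠ j ∧ i ≠ k ∧ j ≠ k := by
      have := Finset.two_lt_card (s := (Finset.univ : Finset l))
      rw [Finset.card_univ] at this
      obtain ⟨a, _, b, _, c, _, h⟩ := this.1 (by omega)
      exact ⟨a, b, c, h⟩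
    let u : l ⊕ l → F := Pi.single (Sum.inl i) 1
    let u' : l ⊕ l → F := Pi.single (Sum.inr i) 1
    let v : l ⊕ l → F := Pi.single (Sum.inl j) 1
    let v' : l ⊕ l → F := Pi.single (Sum.inl k) 1
    have euu : sf u u' = 1 := by
      simp only [u, u', sf_single_inl_left, Pi.single_eq_same]
    have evv : sf v v' = 0 := by
      simp only [v, v', sf_single_inl_left]; simp
    have euv : sf u v = 0 := by simp only [u, v, sf_single_inl_left]; simp
    have euv' : sf u v' = 0 := by simp only [u, v', sf_single_inl_left]; simp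
    have eu'v : sf u' v = 0 := by
      simp only [u', v, sf_single_inr_left]; simp [hij]
    have eu'v' : sf u' v' = 0 := by
      simp only [u', v', sf_single_inr_left]; simp [hik]
    have hv0 : v ≠ 0 := by simp [v]
    have hv0' : v' ≠ 0 := by simp [v']
    have hu0 : u ≠ 0 := by simp [u]
    have hu0' : u' ≠ 0 := by simp [u']
    have hvv : v + v' ≠ 0 := by
      intro h
      have := congrFun h (Sum.inl j)
      simp [v, v', hjk] at this
    have huu : u + u' ≠ 0 := by
      intro h
      have := congrFun h (Sum.inl i)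
      simp [u, u'] at this
    have evu : ∀ {a b : l ⊕ l → F}, sf a b = 0 → sf b a = 0 := by
      intro a b h; rw [sf_comm h2, h]
    have e1 : ph (u + u') ω (v + v') = ph u ω v + ph u' ω v + ph u ω v' + ph u' ω v' + sf v v' := by
      rw [hadd (u + u') v v' huu (by rw [sf_add_left, euv, eu'v, add_zero])
        (by rw [sf_add_left, euv', eu'v', add_zero])]
      rw [hsym (u + u') v (by rw [sf_add_left, euv, eu'v, add_zero]),
        hsym (u + u') v' (by rw [sf_add_left, euv', eu'v', add_zero]),
        hadd v u u' hv0 (evu euv) (evu eu'v), hadd v' u u' hv0' (evu euv') (evu eu'v'),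
        hsym v u (evu euv), hsym v u' (evu eu'v), hsym v' u (evu euv'), hsym v' u' (evu eu'v')]
      linear_combination (sf u u') * h2
    have e2 : ph (u + u') ω (v + v') = ph u ω v + ph u' ω v + ph u ω v' + ph u' ω v' + sf u u' := by
      have h3 : sf (u + u') (v + v') = 0 := by
        rw [sf_add_left, sf_add_right, sf_add_right, euv, euv', eu'v, eu'v']; ring
      rw [hsym (u + u') (v + v') h3, hadd (v + v') u u' hvv
        (by rw [sf_add_left, evu euv, evu euv', add_zero]) (by rw [sf_add_left, evu eu'v, evu eu'v', add_zero])]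
      rw [hsym (v + v') u (by rw [sf_add_left, evu euv, evu euv', add_zero]),
        hsym (v + v') u' (by rw [sf_add_left, evu eu'v, evu eu'v', add_zero]),
        hadd u v v' hu0 euv euv', hadd u' v v' hu0' eu'v eu'v']
      linear_combination (sf v v') * h2
    rw [e1, evv, euu] at e2
    have : (0 : F) = 1 := by linear_combination e2
    exact zero_ne_one this

end Cfsg.Agent.Mdx.Sp2
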