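import Cfsg.Agent.Mdx.Sp2e

/-!
The stabiliser of a quadratic form in the symplectic group over the field with two elements.
-/

set_option autoImplicit false

namespace Cfsg.Agent.Mdx.Sp2

open Matrix Cfsg.Agent.ClassSp

variable {l : Type*} [Fintype l] [DecidableEq l] {F : Type*} [Field F]

/-- The stabiliser of a function. -/
def stF (q : (l ⊕ l → F) → F) : Subgroup (symplecticGroup l F) where
  carrier := {g | ∀ x, q ((g : Matrix (l ⊕ l) (l ⊕ l) F) *ᵥ x) = q x}
  one_mem' := fun x => by rw [one_mulVec']
  mul_mem' := by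
    intro a b ha hb x
    rw [mul_mulVec, ha, hb]
  inv_mem' := by
    intro a ha x
    rw [← ha, mulVec_inv_mulVec]

theorem mem_stF {q : (l ⊕ l → F) → F} {g : symplecticGroup l F} :
    g ∈ stF q ↔ ∀ x, q ((g : Matrix (l ⊕ l) (l ⊕ l) F) *ᵥ x) = q x := Iff.rfl

/-- The action on functions. -/
@[reducible] def actF (l : Type*) [Fintype l] [DecidableEq l] (F : Type*) [Field F] :
    MulAction (symplecticGroup l F) ((l ⊕ l → F) → F) where
  smul g q := fun x => q (((g⁻¹ : symplecticGroup l F) : Matrix (l ⊕ l) (l ⊕ l) F) *ᵥ x)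
  one_smul q := by
    funext x
    change q (((1⁻¹ : symplecticGroup l F) : Matrix (l ⊕ l) (l ⊕ l) F) *ᵥ x) = q x
    rw [inv_one, one_mulVec']
  mul_smul g h q := by
    funext x
    change q ((((g * h)⁻¹ : symplecticGroup l F) : Matrix (l ⊕ l) (l ⊕ l) F) *ᵥ x) =
      q (((h⁻¹ : symplecticGroup l F) : Matrix (l ⊕ l) (l ⊕ l) F) *ᵥ
        (((g⁻¹ : symplecticGroup l F) : Matrix (l ⊕ l) (l ⊕ l) F) *ᵥ x))
    rw [_root_.mul_inv_rev, mul_mulVec]

variable [Fintype F] (hF : Fintype.card F = 2)

include hF

theorem index_stF {q : (l ⊕ l → F) → F} (hq : ∀ x y, q (x + y) = q x + q y + sf x y) :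
    (stF q).index = Nat.card {u : l ⊕ l → F // q u = 0} := by
  classical
  have h2 := two_zero hF
  let _ := actF l F
  have hsm : ∀ (g : symplecticGroup l F) (p : (l ⊕ l → F) → F) (x : l ⊕ l → F),
    (g • p) x = p (((g⁻¹ : symplecticGroup l F) : Matrix (l ⊕ l) (l ⊕ l) F) *ᵥ x) := fun _ _ _ => rfl
  have hst : stF q = MulAction.stabilizer (symplecticGroup l F) q := by
    ext g
    rw [MulAction.mem_stabilizer_iff]
    constructor
    · intro h
      funext x
      rw [hsm]
      exact (inv_mem h : g⁻¹ ∈ stF q) x
    · intro h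
      have : g⁻¹ ∈ stF q := by
        intro x
        have := congrFun h x
        rwa [hsm] at this
      simpa using inv_mem this
  have hsq : ∀ c : F, c * c = c := by
    intro c
    rcases zero_or_one hF c with rfl | rfl <;> ring
  -- the form attached to `u`
  let fq : (l ⊕ l → F) → (l ⊕ l → F) → F := fun u x => q x + sf x u
  have htv : ∀ (w : l ⊕ l → F) (p : (l ⊕ l → F) → F) (_ : ∀ x y, p (x + y) = p x + p y + sf x y),
      tv w (1 : F) • p = fun x => p x + sf x w * (p w + 1) := by
    intro w p hp
    funext x
    have hinv : (tv w (1 : F))⁻¹ = tv w 1 := by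
      rw [inv_eq_iff_mul_eq_one, tv_sq hF]
    rw [hsm, hinv, tv_mulVec, one_mul]
    rcases zero_or_one hF (sf x w) with h | h
    · rw [h, zero_smul, add_zero]; ring
    · rw [h, one_smul, hp, h]; ring
  have hfq : ∀ u x y : l ⊕ l → F, fq u (x + y) = fq u x + fq u y + sf x y := by
    intro u x y
    simp only [fq]
    rw [hq, sf_add_left]; ring
  have htv2 : ∀ u w : l ⊕ l → F, q u = 0 → ∃ u', q u' = 0 ∧ tv w (1 : F) • fq u = fq u' := by
    intro u w hu
    rw [htv w _ (hfq u)]
    rcases zero_or_one hF (fq u w) with h | h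
    · refine ⟨u + w, ?_, ?_⟩
      · rw [hq, hu, zero_add, sf_comm h2 u w]; exact h
      · funext x
        rw [h]
        simp only [fq]
        rw [sf_add_right]; ring
    · refine ⟨u, hu, ?_⟩
      funext x
      rw [h]
      linear_combination (sf x w) * h2
  have horb : MulAction.orbit (symplecticGroup l F) q = fq '' {u | q u = 0} := by
    apply Set.Subset.antisymm
    · have hstab : ∀ g : symplecticGroup l F, ∀ u : l ⊕ l → F, q u = 0 → ∃ u', q u' = 0 ∧ g • fq u = fq u' := by
        intro g
        have hg : g ∈ tvGroup l F := by rw [tvGroup_eq_top]; exact Subgroup.mem_top g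
        refine Subgroup.closure_induction (p := fun g _ => ∀ u : l ⊕ l → F, q u = 0 → ∃ u', q u' = 0 ∧
          g • fq u = fq u') ?_ ?_ ?_ ?_ hg
        · rintro _ ⟨w, c, rfl⟩ u hu
          rcases zero_or_one hF c with rfl | rfl
          · rw [tv_zero, one_smul]
            exact ⟨u, hu, rfl⟩
          · exact htv2 u w hu
        · intro u hu
          rw [one_smul]; exact ⟨u, hu, rfl⟩
        · intro a b _ _ ha hb u hu
          obtain ⟨u', hu', e⟩ := hb u hu
          obtain ⟨u'', hu'', e'⟩ := ha u' hu'
          exact ⟨u'', hu'', by rw [mul_smul, e, e']⟩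
        · intro a _ ha
          -- injective self-map of a finite set
          have hf : Finite {u : l ⊕ l → F // q u = 0} := inferInstance
          have hinj' : ∀ u u', fq u = fq u' → u = u' := by
            intro u u' h
            have : ∀ x, sf x u = sf x u' := by
              intro x
              have := congrFun h x
              exact add_left_cancel this
            rw [← sub_eq_zero]
            apply eq_zero_of_sf
            intro x
            rw [sf_sub_right, this, sub_self]
          choose f hf1 hf2 using ha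
          let F' : {u : l ⊕ l → F // q u = 0} → {u : l ⊕ l → F // q u = 0} :=
            fun u => ⟨f u.1 u.2, hf1 u.1 u.2⟩
          have hF' : Function.Injective F' := by
            intro u u' h
            have h3 : f u.1 u.2 = f u'.1 u'.2 := congrArg Subtype.val h
            have h4 : a • fq u.1 = a • fq u'.1 := by rw [hf2 u.1 u.2, hf2 u'.1 u'.2, h3]
            exact Subtype.ext (hinj' _ _ (smul_left_cancel a h4))
          have hsurj := Finite.surjective_of_injective hF'
          intro u hu
          obtain ⟨u', hu'⟩ := hsurj ⟨u, hu⟩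
          refine ⟨u'.1, u'.2, ?_⟩
          rw [inv_smul_eq_iff, hf2 u'.1 u'.2]
          have : f u'.1 u'.2 = u := congrArg Subtype.val hu'
          rw [this]
      have hq0 : fq 0 = q := by
        funext x; simp only [fq]; rw [sf_zero_right, add_zero]
      have hq00 : q 0 = 0 := by
        have := hq 0 0
        rw [sf_zero_right, add_zero] at this
        linear_combination -this
      rintro _ ⟨g, rfl⟩
      obtain ⟨u, hu, e⟩ := hstab g 0 hq00
      refine ⟨u, hu, ?_⟩
      change fq u = g • q
      rw [← e, hq0]
    · rintro _ ⟨u, hu, rfl⟩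
      refine ⟨tv u 1, ?_⟩
      change tv u (1 : F) • q = _
      rw [htv u q hq]
      funext x
      simp only [fq]
      rw [show q u = 0 from hu]; ring
  rw [hst, MulAction.index_stabilizer, horb]
  rw [Set.ncard_image_of_injective]
  · rfl
  · intro u u' h
    have : ∀ x, sf x u = sf x u' := by
      intro x
      have := congrFun h x
      exact add_left_cancel this
    rw [← sub_eq_zero]
    apply eq_zero_of_sf
    intro x
    rw [sf_sub_right, this, sub_self]

theorem exists_index [Nonempty l] : ∃ H : Subgroup (symplecticGroup l F),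
    2 * H.index + 2 ^ Fintype.card l = 2 ^ (2 * Fintype.card l) := by
  classical
  have h2 := two_zero hF
  have h01 := zero_or_one hF
  have hS : ∀ q : (l ⊕ l → F) → F, (∀ x y, q (x + y) = q x + q y + sf x y) →
      (∑ x, eps (q x)) ^ 2 = (2 ^ Fintype.card l) ^ 2 := by
    intro q hq
    have hG := gauss_sq h01 h2 q sf hq (fun x y z => sf_add_left _ _ _)
    have hR : Finset.univ.filter (fun d : l ⊕ l → F => ∀ w, sf w d = 0) = {0} := by
      ext d
      rw [Finset.mem_filter, Finset.mem_singleton]
      constructor
      · rintro ⟨_, h⟩; exact eq_zero_of_sf d h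
      · rintro rfl; exact ⟨Finset.mem_univ _, fun w => sf_zero_right w⟩
    have hq00 : q 0 = 0 := by
      have := hq 0 0
      rw [sf_zero_right, add_zero] at this
      linear_combination -this
    rw [hR, Finset.sum_singleton, hq00, eps_zero, Fintype.card_fun, hF, Fintype.card_sum] at hG
    rw [hG]
    push_cast
    ring
  have hfin : ∀ q : (l ⊕ l → F) → F, (∀ x y, q (x + y) = q x + q y + sf x y) →
      (∑ x, eps (q x)) = -(2 ^ Fintype.card l) →
      2 * (stF q).index + 2 ^ Fintype.card l = 2 ^ (2 * Fintype.card l) := by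
    intro q hq h
    have h3 := card_zeros q
    rw [h, Fintype.card_fun, hF, Fintype.card_sum] at h3
    rw [index_stF hF hq, Nat.card_eq_fintype_card, Fintype.card_subtype]
    zify
    rw [h3]
    push_cast
    ring
  let q0 : (l ⊕ l → F) → F := fun x => ∑ i, x (Sum.inl i) * x (Sum.inr i)
  have hq0 : ∀ x y, q0 (x + y) = q0 x + q0 y + sf x y := by
    intro x y
    simp only [q0, sf, Pi.add_apply]
    rw [← Finset.sum_add_distrib, ← Finset.sum_add_distrib]
    refine Finset.sum_congr rfl fun i _ => ?_
    linear_combination (x (Sum.inr i) * y (Sum.inl i)) * h2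
  have h4 := hS q0 hq0
  rcases sq_eq_sq_iff_eq_or_eq_neg.1 h4 with h5 | h5
  · obtain ⟨i⟩ := ‹Nonempty l›
    let u : l ⊕ l → F := Pi.single (Sum.inl i) 1 + Pi.single (Sum.inr i) 1
    have hu : q0 u = 1 := by
      rw [hq0, sf_single_inl_left, Pi.single_eq_same]
      simp [q0]
    refine ⟨stF (fun x => q0 x + sf x u), hfin _ ?_ ?_⟩
    · intro x y
      rw [hq0, sf_add_left]; ring
    · have h6 : ∀ x, eps (q0 x + sf x u) = - eps (q0 (x + u)) := by
        intro x
        rw [hq0, hu, ← neg_one_mul, ← eps_one (F := F), ← eps_add h01 h2]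
        congr 1
        linear_combination (-1 : F) * h2
      rw [Finset.sum_congr rfl (fun x _ => h6 x), Finset.sum_neg_distrib]
      have h7 := Equiv.sum_comp (Equiv.addRight u) (fun x => eps (q0 x))
      simp only [Equiv.coe_addRight] at h7
      rw [h7, h5]
  · exact ⟨stF q0, hfin q0 hq0 h5⟩

end Cfsg.Agent.Mdx.Sp2
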