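import Cfsg.Agent.Stn.Graph

/-!
# Strongly regular graphs with parameters (77, 16, 0, 4): the quadratic form
-/

set_option autoImplicit false

namespace Cfsg.Agent.Mdx.Srg

open Finset Cfsg.Agent.Stn

variable {V : Type*} [Fintype V] [DecidableEq V] {G : SimpleGraph V} [DecidableRel G.Adj]

/-- adjacency indicator -/
def aj (G : SimpleGraph V) [DecidableRel G.Adj] (x y : V) : ℤ := if G.Adj x y then 1 else 0
/-- identity indicator -/
def dl (x y : V) : ℤ := if x = y then 1 else 0
/-- the form -/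
def nn (G : SimpleGraph V) [DecidableRel G.Adj] (x y : V) : ℤ := 22 * dl x y - 11 * aj G x y + 2

theorem aj_symm (x y : V) : aj G x y = aj G y x := by
  unfold aj; simp only [G.adj_comm]

theorem nn_symm (x y : V) : nn G x y = nn G y x := by
  unfold nn
  rw [aj_symm]
  unfold dl
  simp only [eq_comm]

theorem sum_aj (S : Finset V) (x : V) : ∑ y ∈ S, aj G x y = ((nb G x ∩ S).card : ℤ) := by
  unfold aj
  rw [Finset.sum_boole]
  congr 2
  ext y
  rw [mem_filter, mem_inter, mem_nb]
  tauto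

variable (hG : G.IsSRGWith 77 16 0 4)
include hG

theorem tri {x y z : V} (h1 : G.Adj x y) (h2 : G.Adj x z) : ¬ G.Adj y z := by
  intro h3
  have := (nb_inter hG).1 h1
  rw [card_eq_zero] at this
  have h4 : z ∈ nb G x ∩ nb G y := mem_inter.2 ⟨mem_nb.2 h2, mem_nb.2 h3⟩
  rw [this] at h4
  exact absurd h4 (notMem_empty z)

theorem nbc (x : V) : (nb G x).card = 16 := nb_card hG x

theorem mu4 {x y : V} (h : x ≠ y) (h' : ¬ G.Adj x y) : (nb G x ∩ nb G y).card = 4 := (nb_inter hG).2 h h'

theorem inter_val (x y : V) : ((nb G x ∩ nb G y).card : ℤ) = 12 * dl x y - 4 * aj G x y + 4 := by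
  unfold dl aj
  by_cases h : x = y
  · subst h
    rw [inter_self, nbc hG]
    simp
  · by_cases h' : G.Adj x y
    · rw [(nb_inter hG).1 h']
      simp [h, h']
    · rw [mu4 hG h h']
      simp [h, h']

theorem nn_sq (x y : V) : ∑ z : V, nn G x z * nn G z y = 88 * nn G x y := by
  have e1 : ∑ z : V, dl x z * nn G z y = nn G x y := by
    unfold dl
    simp
  have e2 : ∑ z : V, nn G z y = 0 := by
    have a1 : ∑ z : V, nn G z y = ∑ z : V, (22 * dl y z - 11 * aj G y z + 2) := by
      refine sum_congr rfl fun z _ => ?_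
      rw [nn_symm]; rfl
    rw [a1, sum_add_distrib, sum_sub_distrib, ← mul_sum, ← mul_sum, sum_aj, inter_univ, nbc hG]
    unfold dl
    rw [sum_const, card_univ, hG.card]
    simp
  have e3 : ∑ z : V, aj G x z * nn G z y = 22 * aj G x y - 11 * (12 * dl x y - 4 * aj G x y + 4) + 32 := by
    rw [← inter_val hG]
    have a1 : ∀ z : V, aj G x z * nn G z y = 22 * (aj G x z * dl z y) - 11 * (aj G x z * aj G z y) + 2 * aj G x z := by
      intro z; unfold nn; ring
    rw [sum_congr rfl fun z _ => a1 z, sum_add_distrib, sum_sub_distrib, ← mul_sum, ← mul_sum, ← mul_sum, sum_aj, inter_univ,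
      nbc hG]
    have a2 : ∑ z : V, aj G x z * dl z y = aj G x y := by unfold dl; simp
    have a3 : ∑ z : V, aj G x z * aj G z y = ((nb G x ∩ nb G y).card : ℤ) := by
      have : ∀ z : V, aj G x z * aj G z y = if z ∈ nb G x ∩ nb G y then 1 else 0 := by
        intro z
        rw [aj_symm z y]
        unfold aj
        by_cases h1 : G.Adj x z <;> by_cases h2 : G.Adj y z <;> simp [mem_inter, mem_nb, h1, h2]
      rw [sum_congr rfl fun z _ => this z, sum_boole]
      congr 2
      ext z; simp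
    rw [a2, a3]
    norm_num
  have e4 : ∀ z : V, nn G x z * nn G z y = 22 * (dl x z * nn G z y) - 11 * (aj G x z * nn G z y) + 2 * nn G z y := by
    intro z
    have : nn G x z = 22 * dl x z - 11 * aj G x z + 2 := rfl
    rw [this]; ring
  rw [sum_congr rfl fun z _ => e4 z, sum_add_distrib, sum_sub_distrib, ← mul_sum, ← mul_sum, ← mul_sum, e1, e2, e3]
  unfold nn
  ring

theorem psd (f : V → ℤ) : 0 ≤ ∑ x : V, ∑ y : V, f x * f y * nn G x y := by
  have h : ∑ z : V, (∑ x : V, f x * nn G x z) ^ 2 = 88 * ∑ x : V, ∑ y : V, f x * f y * nn G x y := by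
    have a1 : ∀ z : V, (∑ x : V, f x * nn G x z) ^ 2 = ∑ x : V, ∑ y : V, f x * f y * (nn G x z * nn G z y) := by
      intro z
      rw [sq, sum_mul_sum]
      refine sum_congr rfl fun x _ => sum_congr rfl fun y _ => ?_
      rw [nn_symm y z]; ring
    rw [sum_congr rfl fun z _ => a1 z, sum_comm, mul_sum]
    refine sum_congr rfl fun x _ => ?_
    rw [sum_comm, mul_sum]
    refine sum_congr rfl fun y _ => ?_
    rw [← mul_sum, nn_sq hG]; ring
  have h2 : 0 ≤ ∑ z : V, (∑ x : V, f x * nn G x z) ^ 2 := sum_nonneg fun z _ => sq_nonneg _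
  rw [h] at h2
  linarith

omit hG in
/-- the form on sets -/
def bf (G : SimpleGraph V) [DecidableRel G.Adj] (S T : Finset V) : ℤ := ∑ x ∈ S, ∑ y ∈ T, nn G x y

omit hG in
theorem bf_symm (S T : Finset V) : bf G S T = bf G T S := by
  unfold bf
  rw [sum_comm]
  exact sum_congr rfl fun x _ => sum_congr rfl fun y _ => nn_symm _ _

theorem cells {k : ℕ} (S : Fin k → Finset V) (a : Fin k → ℤ) : 0 ≤ ∑ i, ∑ j, a i * a j * bf G (S i) (S j) := by
  have h := psd hG (fun x => ∑ i, a i * if x ∈ S i then 1 else 0)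
  have e : ∑ x : V, ∑ y : V, (∑ i, a i * if x ∈ S i then 1 else 0) * (∑ j, a j * if y ∈ S j then 1 else 0) * nn G x y =
      ∑ i, ∑ j, a i * a j * bf G (S i) (S j) := by
    have a1 : ∀ x y : V, (∑ i, a i * if x ∈ S i then 1 else 0) * (∑ j, a j * if y ∈ S j then 1 else 0) * nn G x y =
        ∑ i, ∑ j, a i * a j * ((if x ∈ S i then 1 else 0) * ((if y ∈ S j then 1 else 0) * nn G x y)) := by
      intro x y
      rw [sum_mul_sum, sum_mul]
      refine sum_congr rfl fun i _ => ?_
      rw [sum_mul]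
      exact sum_congr rfl fun j _ => by ring
    calc _ = ∑ x : V, ∑ y : V, ∑ i, ∑ j, a i * a j * ((if x ∈ S i then 1 else 0) * ((if y ∈ S j then 1 else 0) * nn G x y)) :=
          sum_congr rfl fun x _ => sum_congr rfl fun y _ => a1 x y
      _ = ∑ x : V, ∑ i, ∑ j, ∑ y : V, a i * a j * ((if x ∈ S i then 1 else 0) * ((if y ∈ S j then 1 else 0) * nn G x y)) := by
          refine sum_congr rfl fun x _ => ?_
          rw [sum_comm]
          refine sum_congr rfl fun i _ => ?_
          rw [sum_comm]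
      _ = ∑ i, ∑ j, ∑ x : V, ∑ y : V, a i * a j * ((if x ∈ S i then 1 else 0) * ((if y ∈ S j then 1 else 0) * nn G x y)) := by
          rw [sum_comm]
          refine sum_congr rfl fun i _ => ?_
          rw [sum_comm]
      _ = _ := by
          refine sum_congr rfl fun i _ => sum_congr rfl fun j _ => ?_
          unfold bf
          rw [mul_sum, ← sum_filter_add_sum_filter_not univ (fun x => x ∈ S i)]
          have b1 : (univ.filter fun x => x ∈ S i) = S i := by ext; simp
          rw [b1]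
          have b2 : ∑ x ∈ univ.filter (fun x => ¬ x ∈ S i), ∑ y : V, a i * a j * ((if x ∈ S i then 1 else 0) * ((if y ∈ S j then 1 else 0) * nn G x y)) = 0 := by
            refine sum_eq_zero fun x hx => sum_eq_zero fun y _ => ?_
            rw [mem_filter] at hx
            simp [hx.2]
          rw [b2, add_zero]
          refine sum_congr rfl fun x hx => ?_
          rw [mul_sum, ← sum_filter_add_sum_filter_not univ (fun y => y ∈ S j)]
          have b3 : (univ.filter fun x => x ∈ S j) = S j := by ext; simp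
          rw [b3]
          have b4 : ∑ y ∈ univ.filter (fun y => ¬ y ∈ S j), a i * a j * ((if x ∈ S i then 1 else 0) * ((if y ∈ S j then 1 else 0) * nn G x y)) = 0 := by
            refine sum_eq_zero fun y hy => ?_
            rw [mem_filter] at hy
            simp [hy.2]
          rw [b4, add_zero]
          refine sum_congr rfl fun y hy => ?_
          simp [hx, hy]
  rw [e] at h
  exact h

omit hG in
theorem bf_adj {S T : Finset V} (h : ∀ x ∈ S, ∀ y ∈ T, G.Adj x y) : bf G S T = -9 * (S.card * T.card) := by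
  unfold bf
  have : ∀ x ∈ S, ∀ y ∈ T, nn G x y = -9 := by
    intro x hx y hy
    have h1 := h x hx y hy
    unfold nn dl aj
    rw [if_neg h1.ne, if_pos h1]; norm_num
  rw [sum_congr rfl fun x hx => sum_congr rfl fun y hy => this x hx y hy]
  simp [mul_comm, mul_assoc]

omit hG in
theorem bf_non {S T : Finset V} (h : ∀ x ∈ S, ∀ y ∈ T, x ≠ y ∧ ¬ G.Adj x y) : bf G S T = 2 * (S.card * T.card) := by
  unfold bf
  have : ∀ x ∈ S, ∀ y ∈ T, nn G x y = 2 := by
    intro x hx y hy
    have h1 := h x hx y hy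
    unfold nn dl aj
    rw [if_neg h1.1, if_neg h1.2]; norm_num
  rw [sum_congr rfl fun x hx => sum_congr rfl fun y hy => this x hx y hy]
  simp [mul_comm, mul_assoc]

omit hG in
theorem bf_coc {S T : Finset V} (h : ∀ x ∈ S, ∀ y ∈ T, ¬ G.Adj x y) : bf G S T = 22 * ((S ∩ T).card : ℤ) + 2 * (S.card * T.card) := by
  unfold bf
  have : ∀ x ∈ S, ∀ y ∈ T, nn G x y = 22 * (if x = y then 1 else 0) + 2 := by
    intro x hx y hy
    have h1 := h x hx y hy
    unfold nn dl aj
    rw [if_neg h1]; norm_num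
  rw [sum_congr rfl fun x hx => sum_congr rfl fun y hy => this x hx y hy]
  simp only [sum_add_distrib, ← mul_sum, sum_const, sum_ite_eq]
  have : (∑ x ∈ S, if x ∈ T then (1:ℤ) else 0) = ((S ∩ T).card : ℤ) := by
    rw [sum_boole, filter_mem_eq_inter]
  rw [this]
  simp only [nsmul_eq_mul]
  ring

omit hG in
theorem bf_sing {x : V} {T : Finset V} (h : x ∉ T) : bf G {x} T = 2 * (T.card : ℤ) - 11 * ((nb G x ∩ T).card : ℤ) := by
  unfold bf
  rw [sum_singleton]
  have : ∀ y ∈ T, nn G x y = 2 - 11 * aj G x y := by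
    intro y hy
    unfold nn dl
    rw [if_neg (by rintro rfl; exact h hy)]; ring
  rw [sum_congr rfl this, sum_sub_distrib, ← mul_sum, sum_aj, sum_const]
  simp [mul_comm]

omit hG in
theorem bf_self (x : V) : bf G {x} {x} = 24 := by
  rw [bf_coc (by intro a ha b hb; rw [mem_singleton] at ha hb; subst ha; subst hb; exact G.irrefl)]
  simp

omit hG in
theorem bf_s_non {x y : V} (h : x ≠ y) (h' : ¬ G.Adj x y) : bf G {x} {y} = 2 := by
  rw [bf_non (by intro a ha b hb; rw [mem_singleton] at ha hb; subst ha; subst hb; exact ⟨h, h'⟩)]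
  simp

omit hG in
theorem bf_s_adj {x y : V} (h' : G.Adj x y) : bf G {x} {y} = -9 := by
  rw [bf_adj (by intro a ha b hb; rw [mem_singleton] at ha hb; subst ha; subst hb; exact h')]
  simp

/-- at most two common neighbours of a coclique of three vertices -/
theorem three_le {x y z : V} (hxy : x ≠ y) (hxz : x ≠ z) (hyz : y ≠ z) (axy : ¬ G.Adj x y) (axz : ¬ G.Adj x z)
    (ayz : ¬ G.Adj y z) : (nb G x ∩ nb G y ∩ nb G z).card ≤ 2 := by
  set c : ℤ := ((nb G x ∩ nb G y ∩ nb G z).card : ℤ) with hc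
  have h := cells hG ![{x}, {y}, {z}, nb G x ∩ nb G y, nb G x ∩ nb G z, nb G y ∩ nb G z] ![3, 3, 3, 1, 1, 1]
  simp only [Fin.sum_univ_six, Matrix.cons_val_zero, Matrix.cons_val_one, Matrix.cons_val] at h
  have s1 : ∀ {u v : V}, ¬ G.Adj u v → u ≠ v → (∀ w : V, w ∈ nb G u ∩ nb G v → G.Adj u w ∧ G.Adj v w) := by
    intro u v _ _ w hw
    rw [mem_inter, mem_nb, mem_nb] at hw; exact hw
  have c1 := mu4 hG hxy axy
  have c2 := mu4 hG hxz axz
  have c3 := mu4 hG hyz ayz
  have b11 := bf_self (G := G) x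
  have b22 := bf_self (G := G) y
  have b33 := bf_self (G := G) z
  have b12 := bf_s_non hxy axy
  have b13 := bf_s_non hxz axz
  have b23 := bf_s_non hyz ayz
  have b21 := bf_symm (G := G) {y} {x}
  have b31 := bf_symm (G := G) {z} {x}
  have b32 := bf_symm (G := G) {z} {y}
  have i1 : nb G x ∩ (nb G x ∩ nb G y) = nb G x ∩ nb G y := by ext; simp
  have i2 : nb G x ∩ (nb G x ∩ nb G z) = nb G x ∩ nb G z := by ext; simp
  have i3 : nb G y ∩ (nb G x ∩ nb G y) = nb G x ∩ nb G y := by ext; simp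
  have i4 : nb G y ∩ (nb G y ∩ nb G z) = nb G y ∩ nb G z := by ext; simp
  have i5 : nb G z ∩ (nb G x ∩ nb G z) = nb G x ∩ nb G z := by ext; simp
  have i6 : nb G z ∩ (nb G y ∩ nb G z) = nb G y ∩ nb G z := by ext; simp
  have i7 : nb G x ∩ (nb G y ∩ nb G z) = nb G x ∩ nb G y ∩ nb G z := by rw [inter_assoc]
  have i8 : nb G y ∩ (nb G x ∩ nb G z) = nb G x ∩ nb G y ∩ nb G z := by ext; simp only [mem_inter]; tauto
  have i9 : nb G z ∩ (nb G x ∩ nb G y) = nb G x ∩ nb G y ∩ nb G z := by ext; simp only [mem_inter]; tauto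
  have n1 : ∀ {u v : V}, u ∉ nb G u ∩ nb G v := by intro u v h; rw [mem_inter, mem_nb] at h; exact G.irrefl h.1
  have n2 : ∀ {u v : V}, v ∉ nb G u ∩ nb G v := by intro u v h; rw [mem_inter, mem_nb, mem_nb] at h; exact G.irrefl h.2
  have n3 : x ∉ nb G y ∩ nb G z := by intro h; rw [mem_inter, mem_nb] at h; exact axy h.1.symm
  have n4 : y ∉ nb G x ∩ nb G z := by intro h; rw [mem_inter, mem_nb] at h; exact axy h.1
  have n5 : z ∉ nb G x ∩ nb G y := by intro h; rw [mem_inter, mem_nb] at h; exact axz h.1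
  have b14 := bf_sing (G := G) (n1 (u := x) (v := y))
  have b15 := bf_sing (G := G) (n1 (u := x) (v := z))
  have b16 := bf_sing (G := G) n3
  have b24 := bf_sing (G := G) (n2 (u := x) (v := y))
  have b25 := bf_sing (G := G) n4
  have b26 := bf_sing (G := G) (n1 (u := y) (v := z))
  have b34 := bf_sing (G := G) n5
  have b35 := bf_sing (G := G) (n2 (u := x) (v := z))
  have b36 := bf_sing (G := G) (n2 (u := y) (v := z))
  rw [i1, c1] at b14
  rw [i2, c2] at b15
  rw [i7, ← hc, c3] at b16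
  rw [i3, c1] at b24
  rw [i8, ← hc, c2] at b25
  rw [i4, c3] at b26
  rw [i9, ← hc, c1] at b34
  rw [i5, c2] at b35
  rw [i6, c3] at b36
  have coc : ∀ (u : V) (S T : Finset V), S ⊆ nb G u → T ⊆ nb G u → ∀ a ∈ S, ∀ b ∈ T, ¬ G.Adj a b := by
    intro u S T hS hT a ha b hb
    exact tri hG (mem_nb.1 (hS ha)) (mem_nb.1 (hT hb))
  have b44 := bf_coc (G := G) (coc x (nb G x ∩ nb G y) (nb G x ∩ nb G y) inter_subset_left inter_subset_left)
  have b55 := bf_coc (G := G) (coc x (nb G x ∩ nb G z) (nb G x ∩ nb G z) inter_subset_left inter_subset_left)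
  have b66 := bf_coc (G := G) (coc y (nb G y ∩ nb G z) (nb G y ∩ nb G z) inter_subset_left inter_subset_left)
  have b45 := bf_coc (G := G) (coc x (nb G x ∩ nb G y) (nb G x ∩ nb G z) inter_subset_left inter_subset_left)
  have b46 := bf_coc (G := G) (coc y (nb G x ∩ nb G y) (nb G y ∩ nb G z) inter_subset_right inter_subset_left)
  have b56 := bf_coc (G := G) (coc z (nb G x ∩ nb G z) (nb G y ∩ nb G z) inter_subset_right inter_subset_right)
  have j1 : nb G x ∩ nb G y ∩ (nb G x ∩ nb G z) = nb G x ∩ nb G y ∩ nb G z := by ext; simp only [mem_inter]; tauto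
  have j2 : nb G x ∩ nb G y ∩ (nb G y ∩ nb G z) = nb G x ∩ nb G y ∩ nb G z := by ext; simp only [mem_inter]; tauto
  have j3 : nb G x ∩ nb G z ∩ (nb G y ∩ nb G z) = nb G x ∩ nb G y ∩ nb G z := by ext; simp only [mem_inter]; tauto
  rw [inter_self, c1] at b44
  rw [inter_self, c2] at b55
  rw [inter_self, c3] at b66
  rw [j1, ← hc, c1, c2] at b45
  rw [j2, ← hc, c1, c3] at b46
  rw [j3, ← hc, c2, c3] at b56
  rw [bf_symm (nb G x ∩ nb G y) {x}, bf_symm (nb G x ∩ nb G y) {y}, bf_symm (nb G x ∩ nb G y) {z},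
    bf_symm (nb G x ∩ nb G z) {x}, bf_symm (nb G x ∩ nb G z) {y}, bf_symm (nb G x ∩ nb G z) {z},
    bf_symm (nb G y ∩ nb G z) {x}, bf_symm (nb G y ∩ nb G z) {y}, bf_symm (nb G y ∩ nb G z) {z},
    bf_symm (nb G x ∩ nb G z) (nb G x ∩ nb G y), bf_symm (nb G y ∩ nb G z) (nb G x ∩ nb G y),
    bf_symm (nb G y ∩ nb G z) (nb G x ∩ nb G z)] at h
  push_cast at *
  have : 0 ≤ 156 - 66 * c := by linarith
  have h5 : c ≤ 2 := by omega
  rw [hc] at h5
  exact_mod_cast h5

end Cfsg.Agent.Mdx.Srg
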