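import Cfsg.Agent.Mdx.Srg1

/-!
# srg(77, 16, 0, 4): lines
-/

set_option autoImplicit false

namespace Cfsg.Agent.Mdx.Srg

open Finset Cfsg.Agent.Stn

variable {V : Type*} [Fintype V] [DecidableEq V] {G : SimpleGraph V} [DecidableRel G.Adj]

/-- the vertices not adjacent to x, y having no common neighbour with x and y -/
def tn (G : SimpleGraph V) [DecidableRel G.Adj] (x y : V) : Finset V :=
  univ.filter fun z => z ≠ x ∧ z ≠ y ∧ ¬ G.Adj x z ∧ ¬ G.Adj y z ∧ nb G x ∩ nb G y ∩ nb G z = ∅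

theorem mem_tn {x y z : V} : z ∈ tn G x y ↔ z ≠ x ∧ z ≠ y ∧ ¬ G.Adj x z ∧ ¬ G.Adj y z ∧ nb G x ∩ nb G y ∩ nb G z = ∅ := by
  rw [tn, mem_filter]; simp

/-- the line through x and y -/
def ln (G : SimpleGraph V) [DecidableRel G.Adj] (x y : V) : Finset V := insert x (insert y (tn G x y))

theorem tn_comm (x y : V) : tn G x y = tn G y x := by
  ext z
  rw [mem_tn, mem_tn, inter_comm (nb G x)]
  tauto

theorem ln_comm (x y : V) : ln G x y = ln G y x := by
  unfold ln
  rw [tn_comm, Finset.insert_comm]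

variable (hG : G.IsSRGWith 77 16 0 4)
include hG

/-- P4 -/
theorem not_adj_of_tn {x y z1 z2 : V} (hxy : x ≠ y) (axy : ¬ G.Adj x y) (h1 : z1 ∈ tn G x y) (h2 : z2 ∈ tn G x y) :
    ¬ G.Adj z1 z2 := by
  intro hadj
  rw [mem_tn] at h1 h2
  obtain ⟨n1x, n1y, a1x, a1y, e1⟩ := h1
  obtain ⟨n2x, n2y, a2x, a2y, e2⟩ := h2
  have h := cells hG ![{x}, {y}, {z1}, {z2}, nb G x ∩ nb G y] ![3, 3, -2, -2, 2]
  simp only [Fin.sum_univ_five, Matrix.cons_val_zero, Matrix.cons_val_one, Matrix.cons_val] at h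
  have c1 := mu4 hG hxy axy
  have b11 := bf_self (G := G) x
  have b22 := bf_self (G := G) y
  have b33 := bf_self (G := G) z1
  have b44 := bf_self (G := G) z2
  have b12 := bf_s_non hxy axy
  have b13 := bf_s_non n1x.symm a1x
  have b14 := bf_s_non n2x.symm a2x
  have b23 := bf_s_non n1y.symm a1y
  have b24 := bf_s_non n2y.symm a2y
  have b34 := bf_s_adj hadj
  have m1 : x ∉ nb G x ∩ nb G y := by intro h; rw [mem_inter, mem_nb] at h; exact G.irrefl h.1
  have m2 : y ∉ nb G x ∩ nb G y := by intro h; rw [mem_inter, mem_nb, mem_nb] at h; exact G.irrefl h.2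
  have m3 : z1 ∉ nb G x ∩ nb G y := by intro h; rw [mem_inter, mem_nb] at h; exact a1x h.1
  have m4 : z2 ∉ nb G x ∩ nb G y := by intro h; rw [mem_inter, mem_nb] at h; exact a2x h.1
  have b15 := bf_sing (G := G) m1
  have b25 := bf_sing (G := G) m2
  have b35 := bf_sing (G := G) m3
  have b45 := bf_sing (G := G) m4
  rw [show nb G x ∩ (nb G x ∩ nb G y) = nb G x ∩ nb G y by ext; simp, c1] at b15
  rw [show nb G y ∩ (nb G x ∩ nb G y) = nb G x ∩ nb G y by ext; simp, c1] at b25
  rw [inter_comm (nb G z1), e1, c1, card_empty] at b35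
  rw [inter_comm (nb G z2), e2, c1, card_empty] at b45
  have b55 := bf_coc (G := G) (S := nb G x ∩ nb G y) (T := nb G x ∩ nb G y)
    (fun a ha b hb => tri hG (mem_nb.1 (mem_inter.1 ha).1) (mem_nb.1 (mem_inter.1 hb).1))
  rw [inter_self, c1] at b55
  rw [bf_symm {y} {x}, bf_symm {z1} {x}, bf_symm {z2} {x}, bf_symm {z1} {y}, bf_symm {z2} {y}, bf_symm {z2} {z1},
    bf_symm (nb G x ∩ nb G y) {x}, bf_symm (nb G x ∩ nb G y) {y}, bf_symm (nb G x ∩ nb G y) {z1},
    bf_symm (nb G x ∩ nb G y) {z2}] at h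
  push_cast at *
  linarith

/-- P3 -/
theorem no_common_of_tn {x y z1 z2 : V} (hxy : x ≠ y) (axy : ¬ G.Adj x y) (h1 : z1 ∈ tn G x y) (h2 : z2 ∈ tn G x y)
    (h12 : z1 ≠ z2) : nb G x ∩ nb G z1 ∩ nb G z2 = ∅ := by
  have a12 := not_adj_of_tn hG hxy axy h1 h2
  by_contra hne
  rw [mem_tn] at h1 h2
  obtain ⟨n1x, n1y, a1x, a1y, e1⟩ := h1
  obtain ⟨n2x, n2y, a2x, a2y, e2⟩ := h2
  have c1 := mu4 hG hxy axy
  have cz1 := mu4 hG n1x.symm a1x
  have cz2 := mu4 hG n2x.symm a2x
  -- the rest of the neighbours of x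
  have hcard : 5 ≤ (nb G x \ ((nb G x ∩ nb G y) ∪ ((nb G x ∩ nb G z1) ∪ (nb G x ∩ nb G z2)))).card := by
    have q1 : ((nb G x ∩ nb G z1) ∪ (nb G x ∩ nb G z2)).card ≤ 7 := by
      have := card_union_add_card_inter (nb G x ∩ nb G z1) (nb G x ∩ nb G z2)
      have hpos : 0 < ((nb G x ∩ nb G z1) ∩ (nb G x ∩ nb G z2)).card := by
        rw [card_pos, nonempty_iff_ne_empty]
        intro he
        apply hne
        rw [← he]
        ext; simp only [mem_inter]; tauto
      omega
    have q2 := card_union_le (nb G x ∩ nb G y) ((nb G x ∩ nb G z1) ∪ (nb G x ∩ nb G z2))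
    have q3 := le_card_sdiff ((nb G x ∩ nb G y) ∪ ((nb G x ∩ nb G z1) ∪ (nb G x ∩ nb G z2))) (nb G x)
    rw [nbc hG] at q3
    omega
  obtain ⟨T, hT, cT⟩ := exists_subset_card_eq hcard
  have tT : ∀ t ∈ T, G.Adj x t ∧ ¬ G.Adj y t ∧ ¬ G.Adj z1 t ∧ ¬ G.Adj z2 t := by
    intro t ht
    have := hT ht
    rw [mem_sdiff, mem_nb] at this
    simp only [mem_union, mem_inter, mem_nb] at this
    tauto
  have h := cells hG ![{x}, {y}, {z1}, {z2}, nb G x ∩ nb G y, T] ![6, 4, -2, -2, 3, 1]
  simp only [Fin.sum_univ_six, Matrix.cons_val_zero, Matrix.cons_val_one, Matrix.cons_val] at h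
  have b11 := bf_self (G := G) x
  have b22 := bf_self (G := G) y
  have b33 := bf_self (G := G) z1
  have b44 := bf_self (G := G) z2
  have b12 := bf_s_non hxy axy
  have b13 := bf_s_non n1x.symm a1x
  have b14 := bf_s_non n2x.symm a2x
  have b23 := bf_s_non n1y.symm a1y
  have b24 := bf_s_non n2y.symm a2y
  have b34 := bf_s_non h12 a12
  have m1 : x ∉ nb G x ∩ nb G y := by intro h; rw [mem_inter, mem_nb] at h; exact G.irrefl h.1
  have m2 : y ∉ nb G x ∩ nb G y := by intro h; rw [mem_inter, mem_nb, mem_nb] at h; exact G.irrefl h.2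
  have m3 : z1 ∉ nb G x ∩ nb G y := by intro h; rw [mem_inter, mem_nb] at h; exact a1x h.1
  have m4 : z2 ∉ nb G x ∩ nb G y := by intro h; rw [mem_inter, mem_nb] at h; exact a2x h.1
  have b15 := bf_sing (G := G) m1
  have b25 := bf_sing (G := G) m2
  have b35 := bf_sing (G := G) m3
  have b45 := bf_sing (G := G) m4
  rw [show nb G x ∩ (nb G x ∩ nb G y) = nb G x ∩ nb G y by ext; simp, c1] at b15
  rw [show nb G y ∩ (nb G x ∩ nb G y) = nb G x ∩ nb G y by ext; simp, c1] at b25
  rw [inter_comm (nb G z1), e1, c1, card_empty] at b35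
  rw [inter_comm (nb G z2), e2, c1, card_empty] at b45
  have b55 := bf_coc (G := G) (S := nb G x ∩ nb G y) (T := nb G x ∩ nb G y)
    (fun a ha b hb => tri hG (mem_nb.1 (mem_inter.1 ha).1) (mem_nb.1 (mem_inter.1 hb).1))
  rw [inter_self, c1] at b55
  have b16 := bf_adj (G := G) (S := {x}) (T := T) (fun a ha b hb => by rw [mem_singleton] at ha; subst ha; exact (tT b hb).1)
  have b26 := bf_non (G := G) (S := {y}) (T := T) (fun a ha b hb => by
    rw [mem_singleton] at ha; subst ha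
    exact ⟨fun e => axy (by rw [e]; exact (tT b hb).1), (tT b hb).2.1⟩)
  have b36 := bf_non (G := G) (S := {z1}) (T := T) (fun a ha b hb => by
    rw [mem_singleton] at ha; subst ha
    exact ⟨fun e => a1x (by rw [e]; exact (tT b hb).1), (tT b hb).2.2.1⟩)
  have b46 := bf_non (G := G) (S := {z2}) (T := T) (fun a ha b hb => by
    rw [mem_singleton] at ha; subst ha
    exact ⟨fun e => a2x (by rw [e]; exact (tT b hb).1), (tT b hb).2.2.2⟩)
  have b56 := bf_coc (G := G) (S := nb G x ∩ nb G y) (T := T)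
    (fun a ha b hb => tri hG (mem_nb.1 (mem_inter.1 ha).1) (tT b hb).1)
  have b66 := bf_coc (G := G) (S := T) (T := T)
    (fun a ha b hb => tri hG (tT a ha).1 (tT b hb).1)
  have hi : nb G x ∩ nb G y ∩ T = ∅ := by
    rw [eq_empty_iff_forall_notMem]
    intro t ht
    rw [mem_inter, mem_inter, mem_nb, mem_nb] at ht
    exact (tT t ht.2).2.1 ht.1.2
  rw [hi, c1, cT, card_empty] at b56
  rw [inter_self, cT] at b66
  rw [cT, card_singleton] at b16 b26 b36 b46
  rw [bf_symm {y} {x}, bf_symm {z1} {x}, bf_symm {z2} {x}, bf_symm {z1} {y}, bf_symm {z2} {y}, bf_symm {z2} {z1},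
    bf_symm (nb G x ∩ nb G y) {x}, bf_symm (nb G x ∩ nb G y) {y}, bf_symm (nb G x ∩ nb G y) {z1},
    bf_symm (nb G x ∩ nb G y) {z2}, bf_symm T {x}, bf_symm T {y}, bf_symm T {z1}, bf_symm T {z2},
    bf_symm T (nb G x ∩ nb G y)] at h
  push_cast at *
  linarith

/-- moments of the numbers of neighbours in a finite set -/
theorem sum_nb (P : Finset V) : ∑ z : V, ((nb G z ∩ P).card : ℤ) = 16 * P.card := by
  have h1 : ∀ z : V, ((nb G z ∩ P).card : ℤ) = ∑ p ∈ P, aj G z p := fun z => (sum_aj P z).symm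
  rw [sum_congr rfl fun z _ => h1 z, sum_comm]
  have h2 : ∀ p ∈ P, ∑ z : V, aj G z p = 16 := by
    intro p _
    have : ∑ z : V, aj G z p = ∑ z : V, aj G p z := sum_congr rfl fun z _ => aj_symm _ _
    rw [this, sum_aj, inter_univ, nbc hG]; rfl
  rw [sum_congr rfl h2, sum_const]
  simp [mul_comm]

omit hG in
theorem sum_nb_sq (P : Finset V) : ∑ z : V, ((nb G z ∩ P).card : ℤ) ^ 2 = ∑ p ∈ P, ∑ q ∈ P, ((nb G p ∩ nb G q).card : ℤ) := by
  have h1 : ∀ z : V, ((nb G z ∩ P).card : ℤ) ^ 2 = ∑ p ∈ P, ∑ q ∈ P, aj G p z * aj G q z := by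
    intro z
    rw [← sum_aj P z, sq, sum_mul_sum]
    exact sum_congr rfl fun p _ => sum_congr rfl fun q _ => by rw [aj_symm z p, aj_symm z q]
  rw [sum_congr rfl fun z _ => h1 z, sum_comm]
  refine sum_congr rfl fun p _ => ?_
  rw [sum_comm]
  refine sum_congr rfl fun q _ => ?_
  have : ∀ z : V, aj G p z * aj G q z = if z ∈ nb G p ∩ nb G q then 1 else 0 := by
    intro z
    unfold aj
    by_cases h1 : G.Adj p z <;> by_cases h2 : G.Adj q z <;> simp [mem_inter, mem_nb, h1, h2]
  rw [sum_congr rfl fun z _ => this z, sum_boole]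
  congr 2
  ext z; simp

/-- second moment for a coclique -/
theorem sum_nb_sq_coc {P : Finset V} (hP : ∀ p ∈ P, ∀ q ∈ P, ¬ G.Adj p q) :
    ∑ z : V, ((nb G z ∩ P).card : ℤ) ^ 2 = 12 * P.card + 4 * (P.card * P.card) := by
  rw [sum_nb_sq]
  have : ∀ p ∈ P, ∀ q ∈ P, ((nb G p ∩ nb G q).card : ℤ) = 12 * (if p = q then 1 else 0) + 4 := by
    intro p hp q hq
    rw [inter_val hG]
    unfold dl aj
    rw [if_neg (hP p hp q hq)]; ring
  rw [sum_congr rfl fun p hp => sum_congr rfl fun q hq => this p hp q hq]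
  simp only [sum_add_distrib, ← mul_sum, sum_const, sum_ite_eq]
  have h2 : (∑ x ∈ P, if x ∈ P then (1:ℤ) else 0) = (P.card : ℤ) := by
    rw [sum_boole]
    congr 2
    ext; simp
  rw [h2]
  simp only [nsmul_eq_mul]
  ring

theorem tn_card {x y : V} (hxy : x ≠ y) (axy : ¬ G.Adj x y) : (tn G x y).card = 3 := by
  set P := nb G x ∩ nb G y with hP
  have c1 : P.card = 4 := mu4 hG hxy axy
  have coc : ∀ p ∈ P, ∀ q ∈ P, ¬ G.Adj p q := fun a ha b hb => tri hG (mem_nb.1 (mem_inter.1 ha).1) (mem_nb.1 (mem_inter.1 hb).1)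
  have m1 := sum_nb hG P
  have m2 := sum_nb_sq_coc hG coc
  rw [c1] at m1 m2
  set s : V → ℤ := fun z => ((nb G z ∩ P).card : ℤ) with hs
  have sx : s x = 4 := by
    show ((nb G x ∩ P).card : ℤ) = 4
    rw [show nb G x ∩ P = P by rw [hP]; ext; simp, c1]; rfl
  have sy : s y = 4 := by
    show ((nb G y ∩ P).card : ℤ) = 4
    rw [show nb G y ∩ P = P by rw [hP]; ext; simp, c1]; rfl
  -- (s-1)(s-2)
  have m3 : ∑ z : V, (s z - 1) * (s z - 2) = 74 := by
    have : ∀ z : V, (s z - 1) * (s z - 2) = s z ^ 2 - 3 * s z + 2 := fun z => by ring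
    rw [sum_congr rfl fun z _ => this z, sum_add_distrib, sum_sub_distrib, ← mul_sum]
    rw [show ∑ z : V, s z = 16 * 4 from m1, show ∑ z : V, s z ^ 2 = 12 * 4 + 4 * (4 * 4) from m2, sum_const, card_univ, hG.card]
    norm_num
  have hz : ∀ z : V, z ≠ x → z ≠ y → ((s z - 1) * (s z - 2) = if z ∈ nb G x ∪ nb G y ∪ tn G x y then 2 else 0) := by
    intro z hzx hzy
    by_cases h1 : G.Adj x z
    · have : s z = 0 := by
        show ((nb G z ∩ P).card : ℤ) = 0
        rw [show nb G z ∩ P = ∅ from ?_, card_empty]; rfl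
        rw [eq_empty_iff_forall_notMem]
        intro t ht
        rw [mem_inter, mem_nb, mem_inter, mem_nb] at ht
        exact tri hG h1 ht.2.1 ht.1
      rw [this, if_pos (by simp [mem_nb, h1])]; norm_num
    · by_cases h2 : G.Adj y z
      · have : s z = 0 := by
          show ((nb G z ∩ P).card : ℤ) = 0
          rw [show nb G z ∩ P = ∅ from ?_, card_empty]; rfl
          rw [eq_empty_iff_forall_notMem]
          intro t ht
          rw [mem_inter, mem_nb, mem_inter, mem_nb, mem_nb] at ht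
          exact tri hG h2 ht.2.2 ht.1
        rw [this, if_pos (by simp [mem_nb, h2])]; norm_num
      · have h3 := three_le hG hxy hzx.symm hzy.symm axy h1 h2
        have h4 : (nb G z ∩ P).card = (nb G x ∩ nb G y ∩ nb G z).card := by rw [inter_comm]
        by_cases h5 : (nb G z ∩ P).card = 0
        · have h6 : s z = 0 := by show ((nb G z ∩ P).card : ℤ) = 0; rw [h5]; rfl
          rw [h6, if_pos]
          · norm_num
          · rw [mem_union]
            right
            rw [mem_tn]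
            refine ⟨hzx, hzy, h1, h2, ?_⟩
            rw [← card_eq_zero, ← h4, h5]
        · rw [if_neg]
          · have h6 : (nb G z ∩ P).card = 1 ∨ (nb G z ∩ P).card = 2 := by omega
            have h7 : s z = 1 ∨ s z = 2 := by
              rcases h6 with h6 | h6
              · left; show ((nb G z ∩ P).card : ℤ) = 1; rw [h6]; rfl
              · right; show ((nb G z ∩ P).card : ℤ) = 2; rw [h6]; rfl
            rcases h7 with h7 | h7 <;> rw [h7] <;> norm_num
          · rw [mem_union, mem_union, mem_nb, mem_nb, mem_tn]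
            rintro ((h | h) | h)
            · exact h1 h
            · exact h2 h
            · apply h5; rw [h4, h.2.2.2.2, card_empty]
  have m4 : ∑ z ∈ (univ.erase x).erase y, (s z - 1) * (s z - 2) = 62 := by
    have q1 := add_sum_erase univ (fun z => (s z - 1) * (s z - 2)) (mem_univ x)
    have q2 := add_sum_erase (univ.erase x) (fun z => (s z - 1) * (s z - 2)) (mem_erase.2 ⟨hxy.symm, mem_univ y⟩)
    simp only [sx, sy] at q1 q2
    rw [m3] at q1
    linarith
  have m5 : ∑ z ∈ (univ.erase x).erase y, (s z - 1) * (s z - 2) = 2 * ((nb G x ∪ nb G y ∪ tn G x y).card : ℤ) := by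
    have : ∀ z ∈ (univ.erase x).erase y, (s z - 1) * (s z - 2) = 2 * (if z ∈ nb G x ∪ nb G y ∪ tn G x y then 1 else 0) := by
      intro z h
      rw [mem_erase, mem_erase] at h
      rw [hz z h.2.1 h.1]
      split_ifs <;> norm_num
    rw [sum_congr rfl this, ← mul_sum, sum_boole]
    congr 3
    ext z
    rw [mem_filter, mem_erase, mem_erase]
    constructor
    · exact fun h => h.2
    · intro h
      refine ⟨⟨?_, ?_, mem_univ _⟩, h⟩
      · rintro rfl
        rw [mem_union, mem_union, mem_nb, mem_nb, mem_tn] at h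
        rcases h with (h | h) | h
        · exact axy h
        · exact G.irrefl h
        · exact h.2.1 rfl
      · rintro rfl
        rw [mem_union, mem_union, mem_nb, mem_nb, mem_tn] at h
        rcases h with (h | h) | h
        · exact G.irrefl h
        · exact axy h.symm
        · exact h.1 rfl
  have c2 : (nb G x ∪ nb G y).card = 28 := by
    have := card_union_add_card_inter (nb G x) (nb G y)
    rw [nbc hG, nbc hG, ← hP, c1] at this
    omega
  have c3 : Disjoint (nb G x ∪ nb G y) (tn G x y) := by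
    rw [disjoint_left]
    intro z hz1 hz2
    rw [mem_union, mem_nb, mem_nb] at hz1
    rw [mem_tn] at hz2
    rcases hz1 with h | h
    · exact hz2.2.2.1 h
    · exact hz2.2.2.2.1 h
  rw [card_union_of_disjoint c3, c2] at m5
  push_cast at m5
  have : ((tn G x y).card : ℤ) = 3 := by linarith
  exact_mod_cast this

end Cfsg.Agent.Mdx.Srg
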