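import Cfsg.Agent.Mdx.Srg2

/-!
# srg(77, 16, 0, 4): structure of the lines
-/

set_option autoImplicit false

namespace Cfsg.Agent.Mdx.Srg

open Finset Cfsg.Agent.Stn

variable {V : Type*} [Fintype V] [DecidableEq V] {G : SimpleGraph V} [DecidableRel G.Adj]

theorem mem_ln {x y z : V} : z ∈ ln G x y ↔ z = x ∨ z = y ∨ z ∈ tn G x y := by
  rw [ln, mem_insert, mem_insert]

theorem left_mem_ln (x y : V) : x ∈ ln G x y := mem_ln.2 (Or.inl rfl)
theorem right_mem_ln (x y : V) : y ∈ ln G x y := mem_ln.2 (Or.inr (Or.inl rfl))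

/-- lines -/
def IsL (G : SimpleGraph V) [DecidableRel G.Adj] (L : Finset V) : Prop := ∃ x y : V, x ≠ y ∧ ¬ G.Adj x y ∧ L = ln G x y

/-- a vertex off a line and adjacent to none of its vertices -/
def off (G : SimpleGraph V) (L : Finset V) (w : V) : Prop := w ∉ L ∧ ∀ y ∈ L, ¬ G.Adj w y

variable (hG : G.IsSRGWith 77 16 0 4)
include hG

theorem ln_card {x y : V} (hxy : x ≠ y) (axy : ¬ G.Adj x y) : (ln G x y).card = 5 := by
  have h1 : y ∉ tn G x y := fun h => (mem_tn.1 h).2.1 rfl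
  have h2 : x ∉ insert y (tn G x y) := by
    rw [mem_insert]
    rintro (h | h)
    · exact hxy h
    · exact (mem_tn.1 h).1 rfl
  rw [ln, card_insert_of_notMem h2, card_insert_of_notMem h1, tn_card hG hxy axy]

theorem ln_eq_left {x y z : V} (hxy : x ≠ y) (axy : ¬ G.Adj x y) (hz : z ∈ tn G x y) : ln G x z = ln G x y := by
  have hz' := mem_tn.1 hz
  obtain ⟨h1, h2, h3, h4, h5⟩ := hz'
  have hsub : insert y ((tn G x y).erase z) ⊆ tn G x z := by
    intro t ht
    rw [mem_insert, mem_erase] at ht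
    rcases ht with rfl | ⟨ht1, ht2⟩
    · rw [mem_tn]
      refine ⟨hxy.symm, h2.symm, axy, fun h => h4 h.symm, ?_⟩
      rw [inter_right_comm]; exact h5
    · have ht3 := mem_tn.1 ht2
      rw [mem_tn]
      exact ⟨ht3.1, ht1, ht3.2.2.1, not_adj_of_tn hG hxy axy hz ht2, no_common_of_tn hG hxy axy hz ht2 ht1.symm⟩
  have hy : y ∉ (tn G x y).erase z := fun h => (mem_tn.1 (mem_of_mem_erase h)).2.1 rfl
  have hc : (insert y ((tn G x y).erase z)).card = 3 := by
    rw [card_insert_of_notMem hy, card_erase_of_mem hz, tn_card hG hxy axy]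
  have he := eq_of_subset_of_card_le hsub (by rw [hc, tn_card hG h1.symm h3])
  unfold ln
  rw [← he, Finset.insert_comm z y, insert_erase hz]

theorem ln_eq_right {x y z : V} (hxy : x ≠ y) (axy : ¬ G.Adj x y) (hz : z ∈ tn G x y) : ln G y z = ln G x y := by
  rw [ln_comm x y]
  exact ln_eq_left hG hxy.symm (fun h => axy h.symm) (by rw [tn_comm]; exact hz)

theorem ln_eq {x y u v : V} (hxy : x ≠ y) (axy : ¬ G.Adj x y) (hu : u ∈ ln G x y) (hv : v ∈ ln G x y) (huv : u ≠ v) :
    ¬ G.Adj u v ∧ ln G x y = ln G u v := by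
  rw [mem_ln] at hu hv
  rcases hu with rfl | rfl | hu
  · rcases hv with rfl | rfl | hv
    · exact absurd rfl huv
    · exact ⟨axy, rfl⟩
    · exact ⟨(mem_tn.1 hv).2.2.1, (ln_eq_left hG hxy axy hv).symm⟩
  · rcases hv with rfl | rfl | hv
    · exact ⟨fun h => axy h.symm, ln_comm _ _⟩
    · exact absurd rfl huv
    · exact ⟨(mem_tn.1 hv).2.2.2.1, (ln_eq_right hG hxy axy hv).symm⟩
  · rcases hv with rfl | rfl | hv
    · exact ⟨fun h => (mem_tn.1 hu).2.2.1 h.symm, by rw [ln_comm u, ln_eq_left hG hxy axy hu]⟩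
    · exact ⟨fun h => (mem_tn.1 hu).2.2.2.1 h.symm, by rw [ln_comm u, ln_eq_right hG hxy axy hu]⟩
    · refine ⟨not_adj_of_tn hG hxy axy hu hv, ?_⟩
      have h1 := ln_eq_left hG hxy axy hu
      have hu' := mem_tn.1 hu
      have h2 : v ∈ ln G x u := by rw [h1, mem_ln]; exact Or.inr (Or.inr hv)
      rw [mem_ln] at h2
      have h3 : v ∈ tn G x u := by
        rcases h2 with h2 | h2 | h2
        · exact absurd h2 (mem_tn.1 hv).1
        · exact absurd h2.symm huv
        · exact h2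
      rw [ln_eq_right hG hu'.1.symm hu'.2.2.1 h3, h1]

section line
variable {L : Finset V} (hL : IsL G L)
include hL

theorem l_card : L.card = 5 := by
  obtain ⟨x, y, h1, h2, rfl⟩ := hL
  exact ln_card hG h1 h2

theorem l_eq {u v : V} (hu : u ∈ L) (hv : v ∈ L) (huv : u ≠ v) : L = ln G u v := by
  obtain ⟨x, y, h1, h2, rfl⟩ := hL
  exact (ln_eq hG h1 h2 hu hv huv).2

theorem l_coc {u v : V} (hu : u ∈ L) (hv : v ∈ L) : ¬ G.Adj u v := by
  by_cases huv : u = v
  · rw [huv]; exact G.irrefl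
  obtain ⟨x, y, h1, h2, rfl⟩ := hL
  exact (ln_eq hG h1 h2 hu hv huv).1

theorem l_three {u v w : V} (hu : u ∈ L) (hv : v ∈ L) (hw : w ∈ L) (huv : u ≠ v) (huw : u ≠ w) (hvw : v ≠ w) :
    nb G u ∩ nb G v ∩ nb G w = ∅ := by
  have h := l_eq hG hL hu hv huv
  rw [h, mem_ln] at hw
  rcases hw with h1 | h1 | h1
  · exact absurd h1.symm huw
  · exact absurd h1.symm hvw
  · exact (mem_tn.1 h1).2.2.2.2

/-- a vertex has 0 or 2 neighbours on a line -/
theorem l_j (w : V) : (nb G w ∩ L).card = 0 ∨ (nb G w ∩ L).card = 2 := by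
  have hle : ∀ z : V, (nb G z ∩ L).card ≤ 2 := by
    intro z
    by_contra hc
    rw [not_le, two_lt_card] at hc
    obtain ⟨a, ha, b, hb, c, hc, hab, hac, hbc⟩ := hc
    rw [mem_inter, mem_nb] at ha hb hc
    have h := l_three hG hL ha.2 hb.2 hc.2 hab hac hbc
    rw [eq_empty_iff_forall_notMem] at h
    apply h z
    rw [mem_inter, mem_inter, mem_nb, mem_nb, mem_nb]
    exact ⟨⟨ha.1.symm, hb.1.symm⟩, hc.1.symm⟩
  have m1 := sum_nb hG L
  have m2 := sum_nb_sq_coc hG (P := L) (fun p hp q hq => l_coc hG hL hp hq)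
  rw [l_card hG hL] at m1 m2
  have m3 : ∑ z : V, (((nb G z ∩ L).card : ℤ) * (2 - ((nb G z ∩ L).card : ℤ))) = 0 := by
    have : ∀ z : V, (((nb G z ∩ L).card : ℤ) * (2 - ((nb G z ∩ L).card : ℤ))) =
        2 * ((nb G z ∩ L).card : ℤ) - ((nb G z ∩ L).card : ℤ) ^ 2 := fun z => by ring
    rw [sum_congr rfl fun z _ => this z, sum_sub_distrib, ← mul_sum, m1, m2]
    norm_num
  have m4 := (sum_eq_zero_iff_of_nonneg (fun z _ => by
    have := hle z
    have h2 : ((nb G z ∩ L).card : ℤ) ≤ 2 := by exact_mod_cast this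
    exact mul_nonneg (by positivity) (by linarith))).1 m3 w (mem_univ w)
  rcases mul_eq_zero.1 m4 with h | h
  · left; exact_mod_cast h
  · right
    have : ((nb G w ∩ L).card : ℤ) = 2 := by linarith
    exact_mod_cast this

omit hG hL in
theorem dc (S P : Finset V) : ∑ z ∈ S, (nb G z ∩ P).card = ∑ p ∈ P, (nb G p ∩ S).card := by
  have h : ∑ z ∈ S, ((nb G z ∩ P).card : ℤ) = ∑ p ∈ P, ((nb G p ∩ S).card : ℤ) := by
    simp only [← sum_aj]
    rw [sum_comm]
    exact sum_congr rfl fun p _ => sum_congr rfl fun q _ => aj_symm _ _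
  exact_mod_cast h

theorem l_sum4 {x y : V} (hx : x ∈ L) (hxy : x ≠ y) (axy : ¬ G.Adj x y) :
    ∑ z ∈ L.erase x, (nb G x ∩ nb G y ∩ nb G z).card = 4 := by
  have h1 : ∀ z ∈ L.erase x, (nb G x ∩ nb G y ∩ nb G z).card = (nb G z ∩ (nb G x ∩ nb G y)).card := fun z _ => by
    rw [inter_comm]
  rw [sum_congr rfl h1, dc]
  have h2 : ∀ p ∈ nb G x ∩ nb G y, (nb G p ∩ L.erase x).card = 1 := by
    intro p hp
    rw [mem_inter, mem_nb] at hp
    have h3 : x ∈ nb G p ∩ L := mem_inter.2 ⟨mem_nb.2 hp.1.symm, hx⟩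
    have h4 : nb G p ∩ L.erase x = (nb G p ∩ L).erase x := by
      ext t; simp only [mem_inter, mem_erase]; tauto
    rw [h4, card_erase_of_mem h3]
    rcases l_j hG hL p with h | h
    · rw [card_eq_zero] at h
      rw [h] at h3
      exact absurd h3 (notMem_empty x)
    · rw [h]
  rw [sum_congr rfl h2, sum_const, mu4 hG hxy axy]
  rfl

theorem l_one {x y : V} (hx : x ∈ L) (hy : off G L y) : ∀ z ∈ L, z ≠ x → (nb G x ∩ nb G y ∩ nb G z).card = 1 := by
  have hxy : x ≠ y := by rintro rfl; exact hy.1 hx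
  have axy : ¬ G.Adj x y := fun h => hy.2 x hx h.symm
  have hs := l_sum4 hG hL hx hxy axy
  have hpos : ∀ z ∈ L.erase x, 1 ≤ (nb G x ∩ nb G y ∩ nb G z).card := by
    intro z hz
    rw [mem_erase] at hz
    rw [Nat.one_le_iff_ne_zero]
    intro h0
    rw [card_eq_zero] at h0
    have hzt : z ∈ tn G x y := by
      rw [mem_tn]
      exact ⟨hz.1, fun e => hy.1 (e ▸ hz.2), l_coc hG hL hx hz.2, hy.2 z hz.2, h0⟩
    have h1 := ln_eq_left hG hxy axy hzt
    have h2 := l_eq hG hL hx hz.2 hz.1.symm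
    apply hy.1
    rw [h2, h1]
    exact right_mem_ln x y
  intro z hz hzx
  have hz' : z ∈ L.erase x := mem_erase.2 ⟨hzx, hz⟩
  have hcard : (L.erase x).card = 4 := by rw [card_erase_of_mem hx, l_card hG hL]
  rw [← add_sum_erase _ _ hz'] at hs
  have h3 : 3 ≤ ∑ t ∈ (L.erase x).erase z, (nb G x ∩ nb G y ∩ nb G t).card := by
    have h4 : ((L.erase x).erase z).card = 3 := by rw [card_erase_of_mem hz', hcard]
    calc 3 = ∑ t ∈ (L.erase x).erase z, 1 := by rw [sum_const, h4]; rfl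
      _ ≤ _ := sum_le_sum fun t ht => hpos t (mem_of_mem_erase ht)
  have h5 := hpos z hz'
  omega

theorem l_off {w x : V} (hw : off G L w) (hx : x ∈ L) : ∀ w' ∈ ln G x w, w' ≠ x → off G L w' := by
  have hxw : x ≠ w := by rintro rfl; exact hw.1 hx
  have axw : ¬ G.Adj x w := fun h => hw.2 x hx h.symm
  have hK : IsL G (ln G x w) := ⟨x, w, hxw, axw, rfl⟩
  intro w' hw' hne
  -- no other common vertex of the two lines
  have hmeet : ∀ y ∈ L, y ≠ x → y ∉ ln G x w := by
    intro y hy hyx hyK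
    have h1 := l_eq hG hL hx hy hyx.symm
    have h2 := l_eq hG hK (left_mem_ln x w) hyK hyx.symm
    apply hw.1
    rw [h1, ← h2]
    exact right_mem_ln x w
  refine ⟨fun h => hmeet w' h hne hw', ?_⟩
  intro y hy hadj
  by_cases hyx : y = x
  · subst hyx
    exact l_coc hG hK hw' (left_mem_ln y w) hadj
  have hyK := hmeet y hy hyx
  have hww' : w' ≠ w := by rintro rfl; exact hw.2 y hy hadj
  have hxy : x ≠ y := fun e => hyx e.symm
  have axy : ¬ G.Adj x y := l_coc hG hL hx hy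
  have hs := l_sum4 hG hK (left_mem_ln x w) hxy axy
  have hj : (nb G y ∩ ln G x w).card = 2 := by
    rcases l_j hG hK y with h | h
    · rw [card_eq_zero, eq_empty_iff_forall_notMem] at h
      exact absurd (mem_inter.2 ⟨mem_nb.2 hadj.symm, hw'⟩) (h w')
    · exact h
  -- split
  rw [← sum_filter_add_sum_filter_not ((ln G x w).erase x) (fun z => z ∈ nb G y)] at hs
  have z1 : ∑ z ∈ ((ln G x w).erase x).filter (fun z => z ∈ nb G y), (nb G x ∩ nb G y ∩ nb G z).card = 0 := by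
    refine sum_eq_zero fun z hz => ?_
    rw [mem_filter, mem_nb] at hz
    rw [card_eq_zero, eq_empty_iff_forall_notMem]
    intro t ht
    rw [mem_inter, mem_inter, mem_nb, mem_nb, mem_nb] at ht
    exact tri hG hz.2 ht.1.2 ht.2
  rw [z1, zero_add] at hs
  set Q := ((ln G x w).erase x).filter (fun z => ¬ z ∈ nb G y) with hQ
  have hQc : Q.card = 2 := by
    have e1 : (((ln G x w).erase x).filter (fun z => z ∈ nb G y)).card + Q.card = ((ln G x w).erase x).card :=
      card_filter_add_card_filter_not _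
    have e2 : ((ln G x w).erase x).filter (fun z => z ∈ nb G y) = nb G y ∩ ln G x w := by
      ext z
      rw [mem_filter, mem_erase, mem_inter]
      constructor
      · exact fun h => ⟨h.2, h.1.2⟩
      · intro h
        refine ⟨⟨?_, h.2⟩, h.1⟩
        rintro rfl
        exact axy (mem_nb.1 h.1).symm
    rw [e2, hj, card_erase_of_mem (left_mem_ln x w), l_card hG hK] at e1
    omega
  have hwQ : w ∈ Q := by
    rw [hQ, mem_filter, mem_erase, mem_nb]
    exact ⟨⟨hxw.symm, right_mem_ln x w⟩, fun h => hw.2 y hy h.symm⟩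
  rw [← add_sum_erase _ _ hwQ] at hs
  have h1 : (nb G x ∩ nb G y ∩ nb G w).card = 1 := by
    have := l_one hG hL hx hw y hy hyx
    rw [inter_right_comm] at this
    exact this
  have h2 : (Q.erase w).card = 1 := by rw [card_erase_of_mem hwQ, hQc]
  obtain ⟨v, hv⟩ := card_eq_one.1 h2
  rw [hv, sum_singleton, h1] at hs
  have hvQ : v ∈ Q := mem_of_mem_erase (by rw [hv]; exact mem_singleton_self v)
  rw [hQ, mem_filter, mem_erase, mem_nb] at hvQ
  have h3 : (nb G x ∩ nb G y ∩ nb G v).card ≤ 2 := by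
    refine three_le hG hxy hvQ.1.1.symm ?_ axy (l_coc hG hK (left_mem_ln x w) hvQ.1.2) hvQ.2
    rintro rfl
    exact hyK hvQ.1.2
  omega

/-- the union of the lines joining w to L -/
def cc (G : SimpleGraph V) [DecidableRel G.Adj] (L : Finset V) (w : V) : Finset V := L.biUnion fun x => ln G x w

end line

end Cfsg.Agent.Mdx.Srg
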