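import Cfsg.Agent.Mdx.Srg3

/-!
# srg(77, 16, 0, 4): cocliques of size 21
-/

set_option autoImplicit false

namespace Cfsg.Agent.Mdx.Srg

open Finset Cfsg.Agent.Stn

variable {V : Type*} [Fintype V] [DecidableEq V] {G : SimpleGraph V} [DecidableRel G.Adj]

theorem off_ne {L : Finset V} {w x : V} (hw : off G L w) (hx : x ∈ L) : x ≠ w := by rintro rfl; exact hw.1 hx
theorem off_na {L : Finset V} {w x : V} (hw : off G L w) (hx : x ∈ L) : ¬ G.Adj x w := fun h => hw.2 x hx h.symm

theorem mem_cc {L : Finset V} {w u : V} : u ∈ cc G L w ↔ ∃ x ∈ L, u ∈ ln G x w := by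
  rw [cc, mem_biUnion]

variable (hG : G.IsSRGWith 77 16 0 4)
include hG

section line
variable {L : Finset V} (hL : IsL G L)
include hL

omit hG hL in
theorem ln_isL {L : Finset V} {w x : V} (hw : off G L w) (hx : x ∈ L) : IsL G (ln G x w) :=
  ⟨x, w, off_ne hw hx, off_na hw hx, rfl⟩

theorem cc_not_mem {w x x' : V} (hw : off G L w) (hx : x ∈ L) (hx' : x' ∈ L) (hne : x ≠ x') : x ∉ ln G x' w := by
  intro h
  have h1 := l_eq hG (ln_isL hw hx') h (left_mem_ln x' w) hne
  have h2 := l_eq hG hL hx hx' hne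
  apply hw.1
  rw [h2, ← h1]
  exact right_mem_ln x' w

theorem cc_meet {w x x' u : V} (hw : off G L w) (hx : x ∈ L) (hx' : x' ∈ L) (hne : x ≠ x')
    (h1 : u ∈ ln G x w) (h2 : u ∈ ln G x' w) : u = w := by
  by_contra huw
  have e1 := l_eq hG (ln_isL hw hx) (right_mem_ln x w) h1 (Ne.symm huw)
  have e2 := l_eq hG (ln_isL hw hx') (right_mem_ln x' w) h2 (Ne.symm huw)
  apply cc_not_mem hG hL hw hx hx' hne
  rw [e2, ← e1]
  exact left_mem_ln x w

theorem cc_off {w x x' : V} (hw : off G L w) (hx : x ∈ L) (hx' : x' ∈ L) (hne : x ≠ x') : off G (ln G x' w) x := by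
  refine ⟨cc_not_mem hG hL hw hx hx' hne, ?_⟩
  intro v hv hadj
  by_cases hvx : v = x'
  · subst hvx
    exact l_coc hG hL hx hx' hadj
  · exact (l_off hG hL hw hx' v hv hvx).2 x hx hadj.symm

theorem cc_coc {w : V} (hw : off G L w) {u v : V} (hu : u ∈ cc G L w) (hv : v ∈ cc G L w) : ¬ G.Adj u v := by
  rw [mem_cc] at hu hv
  obtain ⟨x, hx, hu⟩ := hu
  obtain ⟨x', hx', hv⟩ := hv
  by_cases hne : x = x'
  · subst hne
    exact l_coc hG (ln_isL hw hx) hu hv
  by_cases huw : u = w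
  · subst huw
    exact l_coc hG (ln_isL hw hx') (right_mem_ln x' u) hv
  have h1 := cc_off hG hL hw hx hx' hne
  have h2 := l_off hG (ln_isL hw hx') h1 (right_mem_ln x' w) u (by rw [ln_comm]; exact hu) huw
  exact h2.2 v hv

theorem cc_card {w : V} (hw : off G L w) : (cc G L w).card = 21 := by
  have hne : L.Nonempty := by rw [← card_pos, l_card hG hL]; norm_num
  obtain ⟨x0, hx0⟩ := hne
  have e1 : cc G L w = insert w (L.biUnion fun x => (ln G x w).erase w) := by
    ext u
    rw [mem_cc, mem_insert, mem_biUnion]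
    constructor
    · rintro ⟨x, hx, hu⟩
      by_cases huw : u = w
      · exact Or.inl huw
      · exact Or.inr ⟨x, hx, mem_erase.2 ⟨huw, hu⟩⟩
    · rintro (rfl | ⟨x, hx, hu⟩)
      · exact ⟨x0, hx0, right_mem_ln x0 u⟩
      · exact ⟨x, hx, mem_of_mem_erase hu⟩
  have e2 : w ∉ L.biUnion fun x => (ln G x w).erase w := by
    rw [mem_biUnion]
    rintro ⟨x, _, h⟩
    exact (mem_erase.1 h).1 rfl
  have e3 : (L.biUnion fun x => (ln G x w).erase w).card = ∑ x ∈ L, ((ln G x w).erase w).card := by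
    refine card_biUnion fun x hx x' hx' hne => ?_
    show Disjoint _ _
    rw [disjoint_left]
    intro u hu hu'
    rw [mem_erase] at hu hu'
    exact hu.1 (cc_meet hG hL hw hx hx' hne hu.2 hu'.2)
  have e4 : ∀ x ∈ L, ((ln G x w).erase w).card = 4 := by
    intro x hx
    rw [card_erase_of_mem (right_mem_ln x w), l_card hG (ln_isL hw hx)]
  rw [e1, card_insert_of_notMem e2, e3, sum_congr rfl e4, sum_const, l_card hG hL]
  rfl

omit hG hL in
theorem sub_cc (L : Finset V) (w : V) : L ⊆ cc G L w := fun x hx => mem_cc.2 ⟨x, hx, left_mem_ln x w⟩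

theorem self_cc (w : V) : w ∈ cc G L w := by
  have hne : L.Nonempty := by rw [← card_pos, l_card hG hL]; norm_num
  obtain ⟨x0, hx0⟩ := hne
  exact mem_cc.2 ⟨x0, hx0, right_mem_ln x0 w⟩

theorem off_of_cc {w u : V} (hw : off G L w) (hu : u ∈ cc G L w) (hu' : u ∉ L) : off G L u := by
  obtain ⟨x, hx, h⟩ := mem_cc.1 hu
  exact l_off hG hL hw hx u h (by rintro rfl; exact hu' hx)

omit hL in
theorem hoff {C : Finset V} (hC : C.card = 21) (hcoc : ∀ u ∈ C, ∀ v ∈ C, ¬ G.Adj u v) {z : V} (hz : z ∉ C) :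
    (nb G z ∩ C).card = 6 := by
  have m1 := sum_nb hG C
  have m2 := sum_nb_sq_coc hG hcoc
  rw [hC] at m1 m2
  have m3 : ∑ z : V, (((nb G z ∩ C).card : ℤ) - 6) ^ 2 = 756 := by
    have : ∀ z : V, (((nb G z ∩ C).card : ℤ) - 6) ^ 2 = ((nb G z ∩ C).card : ℤ) ^ 2 - 12 * ((nb G z ∩ C).card : ℤ) + 36 := fun z => by ring
    rw [sum_congr rfl fun z _ => this z, sum_add_distrib, sum_sub_distrib, ← mul_sum, m1, m2, sum_const, card_univ, hG.card]
    norm_num
  rw [← sum_filter_add_sum_filter_not univ (fun z => z ∈ C)] at m3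
  have m4 : ∑ z ∈ univ.filter (fun z => z ∈ C), (((nb G z ∩ C).card : ℤ) - 6) ^ 2 = 756 := by
    have : ∀ z ∈ univ.filter (fun z => z ∈ C), (((nb G z ∩ C).card : ℤ) - 6) ^ 2 = 36 := by
      intro z hz
      rw [mem_filter] at hz
      have : nb G z ∩ C = ∅ := by
        rw [eq_empty_iff_forall_notMem]
        intro t ht
        rw [mem_inter, mem_nb] at ht
        exact hcoc z hz.2 t ht.2 ht.1
      rw [this, card_empty]; norm_num
    rw [sum_congr rfl this, sum_const]
    have : (univ.filter fun z => z ∈ C) = C := by ext; simp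
    rw [this, hC]; norm_num
  have m5 : ∑ z ∈ univ.filter (fun z => ¬ z ∈ C), (((nb G z ∩ C).card : ℤ) - 6) ^ 2 = 0 := by linarith
  have m6 := (sum_eq_zero_iff_of_nonneg (fun z _ => sq_nonneg _)).1 m5 z (mem_filter.2 ⟨mem_univ z, hz⟩)
  have m7 : ((nb G z ∩ C).card : ℤ) - 6 = 0 := by
    exact pow_eq_zero_iff (two_ne_zero) |>.1 m6
  have : ((nb G z ∩ C).card : ℤ) = 6 := by linarith
  exact_mod_cast this

theorem six_zero {z : V} (hz : off G L z) : ((nb G z).filter fun u => (nb G u ∩ L).card = 0).card = 6 := by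
  have h1 : ∑ u ∈ nb G z, (nb G u ∩ L).card = 20 := by
    rw [dc]
    have : ∀ x ∈ L, (nb G x ∩ nb G z).card = 4 := fun x hx => mu4 hG (off_ne hz hx) (off_na hz hx)
    rw [sum_congr rfl this, sum_const, l_card hG hL]; rfl
  rw [← sum_filter_add_sum_filter_not (nb G z) (fun u => (nb G u ∩ L).card = 0)] at h1
  have h2 : ∑ u ∈ (nb G z).filter (fun u => (nb G u ∩ L).card = 0), (nb G u ∩ L).card = 0 :=
    sum_eq_zero fun u hu => (mem_filter.1 hu).2
  have h3 : ∀ u ∈ (nb G z).filter (fun u => ¬ (nb G u ∩ L).card = 0), (nb G u ∩ L).card = 2 := by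
    intro u hu
    rcases l_j hG hL u with h | h
    · exact absurd h (mem_filter.1 hu).2
    · exact h
  rw [h2, sum_congr rfl h3, sum_const, smul_eq_mul] at h1
  have h4 : ((nb G z).filter fun u => (nb G u ∩ L).card = 0).card + ((nb G z).filter fun u => ¬ (nb G u ∩ L).card = 0).card =
    (nb G z).card := card_filter_add_card_filter_not _
  rw [nbc hG] at h4
  omega

theorem zero_mem_cc {w z u : V} (hw : off G L w) (hz : off G L z) (hzc : z ∉ cc G L w) (hu : G.Adj z u)
    (hu0 : (nb G u ∩ L).card = 0) : u ∈ cc G L w := by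
  have h1 := hoff hG (cc_card hG hL hw) (fun a ha b hb => cc_coc hG hL hw ha hb) hzc
  have h2 := six_zero hG hL hz
  have hsub : nb G z ∩ cc G L w ⊆ (nb G z).filter fun u => (nb G u ∩ L).card = 0 := by
    intro t ht
    rw [mem_inter] at ht
    rw [mem_filter]
    refine ⟨ht.1, ?_⟩
    have htL : t ∉ L := fun h => hz.2 t h (mem_nb.1 ht.1)
    have hto := off_of_cc hG hL hw ht.2 htL
    rw [card_eq_zero, eq_empty_iff_forall_notMem]
    intro s hs
    rw [mem_inter, mem_nb] at hs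
    exact hto.2 s hs.2 hs.1
  have he := eq_of_subset_of_card_le hsub (by rw [h1, h2])
  have : u ∈ nb G z ∩ cc G L w := by
    rw [he, mem_filter]
    exact ⟨mem_nb.2 hu, hu0⟩
  exact (mem_inter.1 this).2

theorem cc_eq {w u : V} (hw : off G L w) (hu : u ∈ cc G L w) (huL : u ∉ L) : cc G L u = cc G L w := by
  have huo := off_of_cc hG hL hw hu huL
  refine eq_of_subset_of_card_le ?_ (by rw [cc_card hG hL hw, cc_card hG hL huo])
  intro v hv
  by_contra hvc
  obtain ⟨x, hx, hvx⟩ := mem_cc.1 hv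
  have hvne : v ≠ x := by rintro rfl; exact hvc (sub_cc L w hx)
  have hvu : u ≠ v := by rintro rfl; exact hvc hu
  have hvo := l_off hG hL huo hx v hvx hvne
  have hK := ln_isL huo hx
  have auv := l_coc hG hK (right_mem_ln x u) hvx
  have hxu := off_ne huo hx
  have hs : ∑ q ∈ nb G u ∩ nb G v, (nb G q ∩ L).card = 4 := by
    rw [dc, ← add_sum_erase _ _ hx]
    have h0 : (nb G x ∩ (nb G u ∩ nb G v)).card = 0 := by
      rw [← inter_assoc, card_eq_zero]
      exact l_three hG hK (left_mem_ln x u) (right_mem_ln x u) hvx hxu hvne.symm hvu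
    have h1 : ∀ y ∈ L.erase x, (nb G y ∩ (nb G u ∩ nb G v)).card = 1 := by
      intro y hy
      rw [mem_erase] at hy
      have hyo : off G (ln G x u) y := cc_off hG hL huo hy.2 hx hy.1
      have := l_one hG hK (right_mem_ln x u) hyo v hvx hvu.symm
      rw [← this]
      congr 1
      ext t; simp only [mem_inter]; tauto
    rw [h0, sum_congr rfl h1, sum_const, card_erase_of_mem hx, l_card hG hL]
    rfl
  have hP := mu4 hG hvu auv
  have hex : ∃ q ∈ nb G u ∩ nb G v, (nb G q ∩ L).card = 0 := by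
    by_contra hc
    push Not at hc
    have : ∀ q ∈ nb G u ∩ nb G v, (nb G q ∩ L).card = 2 := by
      intro q hq
      rcases l_j hG hL q with h | h
      · exact absurd h (hc q hq)
      · exact h
    rw [sum_congr rfl this, sum_const, hP] at hs
    norm_num at hs
  obtain ⟨q, hq, hq0⟩ := hex
  rw [mem_inter, mem_nb, mem_nb] at hq
  have hqc := zero_mem_cc hG hL hw hvo hvc hq.2 hq0
  exact cc_coc hG hL hw hu hqc hq.1

theorem cc_closed {w : V} (hw : off G L w) {u v : V} (hu : u ∈ cc G L w) (hv : v ∈ cc G L w) (huv : u ≠ v) :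
    ln G u v ⊆ cc G L w := by
  have key : ∀ {a b : V}, a ∈ cc G L w → b ∈ cc G L w → a ≠ b → a ∉ L → ln G a b ⊆ cc G L w := by
    intro a b ha hb hab haL
    have hao := off_of_cc hG hL hw ha haL
    rw [← cc_eq hG hL hw ha haL] at hb ⊢
    obtain ⟨x, hx, hbx⟩ := mem_cc.1 hb
    rw [← l_eq hG (ln_isL hao hx) (right_mem_ln x a) hbx hab]
    intro t ht
    exact mem_cc.2 ⟨x, hx, ht⟩
  by_cases h1 : u ∈ L
  · by_cases h2 : v ∈ L
    · rw [← l_eq hG hL h1 h2 huv]
      exact sub_cc L w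
    · rw [ln_comm]
      exact key hv hu huv.symm h2
  · exact key hu hv huv h1

end line

end Cfsg.Agent.Mdx.Srg
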