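import Cfsg.Agent.Mdx.Srg4
import Cfsg.Agent.H8.SRG
import Cfsg.Agent.S0410

/-!
# srg(77, 16, 0, 4): the Steiner system S(3, 6, 22)
-/

set_option autoImplicit false

namespace Cfsg.Agent.Mdx.Srg

open Finset Cfsg.Agent.Stn

variable {V : Type*} [Fintype V] [DecidableEq V] {G : SimpleGraph V} [DecidableRel G.Adj]

/-- the points: cocliques of size 21 closed under lines -/
def IsP (G : SimpleGraph V) [DecidableRel G.Adj] (C : Finset V) : Prop :=
  C.card = 21 ∧ (∀ u ∈ C, ∀ v ∈ C, ¬ G.Adj u v) ∧ ∀ u ∈ C, ∀ v ∈ C, u ≠ v → ln G u v ⊆ C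

open scoped Classical in
/-- the finite set of points -/
noncomputable def pts (G : SimpleGraph V) [DecidableRel G.Adj] : Finset (Finset V) := univ.filter (IsP G)

theorem mem_pts {C : Finset V} : C ∈ pts G ↔ IsP G C := by
  simp [pts]

variable (hG : G.IsSRGWith 77 16 0 4)
include hG

theorem cc_pts {L : Finset V} (hL : IsL G L) {w : V} (hw : off G L w) : cc G L w ∈ pts G :=
  mem_pts.2 ⟨cc_card hG hL hw, fun _ hu _ hv => cc_coc hG hL hw hu hv, fun _ hu _ hv huv => cc_closed hG hL hw hu hv huv⟩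

theorem pts_line {L : Finset V} (hL : IsL G L) {C : Finset V} (hC : C ∈ pts G) (hLC : L ⊆ C) {w : V} (hw : w ∈ C)
    (hwL : w ∉ L) : off G L w ∧ cc G L w = C := by
  rw [mem_pts] at hC
  have ho : off G L w := ⟨hwL, fun y hy => hC.2.1 w hw y (hLC hy)⟩
  refine ⟨ho, eq_of_subset_of_card_le ?_ (by rw [cc_card hG hL ho, hC.1])⟩
  intro t ht
  obtain ⟨x, hx, htx⟩ := mem_cc.1 ht
  exact hC.2.2 x (hLC hx) w hw (off_ne ho hx) htx

theorem off_card {L : Finset V} (hL : IsL G L) [DecidablePred (off G L)] : (univ.filter (off G L)).card = 32 := by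
  have h1 : ∑ z : V, (nb G z ∩ L).card = 80 := by
    have := sum_nb hG L
    rw [l_card hG hL] at this
    exact_mod_cast this
  rw [← sum_filter_add_sum_filter_not univ (fun z => (nb G z ∩ L).card = 0)] at h1
  have h2 : ∑ u ∈ univ.filter (fun u => (nb G u ∩ L).card = 0), (nb G u ∩ L).card = 0 :=
    sum_eq_zero fun u hu => (mem_filter.1 hu).2
  have h3 : ∀ u ∈ univ.filter (fun u => ¬ (nb G u ∩ L).card = 0), (nb G u ∩ L).card = 2 := by
    intro u hu
    rcases l_j hG hL u with h | h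
    · exact absurd h (mem_filter.1 hu).2
    · exact h
  rw [h2, sum_congr rfl h3, sum_const, smul_eq_mul] at h1
  have h4 : (univ.filter fun u => (nb G u ∩ L).card = 0).card + (univ.filter fun u => ¬ (nb G u ∩ L).card = 0).card =
    (univ : Finset V).card := card_filter_add_card_filter_not _
  rw [card_univ, hG.card] at h4
  have h5 : (univ.filter fun u => (nb G u ∩ L).card = 0) = L ∪ univ.filter (off G L) := by
    ext u
    rw [mem_filter, mem_union, mem_filter]
    constructor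
    · rintro ⟨_, h⟩
      by_cases hu : u ∈ L
      · exact Or.inl hu
      · refine Or.inr ⟨mem_univ _, hu, fun y hy hadj => ?_⟩
        rw [card_eq_zero, eq_empty_iff_forall_notMem] at h
        exact h y (mem_inter.2 ⟨mem_nb.2 hadj, hy⟩)
    · intro h
      refine ⟨mem_univ _, ?_⟩
      rw [card_eq_zero, eq_empty_iff_forall_notMem]
      intro y hy
      rw [mem_inter, mem_nb] at hy
      rcases h with h | h
      · exact l_coc hG hL h hy.2 hy.1
      · exact h.2.2 y hy.2 hy.1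
  have h6 : Disjoint L (univ.filter (off G L)) := by
    rw [disjoint_left]
    intro u hu hu'
    exact (mem_filter.1 hu').2.1 hu
  rw [h5, card_union_of_disjoint h6, l_card hG hL] at h4
  omega

theorem two {L : Finset V} (hL : IsL G L) : ((pts G).filter (fun C => L ⊆ C)).card = 2 := by
  classical
  have h1 : univ.filter (off G L) = ((pts G).filter (fun C => L ⊆ C)).biUnion (fun C => C \ L) := by
    ext w
    rw [mem_filter, mem_biUnion]
    constructor
    · rintro ⟨_, hw⟩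
      refine ⟨cc G L w, mem_filter.2 ⟨cc_pts hG hL hw, sub_cc L w⟩, ?_⟩
      rw [mem_sdiff]
      exact ⟨self_cc hG hL w, hw.1⟩
    · rintro ⟨C, hC, hw⟩
      rw [mem_filter] at hC
      rw [mem_sdiff] at hw
      exact ⟨mem_univ _, (pts_line hG hL hC.1 hC.2 hw.1 hw.2).1⟩
  have h2 : (((pts G).filter (fun C => L ⊆ C)).biUnion (fun C => C \ L)).card =
      ∑ C ∈ (pts G).filter (fun C => L ⊆ C), (C \ L).card := by
    refine card_biUnion fun C hC C' hC' hne => ?_
    show Disjoint _ _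
    rw [disjoint_left]
    intro w hw hw'
    rw [mem_sdiff] at hw hw'
    rw [mem_coe, mem_filter] at hC hC'
    apply hne
    rw [← (pts_line hG hL hC.1 hC.2 hw.1 hw.2).2, ← (pts_line hG hL hC'.1 hC'.2 hw'.1 hw'.2).2]
  have h3 : ∀ C ∈ (pts G).filter (fun C => L ⊆ C), (C \ L).card = 16 := by
    intro C hC
    rw [mem_filter] at hC
    rw [card_sdiff_of_subset hC.2, (mem_pts.1 hC.1).1, l_card hG hL]
  rw [← h1, off_card hG hL, sum_congr rfl h3, sum_const, smul_eq_mul] at h2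
  omega

theorem pair_count {u v : V} (huv : u ≠ v) (auv : ¬ G.Adj u v) : ((pts G).filter (fun C => u ∈ C ∧ v ∈ C)).card = 2 := by
  have hL : IsL G (ln G u v) := ⟨u, v, huv, auv, rfl⟩
  rw [← two hG hL]
  congr 1
  ext C
  rw [mem_filter, mem_filter]
  constructor
  · rintro ⟨h1, h2, h3⟩
    exact ⟨h1, (mem_pts.1 h1).2.2 u h2 v h3 huv⟩
  · rintro ⟨h1, h2⟩
    exact ⟨h1, h2 (left_mem_ln u v), h2 (right_mem_ln u v)⟩

omit hG in
theorem pair_adj {u v : V} (auv : G.Adj u v) : ((pts G).filter (fun C => u ∈ C ∧ v ∈ C)).card = 0 := by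
  rw [card_eq_zero, eq_empty_iff_forall_notMem]
  intro C hC
  rw [mem_filter] at hC
  exact (mem_pts.1 hC.1).2.1 u hC.2.1 v hC.2.2 auv

omit [Fintype V] hG in
theorem inter_ones (C S : Finset V) : (C ∩ S).card = ∑ x ∈ S, if x ∈ C then 1 else 0 := by
  rw [inter_comm, ← filter_mem_eq_inter, card_filter]

omit hG in
theorem dcP (S : Finset V) (F : Finset (Finset V)) : ∑ C ∈ F, (C ∩ S).card = ∑ x ∈ S, (F.filter (fun C => x ∈ C)).card := by
  rw [sum_congr rfl fun C _ => inter_ones C S, sum_comm]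
  exact sum_congr rfl fun x _ => (card_filter _ _).symm

theorem rep (x : V) : ((pts G).filter (fun C => x ∈ C)).card = 6 := by
  have h1 := dcP (univ.erase x) ((pts G).filter (fun C => x ∈ C))
  have h2 : ∀ C ∈ (pts G).filter (fun C => x ∈ C), (C ∩ univ.erase x).card = 20 := by
    intro C hC
    rw [mem_filter] at hC
    have : C ∩ univ.erase x = C.erase x := by ext t; simp only [mem_inter, mem_erase, mem_univ]; tauto
    rw [this, card_erase_of_mem hC.2, (mem_pts.1 hC.1).1]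
  rw [sum_congr rfl h2, sum_const, smul_eq_mul] at h1
  have h3 : ∀ y ∈ univ.erase x, (((pts G).filter (fun C => x ∈ C)).filter (fun C => y ∈ C)).card =
      if y ∈ univ.erase x \ nb G x then 2 else 0 := by
    intro y hy
    rw [mem_erase] at hy
    rw [filter_filter]
    by_cases h : G.Adj x y
    · rw [pair_adj h, if_neg]
      rw [mem_sdiff, mem_nb]
      exact fun h' => h'.2 h
    · rw [pair_count hG hy.1.symm h, if_pos]
      rw [mem_sdiff, mem_nb, mem_erase]
      exact ⟨hy, h⟩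
  rw [sum_congr rfl h3, ← sum_filter] at h1
  have h4 : (univ.erase x).filter (fun y => y ∈ univ.erase x \ nb G x) = univ.erase x \ nb G x := by
    ext t; simp only [mem_filter, mem_sdiff]; tauto
  have h5 : (univ.erase x \ nb G x).card = 60 := by
    rw [card_sdiff_of_subset, card_erase_of_mem (mem_univ x), card_univ, hG.card, nbc hG]
    intro t ht
    rw [mem_erase]
    exact ⟨fun e => G.irrefl (e ▸ mem_nb.1 ht), mem_univ _⟩
  rw [h4, sum_const, h5, smul_eq_mul] at h1
  omega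

theorem pts_card : (pts G).card = 22 := by
  have h1 := dcP univ (pts G)
  have h2 : ∀ C ∈ pts G, (C ∩ univ).card = 21 := fun C hC => by rw [inter_univ, (mem_pts.1 hC).1]
  rw [sum_congr rfl h2, sum_congr rfl fun x _ => rep hG x, sum_const, sum_const, card_univ, hG.card, smul_eq_mul, smul_eq_mul] at h1
  omega

theorem meet5 {C C' : Finset V} (hC : C ∈ pts G) (hC' : C' ∈ pts G) (hne : C' ≠ C) : (C' ∩ C).card = 5 := by
  have h1 := dcP C (pts G)
  rw [sum_congr rfl fun x _ => rep hG x, sum_const, (mem_pts.1 hC).1] at h1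
  have h2 : ∑ D ∈ pts G, (D ∩ C).card ^ 2 = 966 := by
    have e1 : ∀ D ∈ pts G, (D ∩ C).card ^ 2 = ∑ x ∈ C, ∑ y ∈ C, if (x ∈ D ∧ y ∈ D) then 1 else 0 := by
      intro D _
      rw [sq, inter_ones, sum_mul_sum]
      refine sum_congr rfl fun x _ => sum_congr rfl fun y _ => ?_
      by_cases a : x ∈ D <;> by_cases b : y ∈ D <;> simp [a, b]
    rw [sum_congr rfl e1, sum_comm]
    have e2 : ∀ x ∈ C, ∑ D ∈ pts G, ∑ y ∈ C, (if (x ∈ D ∧ y ∈ D) then 1 else 0) = 46 := by
      intro x hx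
      rw [sum_comm, ← add_sum_erase _ _ hx]
      have e3 : ∑ D ∈ pts G, (if (x ∈ D ∧ x ∈ D) then 1 else 0) = 6 := by
        rw [← card_filter, ← rep hG x]
        congr 1
        ext; simp
      have e4 : ∀ y ∈ C.erase x, ∑ D ∈ pts G, (if (x ∈ D ∧ y ∈ D) then 1 else 0) = 2 := by
        intro y hy
        rw [mem_erase] at hy
        rw [← card_filter, pair_count hG hy.1.symm ((mem_pts.1 hC).2.1 x hx y hy.2)]
      rw [e3, sum_congr rfl e4, sum_const, card_erase_of_mem hx, (mem_pts.1 hC).1]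
      rfl
    rw [sum_congr rfl e2, sum_const, (mem_pts.1 hC).1]
    rfl
  have h3 : ∑ D ∈ pts G, (((D ∩ C).card : ℤ) - 5) ^ 2 = 256 := by
    have : ∀ D : Finset V, (((D ∩ C).card : ℤ) - 5) ^ 2 = ((D ∩ C).card : ℤ) ^ 2 - 10 * ((D ∩ C).card : ℤ) + 25 := fun D => by ring
    have g1 : ∑ D ∈ pts G, ((D ∩ C).card : ℤ) = 126 := by exact_mod_cast h1
    have g2 : ∑ D ∈ pts G, ((D ∩ C).card : ℤ) ^ 2 = 966 := by exact_mod_cast h2
    rw [sum_congr rfl fun D _ => this D, sum_add_distrib, sum_sub_distrib, ← mul_sum, g1, g2, sum_const, pts_card hG]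
    norm_num
  rw [← add_sum_erase _ _ hC, inter_self, (mem_pts.1 hC).1] at h3
  have h4 : ∑ D ∈ (pts G).erase C, (((D ∩ C).card : ℤ) - 5) ^ 2 = 0 := by
    push_cast at h3
    linarith
  have h5 := (sum_eq_zero_iff_of_nonneg (fun D _ => sq_nonneg _)).1 h4 C' (mem_erase.2 ⟨hne, hC'⟩)
  have h6 : ((C' ∩ C).card : ℤ) - 5 = 0 := pow_eq_zero_iff (two_ne_zero) |>.1 h5
  have : ((C' ∩ C).card : ℤ) = 5 := by linarith
  exact_mod_cast this

theorem meet_line {C C' : Finset V} (hC : C ∈ pts G) (hC' : C' ∈ pts G) (hne : C' ≠ C) : IsL G (C' ∩ C) := by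
  have h5 := meet5 hG hC hC' hne
  obtain ⟨u, hu, v, hv, huv⟩ := one_lt_card.1 (by rw [h5]; norm_num : 1 < (C' ∩ C).card)
  rw [mem_inter] at hu hv
  have auv := (mem_pts.1 hC).2.1 u hu.2 v hv.2
  refine ⟨u, v, huv, auv, ?_⟩
  refine (eq_of_subset_of_card_le ?_ (by rw [h5, ln_card hG huv auv])).symm
  exact subset_inter ((mem_pts.1 hC').2.2 u hu.1 v hv.1 huv) ((mem_pts.1 hC).2.2 u hu.2 v hv.2 huv)

theorem triple {C1 C2 C3 : Finset V} (h1 : C1 ∈ pts G) (h2 : C2 ∈ pts G) (h3 : C3 ∈ pts G) (h12 : C1 ≠ C2)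
    (h13 : C1 ≠ C3) (h23 : C2 ≠ C3) : (C3 ∩ (C1 ∩ C2)).card = 1 := by
  have hL := meet_line hG h2 h1 h12
  have hs := dcP (C1 ∩ C2) (pts G)
  rw [sum_congr rfl fun x _ => rep hG x, sum_const, l_card hG hL] at hs
  have m2 : C2 ∈ (pts G).erase C1 := mem_erase.2 ⟨h12.symm, h2⟩
  rw [← add_sum_erase _ _ h1, ← add_sum_erase _ _ m2] at hs
  have e1 : (C1 ∩ (C1 ∩ C2)).card = 5 := by rw [← inter_assoc, inter_self, l_card hG hL]
  have e2 : (C2 ∩ (C1 ∩ C2)).card = 5 := by
    rw [show C2 ∩ (C1 ∩ C2) = C1 ∩ C2 by ext; simp, l_card hG hL]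
  rw [e1, e2] at hs
  have hle : ∀ D ∈ ((pts G).erase C1).erase C2, (D ∩ (C1 ∩ C2)).card ≤ 1 := by
    intro D hD
    rw [mem_erase, mem_erase] at hD
    by_contra hc
    rw [not_le] at hc
    obtain ⟨u, hu, v, hv, huv⟩ := one_lt_card.1 hc
    rw [mem_inter] at hu hv
    have hLD : C1 ∩ C2 ⊆ D := by
      rw [l_eq hG hL hu.2 hv.2 huv]
      exact (mem_pts.1 hD.2.2).2.2 u hu.1 v hv.1 huv
    have h2' := two hG hL
    have hsub : ({C1, C2, D} : Finset (Finset V)) ⊆ (pts G).filter (fun C => C1 ∩ C2 ⊆ C) := by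
      intro E hE
      rw [mem_insert, mem_insert, mem_singleton] at hE
      rw [mem_filter]
      rcases hE with rfl | rfl | rfl
      · exact ⟨h1, inter_subset_left⟩
      · exact ⟨h2, inter_subset_right⟩
      · exact ⟨hD.2.2, hLD⟩
    have := card_le_card hsub
    rw [h2', card_eq_three.2 ⟨C1, C2, D, h12, hD.2.1.symm, hD.1.symm, rfl⟩] at this
    omega
  have m3 : C3 ∈ ((pts G).erase C1).erase C2 := mem_erase.2 ⟨h23.symm, mem_erase.2 ⟨h13.symm, h3⟩⟩
  have hcard : (((pts G).erase C1).erase C2).card = 20 := by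
    rw [card_erase_of_mem m2, card_erase_of_mem h1, pts_card hG]
  rw [← add_sum_erase _ _ m3] at hs
  have hle2 : ∑ D ∈ (((pts G).erase C1).erase C2).erase C3, (D ∩ (C1 ∩ C2)).card ≤ 19 := by
    calc _ ≤ ∑ D ∈ (((pts G).erase C1).erase C2).erase C3, 1 := sum_le_sum fun D hD => hle D (mem_of_mem_erase hD)
      _ = 19 := by rw [sum_const, card_erase_of_mem m3, hcard]; rfl
  have := hle C3 m3
  simp only [smul_eq_mul] at hs
  omega

omit hG in
open scoped Classical in
/-- blocks -/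
noncomputable def bk (G : SimpleGraph V) [DecidableRel G.Adj] (x : V) : Finset {C // C ∈ pts G} := univ.filter fun C => x ∈ C.1

omit hG in
theorem mem_bk {x : V} {C : {C // C ∈ pts G}} : C ∈ bk G x ↔ x ∈ C.1 := by
  simp [bk]

omit hG in
theorem bk_count (S : Finset {C // C ∈ pts G}) (P : Finset V → Prop) [DecidablePred P] (h : ∀ C : {C // C ∈ pts G}, C ∈ S ↔ P C.1) :
    S.card = ((pts G).filter P).card := by
  rw [← card_map (Function.Embedding.subtype _)]
  congr 1
  ext D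
  rw [mem_map, mem_filter]
  constructor
  · rintro ⟨C, hC, rfl⟩
    exact ⟨C.2, (h C).1 hC⟩
  · rintro ⟨h1, h2⟩
    exact ⟨⟨D, h1⟩, (h _).2 h2, rfl⟩

theorem bk_card (x : V) : (bk G x).card = 6 := by
  rw [bk_count (bk G x) (fun C => x ∈ C) (fun C => mem_bk), rep hG x]

theorem bk_inter {x y : V} (h : x ≠ y) (h' : ¬ G.Adj x y) : (bk G x ∩ bk G y).card = 2 := by
  rw [bk_count (bk G x ∩ bk G y) (fun C => x ∈ C ∧ y ∈ C) (fun C => by rw [mem_inter, mem_bk, mem_bk]), pair_count hG h h']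

theorem bk_inj {x y : V} (h : bk G x = bk G y) : x = y := by
  by_contra hne
  by_cases hadj : G.Adj x y
  · have h1 : (bk G x).card = 0 := by
      rw [← inter_self (bk G x)]
      nth_rw 2 [h]
      rw [bk_count (bk G x ∩ bk G y) (fun C => x ∈ C ∧ y ∈ C) (fun C => by rw [mem_inter, mem_bk, mem_bk]), pair_adj hadj]
    rw [bk_card hG] at h1
    omega
  · have h1 := bk_inter hG hne hadj
    rw [h, inter_self, bk_card hG] at h1
    omega

theorem steiner : Fintype.card {C // C ∈ pts G} = 22 ∧ IsSteinerSystem 3 6 (Set.range (bk G)) := by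
  refine ⟨by rw [Fintype.card_coe, pts_card hG], ?_, ?_⟩
  · rintro b ⟨x, rfl⟩
    exact bk_card hG x
  · intro s hs
    obtain ⟨A, B, C, hAB, hAC, hBC, rfl⟩ := card_eq_three.1 hs
    have ht := triple hG A.2 B.2 C.2 (fun e => hAB (Subtype.ext e)) (fun e => hAC (Subtype.ext e)) (fun e => hBC (Subtype.ext e))
    obtain ⟨x, hx⟩ := card_eq_one.1 ht
    have hx' : x ∈ C.1 ∩ (A.1 ∩ B.1) := by rw [hx]; exact mem_singleton_self x
    rw [mem_inter, mem_inter] at hx'
    refine ⟨bk G x, ⟨⟨x, rfl⟩, ?_⟩, ?_⟩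
    · intro D hD
      rw [mem_insert, mem_insert, mem_singleton] at hD
      rw [mem_bk]
      rcases hD with rfl | rfl | rfl
      · exact hx'.2.1
      · exact hx'.2.2
      · exact hx'.1
    · rintro b ⟨⟨y, rfl⟩, hb⟩
      have hy : y ∈ C.1 ∩ (A.1 ∩ B.1) := by
        rw [mem_inter, mem_inter, ← mem_bk, ← mem_bk, ← mem_bk]
        exact ⟨hb (by simp), hb (by simp), hb (by simp)⟩
      rw [hx, mem_singleton] at hy
      rw [hy]

/-- the graph is the block graph -/
theorem iso_block : Nonempty (G ≃g blockGraph (Set.range (bk G))) := by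
  let e : V ≃ Set.range (bk G) := Equiv.ofInjective (bk G) (fun _ _ h => bk_inj hG h)
  refine ⟨⟨e, ?_⟩⟩
  intro x y
  have h1 : ∀ x : V, (e x : Finset {C // C ∈ pts G}) = bk G x := fun _ => rfl
  rw [Cfsg.Agent.H8.SRG.block_adj (steiner hG).2, h1, h1, disjoint_iff_inter_eq_empty, ← card_eq_zero]
  constructor
  · intro h
    by_contra hadj
    by_cases hxy : x = y
    · subst hxy
      rw [inter_self, bk_card hG] at h
      omega
    · rw [bk_inter hG hxy hadj] at h
      omega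
  · intro h
    rw [bk_count (bk G x ∩ bk G y) (fun C => x ∈ C ∧ y ∈ C) (fun C => by rw [mem_inter, mem_bk, mem_bk]), pair_adj h]

end Cfsg.Agent.Mdx.Srg
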